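import Cfsg.Agent.Lib.J4K.Code

/-!
# Basic lemmas on the coordinate structures
-/

set_option autoImplicit false
set_option Elab.async false

namespace CfsgLib.J4K

open Cfsg CfsgLib.J4T CfsgLib.ExtraTwo CfsgLib.LargeExtra Subgroup

variable {G : Type*} [Group G]

/-- a map with at most `s.card` values whose fibres lie in cosets of `B` -/
theorem card_le_of_fib [Finite G] {β : Type*} (A B : Subgroup G) (f : G → β) (s : Finset β)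
    (hs : ∀ x ∈ A, f x ∈ s) (hf : ∀ x ∈ A, ∀ y ∈ A, f x = f y → x⁻¹ * y ∈ B) :
    Nat.card A ≤ s.card * Nat.card (A ⊓ B : Subgroup G) := by
  classical
  let r : β → G := fun b => if h : ∃ x ∈ A, f x = b then h.choose else 1
  have hr : ∀ x ∈ A, r (f x) ∈ A ∧ f (r (f x)) = f x := fun x hx => by
    have h : ∃ y ∈ A, f y = f x := ⟨x, hx, rfl⟩
    simp only [r, dif_pos h]; exact h.choose_spec
  let φ : A → s × (A ⊓ B : Subgroup G) := fun x =>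
    (⟨f x, hs x x.2⟩, ⟨(r (f x))⁻¹ * x, mem_inf.2 ⟨mul_mem (inv_mem (hr x x.2).1) x.2,
      hf _ (hr x x.2).1 _ x.2 (hr x x.2).2⟩⟩)
  have hφ : Function.Injective φ := fun x y h => by
    have h1 : f x = f y := congrArg (fun p => (p.1 : β)) h
    have h2 : (r (f x))⁻¹ * x = (r (f y))⁻¹ * y := congrArg (fun p => (p.2 : G)) h
    rw [h1] at h2
    exact Subtype.ext (mul_left_cancel h2)
  have := Nat.card_le_card_of_injective φ hφ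
  rwa [Nat.card_prod, Nat.card_eq_fintype_card (α := s), Fintype.card_coe] at this

/-- a map onto `s` whose fibres are the cosets of `B` -/
theorem card_eq_of_fib {β : Type*} (A B : Subgroup G) (f : G → β) (s : Finset β)
    (hs : ∀ b, b ∈ s ↔ ∃ x ∈ A, f x = b) (hf : ∀ x ∈ A, ∀ y ∈ A, (f x = f y ↔ x⁻¹ * y ∈ B)) :
    Nat.card A = s.card * Nat.card (A ⊓ B : Subgroup G) := by
  classical
  choose! r hr using fun b (h : b ∈ s) => (hs b).1 h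
  have hm : ∀ x ∈ A, f x ∈ s := fun x hx => (hs _).2 ⟨x, hx, rfl⟩
  let φ : A ≃ s × (A ⊓ B : Subgroup G) :=
    { toFun := fun x => (⟨f x, hm x x.2⟩, ⟨(r (f x))⁻¹ * x, mem_inf.2 ⟨mul_mem (inv_mem (hr _ (hm x x.2)).1) x.2,
        (hf _ (hr _ (hm x x.2)).1 _ x.2).1 (hr _ (hm x x.2)).2⟩⟩)
      invFun := fun p => ⟨r p.1 * p.2, mul_mem (hr _ p.1.2).1 p.2.2.1⟩
      left_inv := fun x => Subtype.ext (mul_inv_cancel_left _ _)
      right_inv := fun p => by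
        have e : f (r p.1 * p.2) = p.1 := by
          rw [← (hf _ (hr _ p.1.2).1 _ (mul_mem (hr _ p.1.2).1 p.2.2.1)).2 (by
            rw [inv_mul_cancel_left]; exact p.2.2.2), (hr _ p.1.2).2]
        refine Prod.ext (Subtype.ext e) (Subtype.ext ?_)
        show (r (f (r p.1 * p.2)))⁻¹ * (r p.1 * p.2) = p.2
        rw [e, inv_mul_cancel_left] }
  rw [Nat.card_congr φ, Nat.card_prod, Nat.card_eq_fintype_card (α := s), Fintype.card_coe]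

namespace KC

variable (c : KC G)

theorem σ_def {k : G} (hk : k ∈ c.K) : c.σ k = pm (c.σh ⟨k, hk⟩) := c.σ_eq ⟨k, hk⟩

theorem σ_mem {k : G} (hk : k ∈ c.K) : c.σ k ∈ s5L := by rw [c.σ_def hk]; exact pm_mem _

theorem σ_mul {k k' : G} (hk : k ∈ c.K) (hk' : k' ∈ c.K) : c.σ (k * k') = mm4 (c.σ k) (c.σ k') := by
  rw [c.σ_def hk, c.σ_def hk', c.σ_def (mul_mem hk hk'), ← pm_mul, ← map_mul]; rfl

theorem σ_L {l : G} (hl : l ∈ c.L) : c.σ l = 33825 := ((c.ker l (c.L_le hl)).1 hl).1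

theorem χ_L {l : G} (hl : l ∈ c.L) : c.χ l = 273 := ((c.ker l (c.L_le hl)).1 hl).2

theorem σ_one : c.σ 1 = 33825 := c.σ_L (one_mem _)

theorem χ_one : c.χ 1 = 273 := c.χ_L (one_mem _)

theorem mem_L {k : G} (hk : k ∈ c.K) (h1 : c.σ k = 33825) (h2 : c.χ k = 273) : k ∈ c.L := (c.ker k hk).2 ⟨h1, h2⟩

theorem σ_inv_mul {x y : G} (hx : x ∈ c.K) (hy : y ∈ c.K) (h : c.σ x = c.σ y) : c.σ (x⁻¹ * y) = 33825 := by
  rw [c.σ_mul (inv_mem hx) hy, ← h, ← c.σ_mul (inv_mem hx) hx, inv_mul_cancel, c.σ_one]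

theorem χ_inv_mul {x y : G} (hx : x ∈ c.K) (hy : y ∈ c.K) (h : c.χ x = c.χ y) : c.χ (x⁻¹ * y) = 273 := by
  rw [c.χ_mul _ (inv_mem hx) _ hy, ← h, ← c.χ_mul _ (inv_mem hx) _ hx, inv_mul_cancel, c.χ_one]

theorem σ_mul_inv {x y : G} (hx : x ∈ c.K) (hy : y ∈ c.K) (h : c.σ x = c.σ y) : c.σ (x * y⁻¹) = 33825 := by
  rw [c.σ_mul hx (inv_mem hy), h, ← c.σ_mul hy (inv_mem hy), mul_inv_cancel, c.σ_one]

theorem χ_mul_inv {x y : G} (hx : x ∈ c.K) (hy : y ∈ c.K) (h : c.χ x = c.χ y) : c.χ (x * y⁻¹) = 273 := by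
  rw [c.χ_mul _ hx _ (inv_mem hy), h, ← c.χ_mul _ hy _ (inv_mem hy), mul_inv_cancel, c.χ_one]

theorem σ_inv_one {x : G} (hx : x ∈ c.K) (h : c.σ x = 33825) : c.σ x⁻¹ = 33825 := by
  simpa using c.σ_inv_mul hx (one_mem _) (h.trans c.σ_one.symm)

theorem χ_inv_one {x : G} (hx : x ∈ c.K) (h : c.χ x = 273) : c.χ x⁻¹ = 273 := by
  simpa using c.χ_inv_mul hx (one_mem _) (h.trans c.χ_one.symm)

theorem σ_mul_one {x y : G} (hx : x ∈ c.K) (hy : y ∈ c.K) (h : c.σ y = 33825) :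
    c.σ (x * y) = c.σ x ∧ c.σ (y * x) = c.σ x := by
  rw [c.σ_mul hx hy, c.σ_mul hy hx, h]; exact mm4_one _ (c.σ_mem hx)

theorem χ_mul_one {x y : G} (hx : x ∈ c.K) (hy : y ∈ c.K) (h : c.χ y = 273) :
    c.χ (x * y) = c.χ x ∧ c.χ (y * x) = c.χ x := by
  rw [c.χ_mul _ hx _ hy, c.χ_mul _ hy _ hx, h]; exact mm3_one _ (c.χ_mem _ hx)

theorem inv_mul_mem_L {x y : G} (hx : x ∈ c.K) (hy : y ∈ c.K) :
    x⁻¹ * y ∈ c.L ↔ c.σ x = c.σ y ∧ c.χ x = c.χ y := by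
  refine ⟨fun h => ?_, fun h => c.mem_L (mul_mem (inv_mem hx) hy) (c.σ_inv_mul hx hy h.1) (c.χ_inv_mul hx hy h.2)⟩
  have e : y = x * (x⁻¹ * y) := (mul_inv_cancel_left x y).symm
  rw [e]
  exact ⟨(c.σ_mul_one hx (c.L_le h) (c.σ_L h)).1.symm, (c.χ_mul_one hx (c.L_le h) (c.χ_L h)).1.symm⟩

theorem ζ_zero : c.ζ 0 = 1 := by
  have := c.ζ_mul 0 (by norm_num) 0 (by norm_num)
  rwa [Nat.xor_self, mul_eq_left] at this

theorem ζ_sq {t : ℕ} (ht : t < 8) : c.ζ t * c.ζ t = 1 := by rw [c.ζ_mul t ht t ht, Nat.xor_self, c.ζ_zero]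

theorem ζ_inv {t : ℕ} (ht : t < 8) : (c.ζ t)⁻¹ = c.ζ t := inv_eq_of_mul_eq_one_right (c.ζ_sq ht)

theorem ζ_inj {t s : ℕ} (ht : t < 8) (hs : s < 8) (h : c.ζ t = c.ζ s) : t = s := by
  have := c.ζ_mul t ht s hs
  rw [h, c.ζ_sq hs] at this
  exact Nat.xor_eq_zero_iff.1 (c.ζ_eq_one _ (xor_lt (n := 3) ht hs) this.symm)

theorem ζ_ne_one {t : ℕ} (ht : t < 8) (h0 : t ≠ 0) : c.ζ t ≠ 1 := fun h => h0 (c.ζ_eq_one t ht h)

theorem orderOf_ζ {t : ℕ} (ht : t < 8) (h0 : t ≠ 0) : orderOf (c.ζ t) = 2 :=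
  orderOf_eq_two (c.ζ_ne_one ht h0) (c.ζ_sq ht)

theorem ζ_mem_Z {t : ℕ} (ht : t < 8) : c.ζ t ∈ c.Z := (c.mem_Z _).2 ⟨t, ht, rfl⟩

theorem ζ_mem_K {t : ℕ} (ht : t < 8) : c.ζ t ∈ c.K := c.L_le (c.ζ_mem t ht)

theorem Z_le_L : c.Z ≤ c.L := fun x hx => by
  obtain ⟨t, ht, rfl⟩ := (c.mem_Z x).1 hx
  exact c.ζ_mem t ht

theorem π_ζ {t : ℕ} (ht : t < 8) : c.π (c.ζ t) = 0 := (c.π_zero _ (c.ζ_mem t ht)).2 (c.ζ_mem_Z ht)

theorem π_one : c.π 1 = 0 := (c.π_zero _ (one_mem _)).2 (one_mem _)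

theorem π_inv {l : G} (hl : l ∈ c.L) : c.π l⁻¹ = c.π l := by
  have := c.π_mul _ (inv_mem hl) _ hl
  rw [inv_mul_cancel, c.π_one] at this
  exact Nat.xor_eq_zero_iff.1 this.symm

theorem π_eq_iff {l l' : G} (hl : l ∈ c.L) (hl' : l' ∈ c.L) : c.π l = c.π l' ↔ l⁻¹ * l' ∈ c.Z := by
  rw [← c.π_zero _ (mul_mem (inv_mem hl) hl'), c.π_mul _ (inv_mem hl) _ hl', c.π_inv hl, Nat.xor_eq_zero_iff]

theorem exists_ζ {l l' : G} (hl : l ∈ c.L) (hl' : l' ∈ c.L) (h : c.π l = c.π l') : ∃ t < 8, l' = l * c.ζ t := by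
  obtain ⟨t, ht, e⟩ := (c.mem_Z _).1 ((c.π_eq_iff hl hl').1 h)
  exact ⟨t, ht, by rw [← e, mul_inv_cancel_left]⟩

theorem ζ_comm {l : G} (hl : l ∈ c.L) {t : ℕ} (ht : t < 8) : l * c.ζ t = c.ζ t * l := by
  rw [c.comm l hl _ (c.ζ_mem t ht), c.π_ζ ht, cm_zero_right, c.ζ_zero, one_mul]

theorem conj_comm {l l' : G} (hl : l ∈ c.L) (hl' : l' ∈ c.L) :
    l * l' * l⁻¹ = c.ζ (cm (c.π l) (c.π l')) * l' := by
  rw [c.comm l hl l' hl']; group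

theorem commutator_eq {l l' : G} (hl : l ∈ c.L) (hl' : l' ∈ c.L) :
    l * l' * l⁻¹ * l'⁻¹ = c.ζ (cm (c.π l) (c.π l')) := by
  rw [c.conj_comm hl hl', mul_inv_cancel_right]

theorem comm_iff {l l' : G} (hl : l ∈ c.L) (hl' : l' ∈ c.L) : l * l' = l' * l ↔ cm (c.π l) (c.π l') = 0 := by
  rw [c.comm l hl l' hl', mul_eq_right]
  exact ⟨c.ζ_eq_one _ (cm_lt _ _), fun h => by rw [h, c.ζ_zero]⟩

/-- the image of the commutator of `k ∈ K` and `l ∈ L` -/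
theorem π_comm {k l : G} (hk : k ∈ c.K) (hl : l ∈ c.L) :
    c.π (k * l * k⁻¹ * l⁻¹) = act (c.σ k) (c.χ k) (c.π l) ^^^ c.π l := by
  rw [c.π_mul _ (c.conj_L k hk l hl) _ (inv_mem hl), c.act_L k hk l hl, c.π_inv hl]

theorem pow_four {l : G} (hl : l ∈ c.L) : l ^ 4 = 1 := by
  rw [show l ^ 4 = l * l * (l * l) by simp only [pow_succ, pow_zero, one_mul, mul_assoc], c.sq l hl, c.ζ_sq (sqv_lt _)]

theorem isPGroup_L : IsPGroup 2 c.L := fun l => ⟨2, Subtype.ext (c.pow_four l.2)⟩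

theorem card_Z : Nat.card c.Z = 8 := by
  classical
  have := card_eq_of_fib c.Z ⊥ id ((Finset.range 8).image c.ζ)
    (fun b => by
      rw [Finset.mem_image]
      exact ⟨fun ⟨t, ht, e⟩ => ⟨_, c.ζ_mem_Z (Finset.mem_range.1 ht), e⟩, fun ⟨x, hx, e⟩ => by
        obtain ⟨t, ht, rfl⟩ := (c.mem_Z x).1 hx
        exact ⟨t, Finset.mem_range.2 ht, e⟩⟩)
    (fun x _ y _ => by simp [inv_mul_eq_one])
  rw [this, inf_bot_eq, card_bot, mul_one]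
  exact (Finset.card_image_of_injOn (s := Finset.range 8) (f := c.ζ) fun t ht s hs h =>
    c.ζ_inj (Finset.mem_range.1 ht) (Finset.mem_range.1 hs) h).trans (Finset.card_range 8)

theorem mem_K_iff [Finite G] {g : G} : g ∈ c.K ↔ ∀ t < 8, g * c.ζ t * g⁻¹ ∈ c.Z := by
  refine ⟨fun h t ht => by rw [c.act_Z g h t ht]; exact c.ζ_mem_Z (cof_lt _ _), fun h => ?_⟩
  rw [c.hK]
  refine mem_normalizer_fintype fun n hn => ?_
  obtain ⟨t, ht, rfl⟩ := (c.mem_Z n).1 hn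
  exact h t ht

/-- it is enough to look at a basis of `Z` -/
theorem mem_K_of_basis [Finite G] {g : G} (h1 : g * c.ζ 1 * g⁻¹ ∈ c.Z) (h2 : g * c.ζ 2 * g⁻¹ ∈ c.Z)
    (h4 : g * c.ζ 4 * g⁻¹ ∈ c.Z) : g ∈ c.K := by
  refine c.mem_K_iff.2 (bits_ind' 3 (P := fun t => g * c.ζ t * g⁻¹ ∈ c.Z) ?_ ?_ ?_)
  · rw [c.ζ_zero]; simp [one_mem]
  · intro i hi; interval_cases i
    exacts [h1, h2, h4]
  · intro x hx y hy a b
    rw [← c.ζ_mul x hx y hy, show g * (c.ζ x * c.ζ y) * g⁻¹ = g * c.ζ x * g⁻¹ * (g * c.ζ y * g⁻¹) by group]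
    exact mul_mem a b

theorem comm_ζ_iff {k : G} (hk : k ∈ c.K) {t : ℕ} (ht : t < 8) : k * c.ζ t = c.ζ t * k ↔ cof (c.χ k) t = t := by
  rw [← mul_inv_eq_iff_eq_mul, c.act_Z k hk t ht]
  exact ⟨c.ζ_inj (cof_lt _ _) ht, fun h => by rw [h]⟩

theorem H_iff {k : G} (hk : k ∈ c.K) : c.H k ↔ cof (c.χ k) 4 = 4 := c.comm_ζ_iff hk (by norm_num)

theorem H_of_χ {k : G} (hk : k ∈ c.K) (h : c.χ k = 273) : c.H k := (c.H_iff hk).2 (by rw [h]; decide +kernel)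

theorem H_L {l : G} (hl : l ∈ c.L) : c.H l := c.ζ_comm hl (by norm_num)

theorem H_iff_mem {h : G} : c.H h ↔ h ∈ centralizer ({c.ζ 4} : Set G) := mem_cent.symm

theorem H_one : c.H 1 := c.H_iff_mem.2 (one_mem _)

theorem H_mul {x y : G} (hx : c.H x) (hy : c.H y) : c.H (x * y) :=
  c.H_iff_mem.2 (mul_mem (c.H_iff_mem.1 hx) (c.H_iff_mem.1 hy))

theorem H_inv {x : G} (hx : c.H x) : c.H x⁻¹ := c.H_iff_mem.2 (inv_mem (c.H_iff_mem.1 hx))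

theorem H_pow {x : G} (hx : c.H x) (n : ℕ) : c.H (x ^ n) := c.H_iff_mem.2 (pow_mem (c.H_iff_mem.1 hx) n)

theorem H_conj {x : G} (hx : c.H x) : x * c.ζ 4 * x⁻¹ = c.ζ 4 := mul_inv_eq_iff_eq_mul.2 hx

/-- an element of `K` acting trivially on `L / Z` lies in `L` -/
theorem mem_L_of_act {k : G} (hk : k ∈ c.K) (h : ∀ v < 4096, act (c.σ k) (c.χ k) v = v) : k ∈ c.L :=
  (c.ker k hk).2 (act_faithful _ (c.σ_mem hk) _ (c.χ_mem k hk) (h _ (by norm_num)) (h _ (by norm_num))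
    (h _ (by norm_num)) (h _ (by norm_num)) (h _ (by norm_num)) (h _ (by norm_num)))

theorem χ_eq_one_of_comm {k : G} (hk : k ∈ c.K) (h : ∀ t < 8, k * c.ζ t = c.ζ t * k) : c.χ k = 273 :=
  cof_faithful _ (c.χ_mem k hk) ((c.comm_ζ_iff hk (by norm_num)).1 (h _ (by norm_num)))
    ((c.comm_ζ_iff hk (by norm_num)).1 (h _ (by norm_num))) ((c.comm_ζ_iff hk (by norm_num)).1 (h _ (by norm_num)))

theorem comm_of_χ {k : G} (hk : k ∈ c.K) (h : c.χ k = 273) {t : ℕ} (ht : t < 8) : k * c.ζ t = c.ζ t * k :=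
  (c.comm_ζ_iff hk ht).2 (by rw [h, cof_one t ht])

theorem χ_c4 {k : G} (hk : k ∈ c.K) (h2 : k * c.ζ 2 = c.ζ 2 * k) (h4 : k * c.ζ 4 = c.ζ 4 * k) : c.χ k ∈ c4L :=
  cof_c4 _ (c.χ_mem k hk) ((c.comm_ζ_iff hk (by norm_num)).1 h2) ((c.comm_ζ_iff hk (by norm_num)).1 h4)

/-- `K` is transitive on the ordered pairs of different involutions of `Z` -/
theorem exists_conj_pair {r s : ℕ} (hr : r < 8) (hs : s < 8) (h1 : r ≠ 0) (h2 : s ≠ 0) (h3 : r ≠ s) :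
    ∃ k ∈ c.K, k * c.ζ r * k⁻¹ = c.ζ 2 ∧ k * c.ζ s * k⁻¹ = c.ζ 4 := by
  obtain ⟨b, hb, e1, e2⟩ := cof_trans r hr s hs h1 h2 h3
  obtain ⟨k, hk, -, e⟩ := c.surj _ one_s5 b hb
  exact ⟨k, hk, by rw [c.act_Z k hk r hr, e, e1], by rw [c.act_Z k hk s hs, e, e2]⟩

theorem exists_conj_four {s : ℕ} (hs : s < 8) (h2 : s ≠ 0) : ∃ k ∈ c.K, k * c.ζ s * k⁻¹ = c.ζ 4 := by
  by_cases h : s = 1
  · obtain ⟨k, hk, -, e⟩ := c.exists_conj_pair (r := 2) (by norm_num) hs (by norm_num) h2 (by omega)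
    exact ⟨k, hk, e⟩
  · obtain ⟨k, hk, -, e⟩ := c.exists_conj_pair (r := 1) (by norm_num) hs (by norm_num) h2 (by omega)
    exact ⟨k, hk, e⟩

/-- the order of a subgroup between `L` and `K` -/
theorem card_over_L {A : Subgroup G} (h1 : c.L ≤ A) (h2 : A ≤ c.K) (s : Finset (ℕ × ℕ))
    (hs : ∀ p, p ∈ s ↔ ∃ k ∈ A, (c.σ k, c.χ k) = p) : Nat.card A = s.card * 32768 := by
  rw [card_eq_of_fib A c.L (fun k => (c.σ k, c.χ k)) s hs fun x hx y hy => by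
    rw [c.inv_mul_mem_L (h2 hx) (h2 hy), Prod.mk.injEq], inf_eq_right.2 h1, c.card_L]

/-- the order of a subgroup given by a condition on `σ` and one on `χ` -/
theorem card_of_cond {A : Subgroup G} (p q : ℕ → Prop) [DecidablePred p] [DecidablePred q]
    (hA : ∀ k, k ∈ A ↔ k ∈ c.K ∧ p (c.σ k) ∧ q (c.χ k)) :
    Nat.card A = (s5L.toFinset.filter p).card * (g3L.toFinset.filter q).card * 32768 := by
  have h0 := (hA 1).1 (one_mem _)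
  rw [c.σ_one, c.χ_one] at h0
  rw [← Finset.card_product]
  refine c.card_over_L (fun l hl => (hA l).2 ⟨c.L_le hl, by rw [c.σ_L hl]; exact h0.2.1, by rw [c.χ_L hl]; exact h0.2.2⟩)
    (fun k hk => ((hA k).1 hk).1) _ fun ⟨a, b⟩ => ?_
  simp only [Finset.mem_product, Finset.mem_filter, List.mem_toFinset, Prod.mk.injEq]
  constructor
  · rintro ⟨⟨ha, pa⟩, hb, qb⟩
    obtain ⟨k, hk, rfl, rfl⟩ := c.surj a ha b hb
    exact ⟨k, (hA k).2 ⟨hk, pa, qb⟩, rfl, rfl⟩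
  · rintro ⟨k, hk, rfl, rfl⟩
    obtain ⟨h1, h2, h3⟩ := (hA k).1 hk
    exact ⟨⟨c.σ_mem h1, h2⟩, c.χ_mem k h1, h3⟩

theorem card_K : Nat.card c.K = 2 ^ 21 * 315 := by
  rw [c.card_of_cond (fun _ => True) (fun _ => True) fun k => by simp, Finset.filter_true, Finset.filter_true,
    s5L_card, g3L_card]
  norm_num

/-- the order of a subgroup between `Z` and `L` -/
theorem card_over_Z {A : Subgroup G} (h1 : c.Z ≤ A) (h2 : A ≤ c.L) (s : Finset ℕ)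
    (hs : ∀ v, v ∈ s ↔ ∃ l ∈ A, c.π l = v) : Nat.card A = s.card * 8 := by
  rw [card_eq_of_fib A c.Z c.π s hs fun x hx y hy => c.π_eq_iff (h2 hx) (h2 hy), inf_eq_right.2 h1, c.card_Z]

/-- a 2-subgroup of `K` centralising `ζ 2` and `ζ 4` -/
theorem card_two_le [Finite G] {A : Subgroup G} (hA : A ≤ c.K) (h2 : IsPGroup 2 A) (hc : ∀ k ∈ A, c.χ k ∈ c4L) :
    Nat.card A ≤ 32 * Nat.card (A ⊓ c.L : Subgroup G) := by
  classical
  let B := (A.subgroupOf c.K).map c.σh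
  have hB : IsPGroup 2 B := (h2.of_equiv (subgroupOfEquivOfLe hA).symm).map _
  have h8 : Nat.card B ≤ 8 := by
    obtain ⟨n, hn⟩ := IsPGroup.iff_card.1 hB
    have hd := B.card_subgroup_dvd_card
    rw [hn, Nat.card_perm, Nat.card_fin] at hd
    rw [hn]
    by_contra h
    have : 4 ≤ n := by
      by_contra h'
      interval_cases n <;> omega
    exact absurd ((pow_dvd_pow 2 this).trans hd) (by decide)
  have := card_le_of_fib A c.L (fun k => (c.σ k, c.χ k)) (((B : Set _).toFinset.image pm) ×ˢ c4L.toFinset)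
    (fun k hk => by
      simp only [Finset.mem_product, Finset.mem_image, Set.mem_toFinset, List.mem_toFinset]
      exact ⟨⟨c.σh ⟨k, hA hk⟩, mem_map_of_mem _ hk, (c.σ_def (hA hk)).symm⟩, hc k hk⟩)
    fun x hx y hy h => (c.inv_mul_mem_L (hA hx) (hA hy)).2 (Prod.mk.inj h)
  refine this.trans (Nat.mul_le_mul_right _ ?_)
  rw [Finset.card_product, show c4L.toFinset.card = 4 by decide]
  have : ((B : Set _).toFinset.image pm).card ≤ 8 :=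
    Finset.card_image_le.trans (by rw [Set.toFinset_card, ← Nat.card_eq_fintype_card]; exact h8)
  omega

end KC

namespace EM0

variable (m : EM0 G)

theorem norm {h e : G} (hh : m.H h) (he : e ∈ m.E) : h * e * h⁻¹ ∈ m.E := m.ec.pre.norm h hh e he

theorem H_E {e : G} (he : e ∈ m.E) : m.H e := m.ec.pre.es.comm_z e he

theorem z_mem : m.ζ 4 ∈ m.E := m.ec.pre.es.mem

theorem ζ_mem_E {t : ℕ} (ht : t < 8) : m.ζ t ∈ m.E :=
  (m.ec.mem_L _ (m.ζ_mem t ht)).2 (by rw [m.π_ζ ht]; norm_num)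

theorem ε_one : m.ε 1 = 0 := (m.ε_zero _ (one_mem _)).2 (Or.inl rfl)

theorem ε_z : m.ε (m.ζ 4) = 0 := (m.ε_zero _ m.z_mem).2 (Or.inr rfl)

theorem ε_inv {e : G} (he : e ∈ m.E) : m.ε e⁻¹ = m.ε e := by
  have := m.ε_mul _ (inv_mem he) _ he
  rw [inv_mul_cancel, m.ε_one] at this
  exact Nat.xor_eq_zero_iff.1 this.symm

theorem ε_eq_iff {e e' : G} (he : e ∈ m.E) (he' : e' ∈ m.E) : m.ε e = m.ε e' ↔ e' = e ∨ e' = e * m.ζ 4 := by
  rw [← Nat.xor_eq_zero_iff, ← m.ε_inv he, ← m.ε_mul _ (inv_mem he) _ he', m.ε_zero _ (mul_mem (inv_mem he) he'),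
    inv_mul_eq_one, inv_mul_eq_iff_eq_mul, eq_comm]

theorem α_lt (h : G) (v : ℕ) : m.α h v < 4096 := m.ε_lt _

theorem α_spec {h e : G} (hh : m.H h) (he : e ∈ m.E) : m.ε (h * e * h⁻¹) = m.α h (m.ε e) := by
  rcases (m.ε_eq_iff (m.s_mem (m.ε e)) he).1 (m.ε_s _ (m.ε_lt e)) with h1 | h1
  · rw [α, ← h1]
  · conv_lhs => rw [h1, show h * (m.s (m.ε e) * m.ζ 4) * h⁻¹ = h * m.s (m.ε e) * h⁻¹ * (h * m.ζ 4 * h⁻¹) by group,
      m.H_conj hh, m.ε_mul _ (m.norm hh (m.s_mem _)) _ m.z_mem, m.ε_z, Nat.xor_zero]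
    rfl

theorem α_eq {h : G} {f : ℕ → ℕ} (hf : ∀ e ∈ m.E, m.ε (h * e * h⁻¹) = f (m.ε e)) {v : ℕ} (hv : v < 4096) :
    m.α h v = f v := by rw [α, hf _ (m.s_mem v), m.ε_s v hv]

theorem α_lin {h : G} (hh : m.H h) : Lin (m.α h) := fun x hx y hy => by
  rw [← m.ε_s x hx, ← m.ε_s y hy, ← m.ε_mul _ (m.s_mem x) _ (m.s_mem y),
    ← m.α_spec hh (mul_mem (m.s_mem x) (m.s_mem y)), ← m.α_spec hh (m.s_mem x), ← m.α_spec hh (m.s_mem y),
    ← m.ε_mul _ (m.norm hh (m.s_mem x)) _ (m.norm hh (m.s_mem y))]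
  congr 1; group

theorem α_zero {h : G} (hh : m.H h) : m.α h 0 = 0 := (m.α_lin hh).zero

theorem α_mul {g h : G} (hg : m.H g) (hh : m.H h) (v : ℕ) : m.α (g * h) v = m.α g (m.α h v) := by
  show m.ε _ = m.α g (m.ε _)
  rw [← m.α_spec hg (m.norm hh (m.s_mem v))]
  congr 1; group

theorem α_one {v : ℕ} (hv : v < 4096) : m.α 1 v = v := by rw [α, one_mul, inv_one, mul_one, m.ε_s v hv]

theorem α_inv_α {h : G} (hh : m.H h) {v : ℕ} (hv : v < 4096) : m.α h⁻¹ (m.α h v) = v := by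
  rw [← m.α_mul (m.H_inv hh) hh, inv_mul_cancel, m.α_one hv]

theorem α_α_inv {h : G} (hh : m.H h) {v : ℕ} (hv : v < 4096) : m.α h (m.α h⁻¹ v) = v := by
  rw [← m.α_mul hh (m.H_inv hh), mul_inv_cancel, m.α_one hv]

theorem α_inj {h : G} (hh : m.H h) {v w : ℕ} (hv : v < 4096) (hw : w < 4096) (e : m.α h v = m.α h w) : v = w := by
  rw [← m.α_inv_α hh hv, e, m.α_inv_α hh hw]

theorem α_eq_zero {h : G} (hh : m.H h) {v : ℕ} (hv : v < 4096) (e : m.α h v = 0) : v = 0 :=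
  m.α_inj hh hv (by norm_num) (e.trans (m.α_zero hh).symm)

theorem z_pow_inj {a b : ℕ} (ha : a < 2) (hb : b < 2) (h : m.ζ 4 ^ a = m.ζ 4 ^ b) : a = b := by
  have := m.ζ_ne_one (t := 4) (by norm_num) (by norm_num)
  interval_cases a <;> interval_cases b <;> simp_all [eq_comm]

theorem α_qe {h : G} (hh : m.H h) {v : ℕ} (hv : v < 4096) : qe (m.α h v) = qe v := by
  refine m.z_pow_inj (qe_lt _) (qe_lt _) ?_
  rw [α, ← m.ε_sq _ (m.norm hh (m.s_mem v)),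
    show h * m.s v * h⁻¹ * (h * m.s v * h⁻¹) = h * (m.s v * m.s v) * h⁻¹ by group, m.ε_sq _ (m.s_mem v), m.ε_s v hv,
    ← conj_pow, m.H_conj hh]

theorem α_be {h : G} (hh : m.H h) {v w : ℕ} (hv : v < 4096) (hw : w < 4096) : be (m.α h v) (m.α h w) = be v w := by
  show qe (m.α h v ^^^ m.α h w) ^^^ (qe (m.α h v) ^^^ qe (m.α h w)) = qe (v ^^^ w) ^^^ (qe v ^^^ qe w)
  rw [← m.α_lin hh v hv w hw, m.α_qe hh hv, m.α_qe hh hw, m.α_qe hh (xor_lt' hv hw)]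

theorem α_E {e : G} (he : e ∈ m.E) {v : ℕ} (hv : v < 4096) : m.α e v = v := by
  rw [α, m.ε_mul _ (mul_mem he (m.s_mem v)) _ (inv_mem he), m.ε_mul _ he _ (m.s_mem v), m.ε_inv he, m.ε_s v hv,
    Nat.xor_comm (m.ε e), Nat.xor_assoc, Nat.xor_self, Nat.xor_zero]

theorem mem_E_of_α [Finite G] {h : G} (hh : m.H h) (e : ∀ v < 4096, m.α h v = v) : h ∈ m.E :=
  m.ec.pre.mem_of_conj fun x hx => (m.ε_eq_iff hx (m.norm hh hx)).1 (by rw [m.α_spec hh hx, e _ (m.ε_lt x)])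

/-- elements in the same coset of `E` act in the same way -/
theorem α_congr {g h : G} (hg : m.H g) (e : g⁻¹ * h ∈ m.E) {v : ℕ} (hv : v < 4096) : m.α h v = m.α g v := by
  rw [← mul_inv_cancel_left g h, m.α_mul hg (m.H_E e), m.α_E e hv]

theorem H_ρ : m.H m.ρ := (m.H_iff m.ρ_mem).2 (by rw [m.χ_ρ]; decide +kernel)

theorem H_w : m.H m.w := m.H_of_χ m.w_mem m.χ_w

theorem α_ρ {v : ℕ} (hv : v < 4096) : m.α m.ρ v = rh v := m.α_eq m.ε_ρ hv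

theorem α_w {v : ℕ} (hv : v < 4096) : m.α m.w v = mv wM v := m.α_eq m.ε_w hv

theorem α_ρ2 {v : ℕ} (hv : v < 4096) : m.α (m.ρ * m.ρ) v = rh (rh v) := by
  rw [m.α_mul m.H_ρ m.H_ρ, m.α_ρ hv, m.α_ρ (rh_lt _)]

theorem α_ζ {h : G} (hh : m.H h) {t : ℕ} (ht : t < 8) : m.ε (h * m.ζ t * h⁻¹) = m.α h (t % 4) := by
  rw [m.α_spec hh (m.ζ_mem_E ht), m.ε_ζ t ht]

theorem α_K {k : G} (hk : k ∈ m.K) (hh : m.H k) {t : ℕ} (ht : t < 4) : m.α k t = cof (m.χ k) t % 4 := by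
  rw [← m.ε_ζ _ (cof_lt _ _), ← m.act_Z k hk t (by omega), m.α_ζ hh (by omega), Nat.mod_eq_of_lt ht]

theorem mem_L_iff {e : G} (he : e ∈ m.E) : e ∈ m.L ↔ m.ε e < 1024 := by
  rw [m.ker e (m.ec.le_K he), m.ec.σ_E e he, m.ε_top e he]
  omega

theorem s_mem_L {v : ℕ} (hv : v < 1024) : m.s v ∈ m.L ∧ m.π (m.s v) = v / 4 := by
  have h1 : m.s v ∈ m.L := (m.mem_L_iff (m.s_mem v)).2 (by rw [m.ε_s v (by omega)]; exact hv)
  exact ⟨h1, by rw [← m.ε_L _ h1 ((m.ec.mem_L _ h1).1 (m.s_mem v)), m.ε_s v (by omega)]⟩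

theorem α_L {k : G} (hk : k ∈ m.K) (hh : m.H k) {v : ℕ} (hv : v < 1024) :
    m.α k v < 1024 ∧ m.α k v / 4 = act (m.σ k) (m.χ k) (v / 4) := by
  obtain ⟨h1, h2⟩ := m.s_mem_L hv
  have h3 := m.conj_L k hk _ h1
  have h4 := m.norm hh (m.s_mem v)
  exact ⟨(m.mem_L_iff h4).1 h3, by rw [α, m.ε_L _ h3 ((m.ec.mem_L _ h3).1 h4), m.act_L k hk _ h1, h2]⟩

theorem stab2 {h : G} (hh : m.H h) (e : m.α h 2 = 2) : h ∈ m.K := by
  refine m.stab h hh ?_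
  have h2 := m.ζ_mem_E (t := 2) (by norm_num)
  rw [show m.ζ 6 = m.ζ 2 * m.ζ 4 from (m.ζ_mul 2 (by norm_num) 4 (by norm_num)).symm]
  exact (m.ε_eq_iff h2 (m.norm hh h2)).1 (by rw [m.α_ζ hh (by norm_num), m.ε_ζ 2 (by norm_num)]; exact e.symm)

/-- an element of `C(z)` that maps the vector 1 into its block lies in `K` -/
theorem stab1 {h : G} (hh : m.H h) (e : Blk 1 (m.α h 1)) : h ∈ m.K := by
  have hρ := m.H_ρ
  have key : ∀ g ∈ m.K, m.H g → m.α g (m.α h 1) = 2 → h ∈ m.K := fun g hg hg' e => by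
    have := m.stab2 (m.H_mul hg' (m.H_mul hh hρ)) (by
      rw [m.α_mul hg' (m.H_mul hh hρ), m.α_mul hh hρ, m.α_ρ (by norm_num), rh_one.2.2, e])
    exact (mul_mem_cancel_right m.ρ_mem).1 ((mul_mem_cancel_left hg).1 this)
  rcases blk_one.1 e with e | e | e
  · exact key _ (mul_mem m.ρ_mem m.ρ_mem) (m.H_mul hρ hρ) (by rw [e, m.α_ρ2 (by norm_num), rh_one.1, rh_one.2.1])
  · exact key 1 (one_mem _) m.H_one (by rw [e, m.α_one (by norm_num)])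
  · exact key _ m.ρ_mem hρ (by rw [e, m.α_ρ (by norm_num), rh_one.2.1])

/-- `K ∩ C(z)` permutes the vectors 1, 2, 3 -/
theorem blk_K {k : G} (hk : k ∈ m.K) (hh : m.H k) {v : ℕ} (hv : Blk 1 v) : Blk 1 (m.α k v) := by
  have h1 : v < 4 ∧ v ≠ 0 := by have := blk_one.1 hv; omega
  have h2 := m.α_K hk hh h1.1
  have h3 : m.α k v ≠ 0 := fun e => h1.2 (m.α_eq_zero hh (by omega) e)
  rw [blk_one]; omega

/-- an element with `σ = 1` and `χ` in the four-group is a product of an element of `L` and an element of `E` -/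
theorem exists_L_E {k : G} (hk : k ∈ m.K) (h1 : m.σ k = 33825) (h2 : m.χ k ∈ v4L) :
    ∃ l ∈ m.L, ∃ e ∈ m.E, k = l * e := by
  obtain ⟨e, he, h3⟩ := m.ec.χ_surj _ h2
  have hK := m.ec.le_K he
  exact ⟨k * e⁻¹, m.mem_L (mul_mem hk (inv_mem hK)) (m.σ_mul_inv hk hK (h1.trans (m.ec.σ_E e he).symm))
    (m.χ_mul_inv hk hK h3.symm), e, he, (inv_mul_cancel_right k e).symm⟩

theorem com_of_mem {h : G} (hh : m.H h) (e : h * m.ρ * h⁻¹ * m.ρ⁻¹ ∈ m.E) : m.Com h := fun v hv => by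
  have h1 : h * m.ρ = h * m.ρ * h⁻¹ * m.ρ⁻¹ * (m.ρ * h) := by group
  rw [← m.α_ρ hv, ← m.α_mul hh m.H_ρ, h1, m.α_mul (m.H_E e) (m.H_mul m.H_ρ hh), m.α_E e (m.α_lt _ _),
    m.α_mul m.H_ρ hh, m.α_ρ (m.α_lt _ _)]

theorem mem_of_com [Finite G] {h : G} (hh : m.H h) (e : m.Com h) : h * m.ρ * h⁻¹ * m.ρ⁻¹ ∈ m.E := by
  have hρ := m.H_ρ
  refine m.mem_E_of_α (m.H_mul (m.H_mul (m.H_mul hh hρ) (m.H_inv hh)) (m.H_inv hρ)) fun v hv => ?_
  rw [m.α_mul (m.H_mul (m.H_mul hh hρ) (m.H_inv hh)) (m.H_inv hρ), m.α_mul (m.H_mul hh hρ) (m.H_inv hh),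
    m.α_mul hh hρ, m.α_ρ (m.α_lt _ _), e _ (m.α_lt _ _), m.α_α_inv hh (m.α_lt _ _), ← m.α_ρ (m.α_lt _ _),
    m.α_α_inv hρ hv]

/-- the centraliser of `Z` commutes with `ρ` modulo `E` -/
theorem com_of_χ {k : G} (hk : k ∈ m.K) (h : m.χ k = 273) : m.Com k := by
  refine m.com_of_mem (m.H_of_χ hk h) ?_
  have hρ := m.ρ_mem
  have hy : k * m.ρ * k⁻¹ * m.ρ⁻¹ ∈ m.L := by
    refine m.mem_L (mul_mem (mul_mem (mul_mem hk hρ) (inv_mem hk)) (inv_mem hρ)) ?_ ?_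
    · rw [(m.σ_mul_one (mul_mem (mul_mem hk hρ) (inv_mem hk)) (inv_mem hρ) (m.σ_inv_one hρ m.σ_ρ)).1]
      exact m.σ_mul_inv (mul_mem hk hρ) hk (m.σ_mul_one hk hρ m.σ_ρ).1
    · refine m.χ_mul_inv (mul_mem (mul_mem hk hρ) (inv_mem hk)) hρ ?_
      rw [(m.χ_mul_one (mul_mem hk hρ) (inv_mem hk) (m.χ_inv_one hk h)).1, (m.χ_mul_one hρ hk h).2]
  refine (m.ec.mem_L _ hy).2 ?_
  generalize hd : k * m.ρ * k⁻¹ * m.ρ⁻¹ = y at hy
  have h3 : m.ρ * m.ρ * m.ρ = 1 := by rw [← m.ρ_three, pow_three']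
  have e : y * (m.ρ * y * m.ρ⁻¹) * (m.ρ * (m.ρ * y * m.ρ⁻¹) * m.ρ⁻¹) = 1 := by
    calc _ = k * (m.ρ * m.ρ * m.ρ) * k⁻¹ * (m.ρ * m.ρ * m.ρ)⁻¹ := by rw [← hd]; group
      _ = 1 := by rw [h3]; group
  have h1 := m.conj_L _ hρ y hy
  have h2 := m.conj_L _ hρ _ h1
  have h4 := m.π_one
  rw [← e, m.π_mul _ (mul_mem hy h1) _ h2, m.π_mul _ hy _ h1, m.act_L _ hρ _ h1, m.act_L _ hρ _ hy, m.σ_ρ, m.χ_ρ] at h4
  exact (ball (by decide +kernel) : ∀ v < 4096,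
    v ^^^ act 33825 282 v ^^^ act 33825 282 (act 33825 282 v) = 0 → v < 256) _ (m.π_lt y) h4

theorem com_E {e : G} (he : e ∈ m.E) : m.Com e := fun v hv => by rw [m.α_E he hv, m.α_E he (rh_lt v)]

theorem com_ρ : m.Com m.ρ := fun v hv => by rw [m.α_ρ hv, m.α_ρ (rh_lt v)]

/-- the centraliser of `ρ` modulo `E` -/
def H0 : Subgroup G where
  carrier := {h | m.H h ∧ m.Com h}
  mul_mem' := fun {a b} ha hb => ⟨m.H_mul ha.1 hb.1, fun v hv => by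
    rw [m.α_mul ha.1 hb.1, m.α_mul ha.1 hb.1, hb.2 v hv, ha.2 _ (m.α_lt _ _)]⟩
  one_mem' := ⟨m.H_one, m.com_E (one_mem _)⟩
  inv_mem' := fun {a} ha => ⟨m.H_inv ha.1, fun v hv => m.α_inj ha.1 (m.α_lt _ _) (rh_lt _) (by
    rw [m.α_α_inv ha.1 (rh_lt _), ha.2 _ (m.α_lt _ _), m.α_α_inv ha.1 hv])⟩

theorem mem_H0 {h : G} : h ∈ m.H0 ↔ m.H h ∧ m.Com h := Iff.rfl

theorem E_le_N : m.E ≤ m.N := le_sup_left

theorem ρ_mem_N : m.ρ ∈ m.N := (le_sup_right : zpowers m.ρ ≤ m.N) (mem_zpowers _)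

theorem N_le_H0 : m.N ≤ m.H0 :=
  sup_le (fun _ he => ⟨m.H_E he, m.com_E he⟩) (zpowers_le.2 ⟨m.H_ρ, m.com_ρ⟩)

theorem N_le_K : m.N ≤ m.K := sup_le m.ec.le_K (zpowers_le.2 m.ρ_mem)

/-- the elements of `N` fix all blocks -/
theorem blk_N {n : G} (hn : n ∈ m.N) {v : ℕ} (hv : v < 4096) : Blk v (m.α n v) := by
  let P : Subgroup G :=
    { carrier := {g | m.H g ∧ ∀ v < 4096, Blk v (m.α g v)}
      mul_mem' := fun {a b} ha hb => ⟨m.H_mul ha.1 hb.1, fun v hv => by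
        rw [m.α_mul ha.1 hb.1]; exact (hb.2 v hv).trans hv (ha.2 _ (m.α_lt _ _))⟩
      one_mem' := ⟨m.H_one, fun v hv => by rw [m.α_one hv]; exact Blk.refl v⟩
      inv_mem' := fun {a} ha => ⟨m.H_inv ha.1, fun v hv => by
        have := ha.2 _ (m.α_lt a⁻¹ v)
        rw [m.α_α_inv ha.1 hv] at this
        exact this.symm (m.α_lt _ _)⟩ }
  have : m.N ≤ P := sup_le (fun e he => ⟨m.H_E he, fun v hv => by rw [m.α_E he hv]; exact Blk.refl v⟩)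
    (zpowers_le.2 ⟨m.H_ρ, fun v hv => by rw [m.α_ρ hv]; exact Or.inr (Or.inl rfl)⟩)
  exact (this hn).2 v hv

/-- an element that commutes with `ρ` or inverts it maps blocks to blocks -/
theorem blk_α {h : G} (hc : m.Com h ∨ m.Inv h) {v w : ℕ} (hv : v < 4096) (e : Blk v w) :
    Blk (m.α h v) (m.α h w) := by
  have key : ∀ u < 4096, Blk (m.α h u) (m.α h (rh u)) := fun u hu => by
    rcases hc with hc | hc <;> rw [hc u hu]
    exacts [Or.inr (Or.inl rfl), Or.inr (Or.inr rfl)]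
  rcases e with rfl | rfl | rfl
  exacts [Blk.refl _, key v hv, (key v hv).trans (m.α_lt _ _) (key _ (rh_lt v))]

theorem om_one : m.Om 1 := ⟨1, m.H_one, m.α_one (by norm_num)⟩

theorem Om.α {m : EM0 G} {v : ℕ} (hv : m.Om v) {h : G} (hh : m.H h) : m.Om (m.α h v) := by
  obtain ⟨g, hg, rfl⟩ := hv
  exact ⟨h * g, m.H_mul hh hg, m.α_mul hh hg 1⟩

theorem om_α_iff {h : G} (hh : m.H h) {v : ℕ} (hv : v < 4096) : m.Om (m.α h v) ↔ m.Om v :=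
  ⟨fun e => m.α_inv_α hh hv ▸ e.α (m.H_inv hh), fun e => e.α hh⟩

theorem Om.prop {m : EM0 G} {v : ℕ} (hv : m.Om v) : v < 4096 ∧ v ≠ 0 ∧ qe v = 0 := by
  obtain ⟨g, hg, rfl⟩ := hv
  exact ⟨m.α_lt _ _, fun e => absurd (m.α_eq_zero hg (by norm_num) e) (by norm_num),
    by rw [m.α_qe hg (by norm_num)]; decide +kernel⟩

theorem Om.blk {m : EM0 G} {v w : ℕ} (hv : m.Om v) (e : Blk v w) : m.Om w := by
  have key : ∀ u, m.Om u → m.Om (rh u) := fun u hu => m.α_ρ hu.prop.1 ▸ hu.α m.H_ρ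
  rcases e with rfl | rfl | rfl
  exacts [hv, key v hv, key _ (key v hv)]

/-- an element fixing the orbit pointwise lies in `E` -/
theorem mem_E_of_om [Finite G] {g : G} (hg : m.H g) (e : ∀ v, m.Om v → m.α g v = v) : g ∈ m.E := by
  let P : Subgroup G :=
    { carrier := {x | x ∈ m.E ∧ m.α g (m.ε x) = m.ε x}
      mul_mem' := fun {a b} ha hb => ⟨mul_mem ha.1 hb.1, by
        rw [m.ε_mul _ ha.1 _ hb.1, m.α_lin hg _ (m.ε_lt _) _ (m.ε_lt _), ha.2, hb.2]⟩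
      one_mem' := ⟨one_mem _, by rw [m.ε_one, m.α_zero hg]⟩
      inv_mem' := fun {a} ha => ⟨inv_mem ha.1, by rw [m.ε_inv ha.1, ha.2]⟩ }
  have hP : m.E ≤ P := m.ec.gen P fun h hh t ht => ⟨m.norm hh (m.ζ_mem_E ht), by
    rw [m.α_ζ hh ht]
    by_cases h0 : t % 4 = 0
    · rw [h0, m.α_zero hh, m.α_zero hg]
    · exact e _ ((m.om_one.blk (blk_one.2 (by omega))).α hh)⟩
  exact m.mem_E_of_α hg fun v hv => by
    have := (hP (m.s_mem v)).2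
    rwa [m.ε_s v hv] at this

end EM0

namespace EM

variable (m : EM G)

theorem H_x : m.H m.x := m.H_of_χ m.x_mem m.χ_x

theorem α_x {v : ℕ} (hv : v < 4096) : m.α m.x v = mv xM v := m.α_eq m.ε_x hv

theorem α_n {l : G} (hl : l ∈ m.L) {v : ℕ} (hv : v < 4096) : m.α l v = mv (nM (m.π l / 256)) v :=
  m.α_eq (m.ε_n l hl) hv

theorem exists_n {i : ℕ} (hi : i < 16) : ∃ l ∈ m.L, m.π l = 256 * i ∧ ∀ v < 4096, m.α l v = mv (nM i) v := by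
  obtain ⟨l, hl, e⟩ := m.π_surj (256 * i) (by omega)
  exact ⟨l, hl, e, fun v hv => by rw [m.α_n hl hv, e, Nat.mul_div_cancel_left _ (by norm_num)]⟩

/-- an element with `σ = 1` and `χ` in the four-group acts as some `nM i` -/
theorem α_v4 {k : G} (hk : k ∈ m.K) (h1 : m.σ k = 33825) (h2 : m.χ k ∈ v4L) :
    ∃ i < 16, (i = 0 → k ∈ m.E) ∧ ∀ v < 4096, m.α k v = mv (nM i) v := by
  obtain ⟨l, hl, e, he, rfl⟩ := m.exists_L_E hk h1 h2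
  have := m.π_lt l
  exact ⟨m.π l / 256, by omega, fun h => mul_mem ((m.ec.mem_L l hl).2 (by omega)) he, fun v hv => by
    rw [m.α_mul (m.H_L hl) (m.H_E he), m.α_E he hv, m.α_n hl hv]⟩

/-- the generators of the model are induced by elements of `K ∩ H0` -/
theorem exists_gen {A : ℕ} (hA : A ∈ gens) : ∃ g ∈ m.K, g ∈ m.H0 ∧ ∀ v < 4096, m.α g v = mv A v := by
  have key : ∀ g ∈ m.K, m.H g → (∀ v < 4096, m.α g v = mv A v) → ∃ g ∈ m.K, g ∈ m.H0 ∧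
      ∀ v < 4096, m.α g v = mv A v := fun g hg hh e =>
    ⟨g, hg, ⟨hh, fun v hv => by rw [e v hv, e _ (rh_lt v), gens_rh A hA v hv]⟩, e⟩
  simp only [gens, List.mem_cons, List.not_mem_nil, or_false] at hA
  rcases hA with rfl | rfl | rfl | rfl
  · exact key _ m.ρ_mem m.H_ρ fun v hv => m.α_ρ hv
  · exact key _ m.w_mem m.H_w fun v hv => m.α_w hv
  · obtain ⟨l, hl, -, e⟩ := m.exists_n (i := 1) (by norm_num)
    exact key _ (m.L_le hl) (m.H_L hl) e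
  · exact key _ m.x_mem m.H_x fun v hv => m.α_x hv

theorem om_gens {A : ℕ} (hA : A ∈ gens) {v : ℕ} (hv : v < 4096) : m.Om (mv A v) ↔ m.Om v := by
  obtain ⟨g, -, hg, e⟩ := m.exists_gen hA
  rw [← e v hv, m.om_α_iff hg.1 hv]

/-- an element of `K ∩ H0` fuses the orbits 1 and 2 -/
theorem exists_fuse : ∃ k ∈ m.K, k ∈ m.H0 ∧ lab (m.α k 72) = 2 := by
  obtain ⟨k, hk, h1, h2⟩ := m.surj 4748 (by decide +kernel) 273 one_g3
  obtain ⟨h3, h4⟩ := m.α_L hk (m.H_of_χ hk h2) (v := 72) (by norm_num)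
  rw [h1, h2] at h4
  exact ⟨k, hk, ⟨m.H_of_χ hk h2, m.com_of_χ hk h2⟩, (ball (by decide +kernel) : ∀ v < 1024,
    v / 4 = act 4748 273 (72 / 4) → lab v = 2) _ h3 h4⟩

end EM

end CfsgLib.J4K
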