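import Cfsg.Agent.Lib.J4K.Lab

/-!
# The blocks are the orbits of `ρ`
-/

set_option autoImplicit false
set_option Elab.async false

namespace CfsgLib.J4K

open Cfsg CfsgLib.J4T CfsgLib.ExtraTwo CfsgLib.LargeExtra Subgroup

namespace BlkX

/-- `u` lies on the line through `v` and `w` -/
def Ln (v w u : ℕ) : Prop := u = v ∨ u = w ∨ u = v ^^^ w

instance (v w u : ℕ) : Decidable (Ln v w u) := inferInstanceAs (Decidable (_ ∨ _ ∨ _))

/-- the image of the line meets the line only if it is the same line -/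
def Ok (A v w : ℕ) : Prop :=
  Ln v w (mv A v) ∨ Ln v w (mv A w) ∨ Ln v w (mv A (v ^^^ w)) → Ln v w (mv A v) ∧ Ln v w (mv A w)

instance (A v w : ℕ) : Decidable (Ok A v w) := inferInstanceAs (Decidable (_ → _))

/-- the matrix of a word -/
def wm : List ℕ → ℕ
  | [] => mI
  | i :: l => mm (gens.getD i 0) (wm l)

def ws (i : ℕ) : List (List ℕ) := [[], [[1, 3, 2, 1, 0, 0], [2]], [[1, 2, 3, 1, 0], [2]],
  [[1, 3, 3, 2, 1, 1, 1], [3, 1, 3, 2, 1, 0]], [[3, 1, 1, 3, 2, 3, 1], [2], [3, 1, 3, 2, 1, 0]],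
  [[1, 3, 3, 2, 1, 1, 3, 3, 0, 0], [2]], [[1]], [[1]], [[2, 3, 1, 1, 2]], [[2, 3, 1, 1, 2]]].getD i []

def ms (i : ℕ) : List ℕ := [[], [0x524e7403402d00600f3742ee0470cd003002, 0x841406201100080040022010008004002001],
  [0xfedad23742ee0470ce3402c30410c3001003, 0x841406201100080040022010008004002001],
  [0x98f4d528014208104002801700a004002001, 0xe23a0122011008b047200100081041001003],
  [0x9ce4d32401c308104002401d00a004002001, 0x841406201100080040022010008004002001,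
    0xe23a0122011008b047200100081041001003],
  [0x7e5e5a00a00502801608b0462a8157003002, 0x841406201100080040022010008004002001],
  [0x8004000400c03402c000400c03402c002001], [0x8004000400c03402c000400c03402c002001],
  [0xbfd7c21023021c038201303301c03b002001], [0xbfd7c21023021c038201303301c03b002001]].getD i []

theorem ms_eq : ∀ i < 10, ∀ A ∈ ms i, ∃ l ∈ ws i, wm l = A ∧ ∀ j ∈ l, j < 4 := by decide +kernel

theorem chk : ∀ i < 10, i ≠ 0 → ∀ w < 4096, (qe w = 0 ∧ qe (rep i ^^^ w) = 0 ∧ 4 ≤ w ∧ 4 ≤ rep i ^^^ w ∧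
    ∀ A ∈ ms i, Ok A (rep i) w) → Blk (rep i) w := by
  have : ∀ i < 10, i ≠ 0 → Golay.allLT 4096 (fun w => decide ((qe w = 0 ∧ qe (rep i ^^^ w) = 0 ∧ 4 ≤ w ∧ 4 ≤ rep i ^^^ w ∧
    ∀ A ∈ ms i, Ok A (rep i) w) → Blk (rep i) w)) = true := by decide +kernel
  exact fun i hi h0 => ball (this i hi h0)

/-- sixth power -/
def p6 (a : ℕ) : ℕ := mm4 (mm4 (mm4 a a) a) (mm4 (mm4 a a) a)

theorem s5_six : ∀ a ∈ s5L, a = 33825 ∨ ∃ i ∈ s5L, mm4 i i = 33825 ∧ ∃ j ∈ s5L, mm4 j j = 33825 ∧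
    p6 (mm4 (mm4 a (mm4 (mm4 i a) i)) (mm4 (mm4 j a) j)) ≠ 33825 := by decide +kernel

theorem nM_sq : ∀ i < 16, mm (nM i) (nM i) = mI := by decide +kernel

theorem perm3 {f : ℕ → ℕ} {x y z : ℕ} (hx : f x = x ∨ f x = y ∨ f x = z) (hy : f y = x ∨ f y = y ∨ f y = z)
    (hz : f z = x ∨ f z = y ∨ f z = z) (xy : f x ≠ f y) (xz : f x ≠ f z) (yz : f y ≠ f z) :
    f (f (f (f (f (f x))))) = x := by
  grind

theorem lt4 {i : ℕ} (h : Blk 1 i) : i < 4096 := h.lt (by norm_num)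

theorem rh_ne' {v : ℕ} (hv : v < 4096) (h0 : v ≠ 0) : rh v ≠ v ∧ rh (rh v) ≠ v ∧ rh (rh v) ≠ rh v :=
  ⟨fun e => h0 (rh_ne v hv e), fun e => h0 (rh_ne v hv (by have := rh_three v hv; rwa [e] at this)),
    fun e => h0 (rh_ne v hv (by have := rh_three v hv; rwa [e, e] at this))⟩

variable {G : Type*} [Group G] [Finite G] (m : EM G)

theorem exists_word : ∀ l : List ℕ, (∀ j ∈ l, j < 4) → ∃ g, m.H g ∧ ∀ v < 4096, m.α g v = mv (wm l) v
  | [], _ => ⟨1, m.H_one, fun v hv => by rw [m.α_one hv, wm, mv_mI hv]⟩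
  | i :: l, h => by
    obtain ⟨g, hg, e⟩ := exists_word l fun j hj => h j (List.mem_cons_of_mem _ hj)
    obtain ⟨k, -, hk, e'⟩ := m.exists_gen (A := gens.getD i 0)
      ((by decide +kernel : ∀ i < 4, gens.getD i 0 ∈ gens) i (h i List.mem_cons_self))
    exact ⟨k * g, m.H_mul hk.1 hg, fun v hv => by
      rw [m.α_mul hk.1 hg, e v hv, e' _ (mv_lt _ _), wm, mv_mm _ _ hv]⟩

theorem α_three {h : G} (hh : m.H h) : m.α h 3 = m.α h 1 ^^^ m.α h 2 := m.α_lin hh 1 (by norm_num) 2 (by norm_num)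

theorem ln_iff {h : G} (hh : m.H h) {u : ℕ} : Ln (m.α h 1) (m.α h 2) u ↔ ∃ i, Blk 1 i ∧ m.α h i = u := by
  rw [Ln, ← α_three m hh]
  simp only [blk_one, or_and_right, exists_or, exists_eq_left, eq_comm]

theorem b0 {h h' : G} (hh : m.H h) (hh' : m.H h') {i j : ℕ} (hi : Blk 1 i) (hj : Blk 1 j)
    (e : m.α h i = m.α h' j) {i' : ℕ} (hi' : Blk 1 i') : ∃ j', Blk 1 j' ∧ m.α h' j' = m.α h i' := by
  have hk := m.H_mul (m.H_inv hh') hh
  have e1 : m.α (h'⁻¹ * h) i = j := by rw [m.α_mul (m.H_inv hh') hh, e, m.α_inv_α hh' (lt4 hj)]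
  have k : ∀ n ∈ m.K, m.H n → m.α n 1 = i → h'⁻¹ * h ∈ m.K := fun n h1 h2 h3 =>
    (mul_mem_cancel_right h1).1 (m.stab1 (m.H_mul hk h2) (by rwa [m.α_mul hk h2, h3, e1]))
  have hK : h'⁻¹ * h ∈ m.K := by
    rcases hi with rfl | rfl | rfl
    exacts [k 1 (one_mem _) m.H_one (m.α_one (by norm_num)), k _ m.ρ_mem m.H_ρ (m.α_ρ (by norm_num)),
      k _ (mul_mem m.ρ_mem m.ρ_mem) (m.H_mul m.H_ρ m.H_ρ) (m.α_ρ2 (by norm_num))]
  exact ⟨_, m.blk_K hK hk hi', by rw [← m.α_mul hh' hk, mul_inv_cancel_left]⟩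

end BlkX

open BlkX

variable {G : Type*} [Group G] [Finite G]

theorem EM.blk (m : EM G) {h : G} (hh : m.H h) : Blk (m.α h 1) (m.α h 2) := by
  have b1 : Blk 1 1 := Blk.refl 1
  have b2 : Blk 1 2 := blk_one.2 (by simp)
  have b3 : Blk 1 3 := blk_one.2 (by simp)
  have o := (m.om_one.α hh).prop
  have hl := (lab_iff _ o.1).2 o.2
  refine (lab_iff_rep (fun v => ∀ h, m.H h → m.α h 1 = v → Blk v (m.α h 2)) (fun A hA v hv P h hh e => ?_) _ o.1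
    hl).2 (fun h hh e => ?_) h hh rfl
  · obtain ⟨g, -, hg, e'⟩ := m.exists_gen hA
    have := m.blk_α (Or.inl hg.2) hv (P _ (m.H_mul (m.H_inv hg.1) hh)
      (by rw [m.α_mul (m.H_inv hg.1) hh, e, ← e' v hv, m.α_inv_α hg.1 hv]))
    rwa [m.α_mul (m.H_inv hg.1) hh, m.α_α_inv hg.1 (m.α_lt _ _), e' v hv] at this
  generalize lab _ = i at hl e
  by_cases h0 : i = 0
  · subst h0
    exact m.blk_K (m.stab1 hh (e ▸ b1)) hh b2
  have k : ∀ j, Blk 1 j → 4 ≤ m.α h j := fun j hj => not_lt.1 fun l => by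
    have l0 : m.α h j ≠ 0 := fun e => by
      rw [m.α_eq_zero hh (lt4 hj) e, blk_one] at hj
      omega
    have l1 : Blk 1 (m.α h j) := blk_one.2 (by omega)
    obtain ⟨j', h1, h2⟩ := b0 m hh m.H_one hj l1 (m.α_one (lt4 l1)).symm b1
    rw [m.α_one (lt4 h1), e] at h2
    exact h0 ((lab_rep i hl).2.symm.trans ((lab_zero _ (lab_rep i hl).1).2 (h2 ▸ blk_one.1 h1)))
  refine chk i hl h0 _ (m.α_lt _ _) ⟨by rw [m.α_qe hh (by norm_num)]; decide +kernel,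
    by rw [← e, ← α_three m hh, m.α_qe hh (by norm_num)]; decide +kernel, k 2 b2,
    by rw [← e, ← α_three m hh]; exact k 3 b3, fun A hA => ?_⟩
  obtain ⟨l, -, rfl, h4⟩ := ms_eq i hl A hA
  obtain ⟨g, hg, e'⟩ := exists_word m l h4
  have k2 : ∀ j, mv (wm l) (m.α h j) = m.α (g * h) j := fun j => by rw [m.α_mul hg hh, e' _ (m.α_lt _ _)]
  rw [Ok, ← e, ← α_three m hh, k2, k2, k2]
  simp only [ln_iff m hh]
  intro l
  obtain ⟨i, j, hi, hj, e⟩ : ∃ i j, Blk 1 i ∧ Blk 1 j ∧ m.α (g * h) i = m.α h j := by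
    rcases l with ⟨j, h1, h2⟩ | ⟨j, h1, h2⟩ | ⟨j, h1, h2⟩
    exacts [⟨1, j, b1, h1, h2.symm⟩, ⟨2, j, b2, h1, h2.symm⟩, ⟨3, j, b3, h1, h2.symm⟩]
  exact ⟨b0 m (m.H_mul hg hh) hh hi hj e b1, b0 m (m.H_mul hg hh) hh hi hj e b2⟩

namespace BlkX

variable (m : EM G)

/-- the line of `h` is the block of `α h 1` -/
theorem blk_iff {h : G} (hh : m.H h) {u : ℕ} : Blk (m.α h 1) u ↔ ∃ i, Blk 1 i ∧ m.α h i = u := by
  rw [← ln_iff m hh, Ln]
  have hv := m.α_lt h 1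
  rcases m.blk hh with e | e | e
  · exact absurd (m.α_inj hh (by norm_num) (by norm_num) e) (by norm_num)
  · rw [e, ← rh_rh _ hv]; rfl
  · rw [e, rh_rh _ hv, ← Nat.xor_assoc, Nat.xor_self, Nat.zero_xor, ← rh_rh _ hv, Blk, or_comm (a := u = rh _)]

/-- blocks are mapped to blocks -/
theorem blk_map {h : G} (hh : m.H h) {v w : ℕ} (hv : m.Om v) (e : Blk v w) : Blk (m.α h v) (m.α h w) := by
  obtain ⟨g, hg, rfl⟩ := hv
  obtain ⟨i, hi, rfl⟩ := (blk_iff m hg).1 e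
  rw [← m.α_mul hh hg, ← m.α_mul hh hg]
  exact (blk_iff m (m.H_mul hh hg)).2 ⟨i, hi, rfl⟩

/-- the kernel of the action on the blocks -/
def R0 : Subgroup G where
  carrier := {g | m.H g ∧ ∀ v, m.Om v → Blk v (m.α g v)}
  one_mem' := ⟨m.H_one, fun v hv => by rw [m.α_one hv.prop.1]; exact Blk.refl v⟩
  mul_mem' := fun {a b} ha hb => ⟨m.H_mul ha.1 hb.1, fun v hv => by
    rw [m.α_mul ha.1 hb.1]
    exact (hb.2 v hv).trans hv.prop.1 (ha.2 _ (hv.α hb.1))⟩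
  inv_mem' := fun {a} ha => ⟨m.H_inv ha.1, fun v hv => by
    have := ha.2 _ (hv.α (m.H_inv ha.1))
    rw [m.α_α_inv ha.1 hv.prop.1] at this
    exact this.symm (m.α_lt _ _)⟩

theorem R0_conj {h g : G} (hh : m.H h) (hg : g ∈ R0 m) : h * g * h⁻¹ ∈ R0 m :=
  ⟨m.H_mul (m.H_mul hh hg.1) (m.H_inv hh), fun v hv => by
    have := blk_map m hh (hv.α (m.H_inv hh)) (hg.2 _ (hv.α (m.H_inv hh)))
    rwa [m.α_α_inv hh hv.prop.1, ← m.α_mul hh hg.1, ← m.α_mul (m.H_mul hh hg.1) (m.H_inv hh)] at this⟩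

theorem ρ_R0 : m.ρ ∈ R0 m := ⟨m.H_ρ, fun v hv => Or.inr (Or.inl (m.α_ρ hv.prop.1))⟩

theorem R0_K {g : G} (hg : g ∈ R0 m) : g ∈ m.K := m.stab1 hg.1 (hg.2 1 m.om_one)

theorem six {g : G} (hg : g ∈ R0 m) : p6 (m.σ g) = 33825 := by
  have k := R0_K m hg
  have h2 := m.H_mul hg.1 hg.1
  have h3 := m.H_mul h2 hg.1
  have := m.ec.σ_E _ (m.mem_E_of_om (m.H_mul h3 h3) fun v hv => by
    obtain ⟨l, l0, -⟩ := hv.prop
    obtain ⟨n1, n2, n3⟩ := rh_ne' l l0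
    have b1 : Blk v (rh v) := Or.inr (Or.inl rfl)
    have b2 : Blk v (rh (rh v)) := Or.inr (Or.inr rfl)
    simp only [m.α_mul h3 h3, m.α_mul h2 hg.1, m.α_mul hg.1 hg.1]
    exact perm3 (hg.2 v hv) (b1.trans l (hg.2 _ (hv.blk b1))) (b2.trans l (hg.2 _ (hv.blk b2)))
      (fun e => n1 (m.α_inj hg.1 l (rh_lt _) e).symm) (fun e => n2 (m.α_inj hg.1 l (rh_lt _) e).symm)
      fun e => n3 (m.α_inj hg.1 (rh_lt _) (rh_lt _) e).symm)
  have k3 := mul_mem (mul_mem k k) k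
  rwa [m.σ_mul k3 k3, m.σ_mul (mul_mem k k) k, m.σ_mul k k] at this

theorem σ_R0 {g : G} (hg : g ∈ R0 m) : m.σ g = 33825 := by
  have k := R0_K m hg
  have cj : ∀ i ∈ s5L, mm4 i i = 33825 → ∃ x ∈ R0 m, m.σ x = mm4 (mm4 i (m.σ g)) i := fun i hi e => by
    obtain ⟨x, hx, e1, e2⟩ := m.surj i hi 273 one_g3
    refine ⟨_, R0_conj m (m.H_of_χ hx e2) hg, ?_⟩
    rw [m.σ_mul (mul_mem hx k) (inv_mem hx), m.σ_mul hx k,
      ← (m.σ_mul_one (inv_mem hx) (mul_mem hx hx) (by rw [m.σ_mul hx hx, e1, e])).1, inv_mul_cancel_left, e1]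
  refine (s5_six _ (m.σ_mem k)).resolve_right fun ⟨i, hi, e1, j, hj, e2, e⟩ => e ?_
  obtain ⟨x, hx, e3⟩ := cj i hi e1
  obtain ⟨y, hy, e4⟩ := cj j hj e2
  rw [← e3, ← e4, ← m.σ_mul k (R0_K m hx), ← m.σ_mul (mul_mem k (R0_K m hx)) (R0_K m hy)]
  exact six m (mul_mem (mul_mem hg hx) hy)

theorem mem_E {g : G} (hg : g ∈ R0 m) (h1 : m.α g 1 = 1) (hc : ∀ v, m.Om v → m.α g (rh v) = rh (m.α g v)) :
    g ∈ m.E := by
  have k := R0_K m hg
  have h3 := hc 1 m.om_one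
  have h2 := hc _ (m.om_one.blk (Or.inr (Or.inl rfl)))
  rw [h1] at h3
  rw [h3, rh_one.1, rh_one.2.1] at h2
  obtain ⟨i, hi, -, e⟩ := m.α_v4 k (σ_R0 m hg) (cof_v4 _ (m.χ_mem g k) ((m.H_iff k).1 hg.1)
    ((m.α_K k hg.1 (by norm_num)).symm.trans h1) ((m.α_K k hg.1 (by norm_num)).symm.trans h2))
  refine m.mem_E_of_om hg.1 fun v hv => ?_
  obtain ⟨l, l0, -⟩ := hv.prop
  obtain ⟨n1, n2, -⟩ := rh_ne' l l0
  have e2 : m.α g (m.α g v) = v := by rw [e v l, e _ (mv_lt _ _), ← mv_mm _ _ l, nM_sq i hi, mv_mI l]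
  rcases hg.2 v hv with b | b | b
  · exact b
  · rw [b, hc v hv, b] at e2
    exact absurd e2 n2
  · rw [b, hc _ (hv.blk (Or.inr (Or.inl rfl))), hc v hv, b, rh_three _ (rh_lt _)] at e2
    exact absurd e2 n1

end BlkX

theorem EM.norm_rho (m : EM G) {h : G} (hh : m.H h) : m.Com h ∨ m.Inv h := by
  have hτ := R0_conj m hh (ρ_R0 m)
  have e0 : ∀ v < 4096, m.α h (rh v) = m.α (h * m.ρ * h⁻¹) (m.α h v) := fun v hv => by
    rw [m.α_mul (m.H_mul hh m.H_ρ) (m.H_inv hh), m.α_inv_α hh hv, m.α_mul hh m.H_ρ, m.α_ρ hv]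
  have fpf : ∀ v, m.Om v → m.α (h * m.ρ * h⁻¹) v ≠ v := fun v hv e => by
    obtain ⟨l, l0, -⟩ := (hv.α (m.H_inv hh)).prop
    have := e0 _ l
    rw [m.α_α_inv hh hv.prop.1, e] at this
    exact l0 (rh_ne _ l (m.α_inj hh (rh_lt _) l (this.trans (m.α_α_inv hh hv.prop.1).symm)))
  generalize h * m.ρ * h⁻¹ = τ at hτ e0 fpf
  have hc : ∀ v, m.Om v → m.α τ (rh v) = rh (m.α τ v) := fun v hv => by
    obtain ⟨l, l0, -⟩ := hv.prop
    have b1 : Blk v (rh v) := Or.inr (Or.inl rfl)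
    rcases (hτ.2 v hv).resolve_left (fpf v hv) with e | e <;>
      rcases (hτ.2 _ (hv.blk b1)).resolve_left (fpf _ (hv.blk b1)) with e' | e'
    · rw [e', e]
    · refine absurd ?_ (fpf _ (hv.blk (Or.inr (Or.inr rfl))))
      rw [rh_rh v l, m.α_lin hτ.1 v l _ (rh_lt v), e, e', rh_three v l, Nat.xor_comm]
    · exact absurd (m.α_inj hτ.1 (rh_lt v) l (e'.trans e.symm)) (rh_ne' l l0).1
    · rw [e', e]
  have key : ∀ n ∈ R0 m, n ∈ m.H0 → m.α τ 1 = m.α n 1 → ∀ v < 4096, m.α τ v = m.α n v := fun n h1 h2 e v hv =>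
    m.α_congr h1.1 (mem_E m (mul_mem (inv_mem h1) hτ)
      (by rw [m.α_mul (m.H_inv h1.1) hτ.1, e, m.α_inv_α h1.1 (by norm_num)]) fun v hv => by
        rw [m.α_mul (m.H_inv h1.1) hτ.1, m.α_mul (m.H_inv h1.1) hτ.1, hc v hv, (inv_mem h2).2 _ (m.α_lt _ _)]) hv
  have hρ := m.N_le_H0 m.ρ_mem_N
  rcases (hτ.2 1 m.om_one).resolve_left (fpf 1 m.om_one) with e | e
  · exact Or.inl fun v hv => by
      rw [e0 v hv, key _ (ρ_R0 m) hρ (e.trans (m.α_ρ (by norm_num)).symm) _ (m.α_lt _ _), m.α_ρ (m.α_lt _ _)]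
  · exact Or.inr fun v hv => by
      rw [e0 v hv, key _ (mul_mem (ρ_R0 m) (ρ_R0 m)) (mul_mem hρ hρ) (e.trans (m.α_ρ2 (by norm_num)).symm) _
        (m.α_lt _ _), m.α_ρ2 (m.α_lt _ _)]

end CfsgLib.J4K
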