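import Cfsg.Agent.Lib.J4K.Defs

/-!
# Lemmas on the codes
-/

set_option autoImplicit false
set_option Elab.async false

namespace CfsgLib.J4K

open Cfsg CfsgLib.J4T CfsgLib.Golay

/-- use as `ball (by decide +kernel)` for a long bounded quantifier -/
theorem ball {n : ℕ} {P : ℕ → Prop} [DecidablePred P] (h : allLT n (fun v => decide (P v)) = true) :
    ∀ v < n, P v := fun _ hv => of_decide_eq_true (of_allLT h hv)

theorem bt_eq (x i : ℕ) : bt x i = x / 2 ^ i % 2 := by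
  show (x >>> i) &&& 1 = _
  rw [Nat.and_one_is_mod, Nat.shiftRight_eq_div_pow]

theorem bt_lt (x i : ℕ) : bt x i < 2 := by rw [bt_eq]; omega

theorem bt_xor (x y i : ℕ) : bt (x ^^^ y) i = bt x i ^^^ bt y i := by
  show ((x ^^^ y) >>> i) &&& 1 = ((x >>> i) &&& 1) ^^^ ((y >>> i) &&& 1)
  rw [Nat.shiftRight_xor_distrib, Nat.and_xor_distrib_right]

theorem bit_mul_xor {p q : ℕ} (hp : p < 2) (hq : q < 2) (c : ℕ) : (p ^^^ q) * c = p * c ^^^ q * c := by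
  interval_cases p <;> interval_cases q <;> simp

theorem land15_lt (x : ℕ) : x &&& 15 < 16 := Nat.lt_succ_of_le Nat.and_le_right

theorem land7_lt (x : ℕ) : x &&& 7 < 8 := Nat.lt_succ_of_le Nat.and_le_right

theorem bit_mul_lt {p c n : ℕ} (hp : p < 2) (hc : c < 2 ^ n) : p * c < 2 ^ n := by
  interval_cases p
  · simp
  · simpa using hc

theorem ap4_def (a n : ℕ) : ap4 a n = (bt n 0 * (a &&& 15) ^^^ bt n 1 * (a >>> 4 &&& 15)) ^^^
    (bt n 2 * (a >>> 8 &&& 15) ^^^ bt n 3 * (a >>> 12 &&& 15)) := rfl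

theorem ap3_def (b t : ℕ) : ap3 b t = (bt t 0 * (b &&& 7) ^^^ bt t 1 * (b >>> 3 &&& 7)) ^^^
    bt t 2 * (b >>> 6 &&& 7) := rfl

theorem act_def (a b v : ℕ) : act a b v = (ap4 a v * sp b ^^^ ap4 a (v >>> 4) * sp (b >>> 3)) ^^^
    ap4 a (v >>> 8) * sp (b >>> 6) := rfl

theorem cof_def (b t : ℕ) : cof b t = (bt t 0 * wedge (b >>> 3) (b >>> 6) ^^^ bt t 1 * wedge b (b >>> 6)) ^^^
    bt t 2 * wedge b (b >>> 3) := rfl

theorem ap4_lt (a n : ℕ) : ap4 a n < 16 :=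
  xor_lt (n := 4) (xor_lt (bit_mul_lt (bt_lt _ _) (land15_lt _)) (bit_mul_lt (bt_lt _ _) (land15_lt _)))
    (xor_lt (bit_mul_lt (bt_lt _ _) (land15_lt _)) (bit_mul_lt (bt_lt _ _) (land15_lt _)))

theorem ap3_lt (b t : ℕ) : ap3 b t < 8 :=
  xor_lt (n := 3) (xor_lt (bit_mul_lt (bt_lt _ _) (land7_lt _)) (bit_mul_lt (bt_lt _ _) (land7_lt _)))
    (bit_mul_lt (bt_lt _ _) (land7_lt _))

theorem ap4_xor (a n m : ℕ) : ap4 a (n ^^^ m) = ap4 a n ^^^ ap4 a m := by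
  simp only [ap4_def, bt_xor, bit_mul_xor (bt_lt _ _) (bt_lt _ _)]
  ac_rfl

theorem ap3_xor (b t s : ℕ) : ap3 b (t ^^^ s) = ap3 b t ^^^ ap3 b s := by
  simp only [ap3_def, bt_xor, bit_mul_xor (bt_lt _ _) (bt_lt _ _)]
  ac_rfl

theorem cof_xor (b t s : ℕ) : cof b (t ^^^ s) = cof b t ^^^ cof b s := by
  simp only [cof_def, bt_xor, bit_mul_xor (bt_lt _ _) (bt_lt _ _)]
  ac_rfl

theorem ap4_mod (a n : ℕ) : ap4 a (n % 16) = ap4 a n := by
  have e : ∀ i < 4, bt (n % 16) i = bt n i := fun i hi => by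
    rw [bt_eq, bt_eq]; interval_cases i <;> omega
  simp only [ap4_def, e 0 (by norm_num), e 1 (by norm_num), e 2 (by norm_num), e 3 (by norm_num)]

theorem ap3_mod (b t : ℕ) : ap3 b (t % 8) = ap3 b t := by
  have e : ∀ i < 3, bt (t % 8) i = bt t i := fun i hi => by
    rw [bt_eq, bt_eq]; interval_cases i <;> omega
  simp only [ap3_def, e 0 (by norm_num), e 1 (by norm_num), e 2 (by norm_num)]

theorem sp_mod (c : ℕ) : sp (c % 8) = sp c := by
  have e : ∀ i < 3, bt (c % 8) i = bt c i := fun i hi => by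
    rw [bt_eq, bt_eq]; interval_cases i <;> omega
  simp only [sp, e 0 (by norm_num), e 1 (by norm_num), e 2 (by norm_num)]

theorem mul_sp_lt {n : ℕ} (hn : n < 16) (c : ℕ) : n * sp c < 4096 := by
  rw [← sp_mod]
  exact (by decide +kernel : ∀ n < 16, ∀ c < 8, n * sp c < 4096) n hn _ (Nat.mod_lt _ (by norm_num))

theorem xor_mul_sp {n m : ℕ} (hn : n < 16) (hm : m < 16) (c : ℕ) : (n ^^^ m) * sp c = n * sp c ^^^ m * sp c := by
  rw [← sp_mod]
  exact (by decide +kernel : ∀ n < 16, ∀ m < 16, ∀ c < 8, (n ^^^ m) * sp c = n * sp c ^^^ m * sp c) n hn m hm _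
    (Nat.mod_lt _ (by norm_num))

theorem act_lt (a b v : ℕ) : act a b v < 4096 :=
  xor_lt' (xor_lt' (mul_sp_lt (ap4_lt _ _) _) (mul_sp_lt (ap4_lt _ _) _)) (mul_sp_lt (ap4_lt _ _) _)

theorem act_xor (a b v w : ℕ) : act a b (v ^^^ w) = act a b v ^^^ act a b w := by
  simp only [act_def, Nat.shiftRight_xor_distrib, ap4_xor, xor_mul_sp (ap4_lt _ _) (ap4_lt _ _)]
  ac_rfl

theorem lin_act (a b : ℕ) : Lin (act a b) := fun x _ y _ => act_xor a b x y

theorem act_zero (a b : ℕ) : act a b 0 = 0 := (lin_act a b).zero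

theorem act_one : ∀ v < 4096, act 33825 273 v = v := ball (by decide +kernel)

theorem ap4_one : ∀ n < 16, ap4 33825 n = n := by decide +kernel

theorem cof_one : ∀ t < 8, cof 273 t = t := by decide +kernel

theorem wedge_lt (x y : ℕ) : wedge x y < 8 := by
  have h : ∀ p q r s, bt p q * bt r s < 2 ^ 1 := fun p q r s => bit_mul_lt (bt_lt _ _) (bt_lt _ _)
  have h1 := xor_lt (h x 1 y 2) (h x 2 y 1)
  have h2 := xor_lt (h x 0 y 2) (h x 2 y 0)
  have h3 := xor_lt (h x 0 y 1) (h x 1 y 0)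
  show (bt x 1 * bt y 2 ^^^ bt x 2 * bt y 1) + 2 * (bt x 0 * bt y 2 ^^^ bt x 2 * bt y 0) +
    4 * (bt x 0 * bt y 1 ^^^ bt x 1 * bt y 0) < 8
  omega

theorem cof_lt (b t : ℕ) : cof b t < 8 :=
  xor_lt (n := 3) (xor_lt (bit_mul_lt (bt_lt _ _) (wedge_lt _ _)) (bit_mul_lt (bt_lt _ _) (wedge_lt _ _)))
    (bit_mul_lt (bt_lt _ _) (wedge_lt _ _))

theorem cof_zero (b : ℕ) : cof b 0 = 0 := by simp [cof_def, bt_eq]

theorem bN_lt (n m : ℕ) : bN n m < 2 := bt_lt _ _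

theorem bN_mod (n m : ℕ) : bN (n % 16) (m % 16) = bN n m := by
  have e : ∀ x : ℕ, Nat.land (x % 16) 15 = Nat.land x 15 := fun x => by
    show x % 16 &&& 2 ^ 4 - 1 = x &&& 2 ^ 4 - 1
    rw [Nat.and_two_pow_sub_one_eq_mod, Nat.and_two_pow_sub_one_eq_mod]; omega
  rw [bN, bN, e, e]

theorem bN_comm (n m : ℕ) : bN n m = bN m n := by
  rw [← bN_mod, ← bN_mod m]
  exact (by decide +kernel : ∀ n < 16, ∀ m < 16, bN n m = bN m n) _ (Nat.mod_lt _ (by norm_num)) _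
    (Nat.mod_lt _ (by norm_num))

theorem bN_xor_left (n n' m : ℕ) : bN (n ^^^ n') m = bN n m ^^^ bN n' m := by
  rw [← bN_mod, ← bN_mod n, ← bN_mod n', show (16 : ℕ) = 2 ^ 4 from rfl, Nat.xor_mod_two_pow]
  exact (by decide +kernel : ∀ n < 16, ∀ n' < 16, ∀ m < 16, bN (n ^^^ n') m = bN n m ^^^ bN n' m) _
    (Nat.mod_lt _ (by norm_num)) _ (Nat.mod_lt _ (by norm_num)) _ (Nat.mod_lt _ (by norm_num))

theorem bN_self (n : ℕ) : bN n n = 0 := by
  rw [← bN_mod]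
  exact (by decide +kernel : ∀ n < 16, bN n n = 0) _ (Nat.mod_lt _ (by norm_num))

theorem cm_def (v w : ℕ) : cm v w = (bN (v >>> 4) (w >>> 8) ^^^ bN (v >>> 8) (w >>> 4)) +
    2 * (bN v (w >>> 8) ^^^ bN (v >>> 8) w) + 4 * (bN v (w >>> 4) ^^^ bN (v >>> 4) w) := rfl

theorem sqv_def (v : ℕ) : sqv v = bN (v >>> 4) (v >>> 8) + 2 * bN v (v >>> 8) + 4 * bN v (v >>> 4) := rfl

theorem cm_lt (v w : ℕ) : cm v w < 8 := by
  have h : ∀ p q r s, bN p q ^^^ bN r s < 2 ^ 1 := fun p q r s => xor_lt (bN_lt _ _) (bN_lt _ _)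
  have h1 := h (v >>> 4) (w >>> 8) (v >>> 8) (w >>> 4)
  have h2 := h v (w >>> 8) (v >>> 8) w
  have h3 := h v (w >>> 4) (v >>> 4) w
  rw [cm_def]; omega

theorem sqv_lt (v : ℕ) : sqv v < 8 := by
  have h1 := bN_lt (v >>> 4) (v >>> 8)
  have h2 := bN_lt v (v >>> 8)
  have h3 := bN_lt v (v >>> 4)
  rw [sqv_def]; omega

theorem cm_comm (v w : ℕ) : cm v w = cm w v := by
  rw [cm_def, cm_def, bN_comm (w >>> 4), bN_comm (w >>> 8), bN_comm w, bN_comm (w >>> 8), bN_comm w,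
    bN_comm (w >>> 4), Nat.xor_comm (bN (v >>> 8) (w >>> 4)), Nat.xor_comm (bN (v >>> 8) w),
    Nat.xor_comm (bN (v >>> 4) w)]

theorem pack3_xor {a b c a' b' c' : ℕ} (ha : a < 2) (hb : b < 2) (hc : c < 2) (ha' : a' < 2) (hb' : b' < 2)
    (hc' : c' < 2) : (a ^^^ a') + 2 * (b ^^^ b') + 4 * (c ^^^ c') = (a + 2 * b + 4 * c) ^^^ (a' + 2 * b' + 4 * c') :=
  (by decide : ∀ a < 2, ∀ b < 2, ∀ c < 2, ∀ a' < 2, ∀ b' < 2, ∀ c' < 2,
    (a ^^^ a') + 2 * (b ^^^ b') + 4 * (c ^^^ c') = (a + 2 * b + 4 * c) ^^^ (a' + 2 * b' + 4 * c'))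
    a ha b hb c hc a' ha' b' hb' c' hc'

theorem cm_xor_left (v v' w : ℕ) : cm (v ^^^ v') w = cm v w ^^^ cm v' w := by
  have h : ∀ p q r s, bN p q ^^^ bN r s < 2 := fun p q r s => xor_lt (n := 1) (bN_lt _ _) (bN_lt _ _)
  rw [cm_def v, cm_def v', ← pack3_xor (h _ _ _ _) (h _ _ _ _) (h _ _ _ _) (h _ _ _ _) (h _ _ _ _) (h _ _ _ _), cm_def]
  simp only [Nat.shiftRight_xor_distrib, bN_xor_left]
  congr 1
  · congr 1
    · ac_rfl
    · congr 1; ac_rfl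
  · congr 1; ac_rfl

theorem cm_xor_right (v w w' : ℕ) : cm v (w ^^^ w') = cm v w ^^^ cm v w' := by
  rw [cm_comm, cm_xor_left, cm_comm w, cm_comm w']

theorem cm_zero_left (w : ℕ) : cm 0 w = 0 := by
  have := cm_xor_left 0 0 w
  rwa [Nat.xor_self, Nat.xor_self] at this

theorem cm_zero_right (v : ℕ) : cm v 0 = 0 := by rw [cm_comm, cm_zero_left]

theorem cm_self (v : ℕ) : cm v v = 0 := by
  rw [cm_def, bN_comm (v >>> 8), bN_comm (v >>> 8), bN_comm (v >>> 4) v]; simp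

/-- `cm (·, v)` takes two independent values -/
theorem cm_two : ∀ v < 4096, v ≠ 0 → ∃ i < 12, ∃ j < 12,
    cm (2 ^ i) v ≠ 0 ∧ cm (2 ^ j) v ≠ 0 ∧ cm (2 ^ i) v ≠ cm (2 ^ j) v := ball (by decide +kernel)

theorem mm4_def (a b : ℕ) :
    mm4 a b = ap4 a b + 16 * ap4 a (b >>> 4) + (256 * ap4 a (b >>> 8) + 4096 * ap4 a (b >>> 12)) := rfl

theorem mm3_def (a b : ℕ) : mm3 a b = ap3 a b + 8 * ap3 a (b >>> 3) + 64 * ap3 a (b >>> 6) := rfl

theorem ap4_bit {p : ℕ} (hp : p < 2) (a n : ℕ) : ap4 a (p * n) = p * ap4 a n := by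
  interval_cases p
  · simp [ap4_def, bt_eq]
  · simp

theorem ap3_bit {p : ℕ} (hp : p < 2) (a n : ℕ) : ap3 a (p * n) = p * ap3 a n := by
  interval_cases p
  · simp [ap3_def, bt_eq]
  · simp

theorem ap4_land (a n : ℕ) : ap4 a (n &&& 15) = ap4 a n := by
  rw [show (15 : ℕ) = 2 ^ 4 - 1 from rfl, Nat.and_two_pow_sub_one_eq_mod]; exact ap4_mod a n

theorem ap3_land (a n : ℕ) : ap3 a (n &&& 7) = ap3 a n := by
  rw [show (7 : ℕ) = 2 ^ 3 - 1 from rfl, Nat.and_two_pow_sub_one_eq_mod]; exact ap3_mod a n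

theorem ap4_mm4 (a b n : ℕ) : ap4 (mm4 a b) n = ap4 a (ap4 b n) := by
  have h0 := ap4_lt a b
  have h1 := ap4_lt a (b >>> 4)
  have h2 := ap4_lt a (b >>> 8)
  have h3 := ap4_lt a (b >>> 12)
  have e : ∀ x : ℕ, x &&& 15 = x % 16 := fun x => Nat.and_two_pow_sub_one_eq_mod x 4
  rw [ap4_def b n, ap4_xor, ap4_xor, ap4_xor, ap4_bit (bt_lt _ _), ap4_bit (bt_lt _ _), ap4_bit (bt_lt _ _),
    ap4_bit (bt_lt _ _), ap4_land, ap4_land, ap4_land, ap4_land, ap4_def (mm4 a b), mm4_def]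
  simp only [e, Nat.shiftRight_eq_div_pow] at *
  congr 3 <;> omega

theorem ap3_mm3 (a b n : ℕ) : ap3 (mm3 a b) n = ap3 a (ap3 b n) := by
  have h0 := ap3_lt a b
  have h1 := ap3_lt a (b >>> 3)
  have h2 := ap3_lt a (b >>> 6)
  have e : ∀ x : ℕ, x &&& 7 = x % 8 := fun x => Nat.and_two_pow_sub_one_eq_mod x 3
  rw [ap3_def b n, ap3_xor, ap3_xor, ap3_bit (bt_lt _ _), ap3_bit (bt_lt _ _), ap3_bit (bt_lt _ _),
    ap3_land, ap3_land, ap3_land, ap3_def (mm3 a b), mm3_def]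
  simp only [e, Nat.shiftRight_eq_div_pow] at *
  congr 1
  · congr 2 <;> omega
  · congr 1; omega

theorem s5L_card : s5L.toFinset.card = 120 := by decide +kernel

theorem g3L_card : g3L.toFinset.card = 168 := by decide +kernel

theorem one_s5 : 33825 ∈ s5L := by decide +kernel

theorem one_g3 : 273 ∈ g3L := by decide +kernel

theorem mm4_one : ∀ a ∈ s5L, mm4 a 33825 = a ∧ mm4 33825 a = a := by decide +kernel

theorem mm3_one : ∀ b ∈ g3L, mm3 b 273 = b ∧ mm3 273 b = b := by decide +kernel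

/-- the action on `N ⊗ W` is faithful -/
theorem act_faithful : ∀ a ∈ s5L, ∀ b ∈ g3L, act a b 1 = 1 → act a b 16 = 16 → act a b 256 = 256 →
    act a b 2 = 2 → act a b 4 = 4 → act a b 8 = 8 → a = 33825 ∧ b = 273 := by decide +kernel

/-- the action on `Λ² W` is faithful -/
theorem cof_faithful : ∀ b ∈ g3L, cof b 1 = 1 → cof b 2 = 2 → cof b 4 = 4 → b = 273 := by decide +kernel

theorem cof_ne : ∀ b ∈ g3L, ∀ t < 8, cof b t = 0 → t = 0 := by decide +kernel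

theorem cof_c4 : ∀ b ∈ g3L, cof b 2 = 2 → cof b 4 = 4 → b ∈ c4L := by decide +kernel

theorem cof_v4 : ∀ b ∈ g3L, cof b 4 = 4 → cof b 1 % 4 = 1 → cof b 2 % 4 = 2 → b ∈ v4L := by decide +kernel

/-- transitivity on ordered pairs of independent vectors -/
theorem cof_trans : ∀ r < 8, ∀ s < 8, r ≠ 0 → s ≠ 0 → r ≠ s → ∃ b ∈ g3L, cof b r = 2 ∧ cof b s = 4 :=
  fun r hr s hs h1 h2 h3 => (by decide +kernel :
    ∀ r < 8, ∀ s < 8, (r ≠ 0 ∧ s ≠ 0 ∧ r ≠ s) → ∃ b ∈ g3L, cof b r = 2 ∧ cof b s = 4) r hr s hs ⟨h1, h2, h3⟩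

/-! ### the matrices of permutations -/

theorem pm_mem : ∀ g, pm g ∈ s5L := by decide +kernel

theorem pm_surj : ∀ a ∈ s5L, ∃ g, pm g = a := by decide +kernel

theorem pm_one : pm 1 = 33825 := by decide +kernel

theorem pm_eq_one : ∀ g, pm g = 33825 → g = 1 := by decide +kernel

/-- the number of a permutation -/
def pc (g : Equiv.Perm (Fin 5)) : ℕ := (g 0).val + 5 * (g 1).val + 25 * (g 2).val + 125 * (g 3).val + 625 * (g 4).val

/-- the numbers of the permutations -/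
def pcL : List ℕ := [194, 198, 214, 222, 238, 242, 294, 298, 334, 346, 358, 366, 414, 422, 434, 446, 482, 486, 538, 542, 558, 566, 582, 586, 694, 698, 714, 722, 738, 742, 894, 898, 954, 970, 978, 990, 1014, 1022, 1054, 1070, 1102, 1110, 1138, 1142, 1178, 1190, 1202, 1210, 1294, 1298, 1334, 1346, 1358, 1366, 1394, 1398, 1454, 1470, 1478, 1490, 1634, 1646, 1654, 1670, 1726, 1730, 1758, 1766, 1778, 1790, 1826, 1830, 1914, 1922, 1934, 1946, 1982, 1986, 2014, 2022, 2054, 2070, 2102, 2110, 2134, 2146, 2154, 2170, 2226, 2230, 2382, 2386, 2402, 2410, 2426, 2430, 2538, 2542, 2558, 2566, 2582, 2586, 2638, 2642, 2678, 2690, 2702, 2710, 2758, 2766, 2778, 2790, 2826, 2830, 2882, 2886, 2902, 2910, 2926, 2930]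

/-- digit `i` -/
def dg5 (c i : ℕ) : ℕ := c / 5 ^ i % 5

/-- the matrix with the number `c` -/
def pmN (c : ℕ) : ℕ := Nat.land (Nat.shiftRight pmTbl (Nat.mul 16 c)) 65535

theorem dg5_pc (g : Equiv.Perm (Fin 5)) (i : Fin 5) : dg5 (pc g) i = (g i).val := by
  have h0 := (g 0).2; have h1 := (g 1).2; have h2 := (g 2).2; have h3 := (g 3).2; have h4 := (g 4).2
  fin_cases i <;> simp only [dg5, pc] <;> simp <;> omega

theorem pm_mul (g h : Equiv.Perm (Fin 5)) : pm (g * h) = mm4 (pm g) (pm h) := by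
  have key : ∀ c ∈ pcL, ∀ d ∈ pcL, pmN (dg5 c (dg5 d 0) + 5 * dg5 c (dg5 d 1) + 25 * dg5 c (dg5 d 2) +
      125 * dg5 c (dg5 d 3)) = mm4 (pmN (c % 625)) (pmN (d % 625)) := by decide +kernel
  have mem : ∀ g, pc g ∈ pcL := by decide +kernel
  have e : ∀ g, pmN (pc g % 625) = pm g := fun g => by
    have h0 := (g 0).2; have h1 := (g 1).2; have h2 := (g 2).2; have h3 := (g 3).2
    rw [show pc g % 625 = (g 0).val + 5 * (g 1).val + 25 * (g 2).val + 125 * (g 3).val by rw [pc]; omega]; rfl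
  have := key _ (mem g) _ (mem h)
  rw [e, e, show (0 : ℕ) = (0 : Fin 5).val from rfl, show (1 : ℕ) = (1 : Fin 5).val from rfl,
    show (2 : ℕ) = (2 : Fin 5).val from rfl, show (3 : ℕ) = (3 : Fin 5).val from rfl] at this
  simp only [dg5_pc] at this
  exact this

theorem pm_inj {g h : Equiv.Perm (Fin 5)} (e : pm g = pm h) : g = h := by
  have : pm (h⁻¹ * g) = 33825 := by rw [pm_mul, e, ← pm_mul, inv_mul_cancel, pm_one]
  exact (inv_mul_eq_one.1 (pm_eq_one _ this)).symm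

/-! ### the model -/

theorem rh_lt (v : ℕ) : rh v < 4096 := mv_lt _ _

theorem rh_xor (v w : ℕ) : rh (v ^^^ w) = rh v ^^^ rh w := mv_xor _ _ _

theorem rh_zero : rh 0 = 0 := mv_zero _

theorem rh_rh : ∀ v < 4096, rh (rh v) = v ^^^ rh v := ball (by decide +kernel)

theorem rh_three : ∀ v < 4096, rh (rh (rh v)) = v := ball (by decide +kernel)

theorem rh_ne : ∀ v < 4096, rh v = v → v = 0 := ball (by decide +kernel)

theorem rh_one : rh 1 = 3 ∧ rh 3 = 2 ∧ rh 2 = 1 := by decide +kernel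

theorem qe_lt (v : ℕ) : qe v < 2 := bt_lt _ _

theorem qe_eq : ∀ v < 4096, qe v = bN (v / 4) (v / 64) ^^^ (bt v 0 * bt v 10 ^^^ bt v 1 * bt v 11) := ball (by decide +kernel)

theorem lab_iff : ∀ v < 4096, (lab v < 10 ↔ v ≠ 0 ∧ qe v = 0) := ball (by decide +kernel)

theorem lab_zero : ∀ v < 4096, (lab v = 0 ↔ v = 1 ∨ v = 2 ∨ v = 3) := ball (by decide +kernel)

theorem lab_rep : ∀ i < 10, rep i < 4096 ∧ lab (rep i) = i := by decide +kernel

theorem lab_gens : ∀ A ∈ gens, ∀ v < 4096, lab (mv A v) = lab v := fun A hA v hv =>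
  (ball (by decide +kernel) : ∀ v < 4096, ∀ A ∈ gens, lab (mv A v) = lab v) v hv A hA

theorem gens_rh : ∀ A ∈ gens, ∀ v < 4096, mv A (rh v) = rh (mv A v) := by
  intro A hA
  refine lin_ext ((lin_mv A).comp (lin_mv rhoM) fun x _ => mv_lt _ _)
    ((lin_mv rhoM).comp (lin_mv A) fun x _ => mv_lt _ _) ?_
  revert A
  decide +kernel

theorem Blk.refl (v : ℕ) : Blk v v := Or.inl rfl

theorem Blk.lt {v w : ℕ} (hv : v < 4096) (h : Blk v w) : w < 4096 := by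
  rcases h with rfl | rfl | rfl
  exacts [hv, rh_lt _, rh_lt _]

theorem Blk.rh {v w : ℕ} (hv : v < 4096) (h : Blk v w) : Blk v (rh w) := by
  rcases h with rfl | rfl | rfl
  exacts [Or.inr (Or.inl rfl), Or.inr (Or.inr rfl), Or.inl (rh_three v hv)]

theorem Blk.symm {v w : ℕ} (hv : v < 4096) (h : Blk v w) : Blk w v := by
  rcases h with rfl | rfl | rfl
  exacts [Or.inl rfl, Or.inr (Or.inr (rh_three v hv).symm), Or.inr (Or.inl (rh_three v hv).symm)]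

theorem Blk.trans {u v w : ℕ} (hu : u < 4096) (h1 : Blk u v) (h2 : Blk v w) : Blk u w := by
  rcases h2 with rfl | rfl | rfl
  exacts [h1, h1.rh hu, (h1.rh hu).rh hu]

theorem blk_one {w : ℕ} : Blk 1 w ↔ w = 1 ∨ w = 2 ∨ w = 3 := by
  rw [Blk, rh_one.1, rh_one.2.1]; omega

end CfsgLib.J4K
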