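import Cfsg.Agent.Lib.J4K.Pair
import Cfsg.Agent.Lib.LAE.Cores

/-!
# The extraspecial group `O_2(C(z))`
-/

set_option autoImplicit false
set_option Elab.async false

namespace CfsgLib.J4K

open Cfsg CfsgLib.J4T CfsgLib.ExtraTwo CfsgLib.LargeExtra Subgroup

/-- fourth power -/
def ecP (m : ℕ → ℕ → ℕ) (a : ℕ) : ℕ := m (m a a) (m a a)

/-- one reduction step -/
def ecS (a b v : ℕ) : ℕ := if act a b v = v then v else v ^^^ act a b v

theorem ec_s8 : ∀ a ∈ s5L, ecP mm4 (mm4 a a) = 33825 → ecP mm4 a = 33825 := by decide +kernel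

theorem ec_g8 : ∀ b ∈ g3L, ecP mm3 (mm3 b b) = 273 → ecP mm3 b = 273 := by decide +kernel

theorem ec_s : ∀ a ∈ s5L, ecP mm4 a = 33825 → a = 33825 ∨
    ∃ i ∈ s5L, mm4 i i = 33825 ∧ ecP mm4 (mm4 a (mm4 (mm4 i a) i)) ≠ 33825 := by decide +kernel

theorem ec_g : ∀ b ∈ g3L, cof b 4 = 4 → ecP mm3 b = 273 → b ∈ v4L ∨
    ∃ i ∈ g3L, cof i 4 = 4 ∧ mm3 i i = 273 ∧ ecP mm3 (mm3 b (mm3 (mm3 i b) i)) ≠ 273 := by decide +kernel

theorem ec_cof : ∀ b ∈ v4L, ∀ t < 8, cof b t = t ∨ cof b t = 4 ^^^ t := by decide +kernel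

theorem ec_red : ∀ v < 4096, v ≠ 0 → ecS 33825 281 (ecS 33825 401 (ecS 33825 337 (ecS 0xc431 273 (ecS 0xb621 273
    (ecS 0xa521 273 v))))) = 1 := ball (by decide +kernel)

theorem ec_basis : ∀ j < 8, ∃ a ∈ s5L, act a 273 1 = 2 ^ j ∨ act a 282 1 = 2 ^ j := by decide +kernel

theorem ec_big : ∀ x < 4096, 256 ≤ x → ∃ j < 8, cm (2 ^ j) x ≠ 0 ∧ cm (2 ^ j) x ≠ 4 := ball (by decide +kernel)

theorem ec_small : ∀ x < 256, x ≠ 0 → ∃ j < 8, cm (2 ^ j) x ≠ 0 := ball (by decide +kernel)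

theorem ec_v4 : ∀ b ∈ v4L, ∀ b' ∈ v4L, (b ≠ 273 ∧ mm3 b' 282 = mm3 282 b) →
    ∀ d ∈ v4L, d = 273 ∨ d = b ∨ d = b' ∨ d = mm3 b b' := by decide +kernel

theorem ec_fix : ∀ t < 8, cof 337 t = t → cof 401 t = t → t = 0 ∨ t = 4 := by decide +kernel

variable {G : Type*} [Group G]

theorem ec_four {K : Subgroup G} {f : G → ℕ} {m : ℕ → ℕ → ℕ} {Ls : List ℕ} {e : ℕ}
    (hm : ∀ x ∈ K, ∀ y ∈ K, f (x * y) = m (f x) (f y)) (hl : ∀ x ∈ K, f x ∈ Ls)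
    (hc : ∀ a ∈ Ls, ecP m (m a a) = e → ecP m a = e) (h1 : f 1 = e) {q : G} (hq : q ∈ K) {n : ℕ}
    (hn : q ^ 2 ^ n = 1) : ecP m (f q) = e := by
  have h4 : ∀ x ∈ K, ecP m (f x) = f (x ^ 4) := fun x hx => by
    rw [ecP, ← hm x hx x hx, ← hm _ (mul_mem hx hx) _ (mul_mem hx hx)]
    congr 1
    simp only [pow_succ, pow_zero, one_mul, mul_assoc]
  have key : ∀ n, ecP m (f (q ^ 2 ^ n)) = e → ecP m (f q) = e := fun n => by
    induction n with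
    | zero => rw [pow_zero, pow_one]; exact id
    | succ n ih =>
      intro h
      rw [pow_succ, pow_mul, pow_two, hm _ (pow_mem hq _) _ (pow_mem hq _)] at h
      exact ih (hc _ (hl _ (pow_mem hq _)) h)
  exact key n (by rw [hn, h4 1 (one_mem _), one_pow, h1])

/-- properties of `O_2(C(z))` -/
structure EcQ (c : KC G) (Q : Subgroup G) : Prop where
  pg : IsPGroup 2 Q
  le_K : Q ≤ c.K
  hH : ∀ q ∈ Q, c.H q
  norm : ∀ g, c.H g → ∀ q ∈ Q, g * q * g⁻¹ ∈ Q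
  cent : ∀ g, c.H g → (∀ q ∈ Q, q * g = g * q) → g ∈ Q
  max : ∀ D : Subgroup G, IsPGroup 2 D → (∀ d ∈ D, c.H d) → (∀ g, c.H g → ∀ d ∈ D, g * d * g⁻¹ ∈ D) → D ≤ Q
  notle : ∃ h, c.H h ∧ h ∉ c.K

theorem KC.exists_EcQ [Finite G] (c : KC G) (h2 : IsCharacteristicTwoType G) (hn : ∃ h, c.H h ∧ h ∉ c.K) :
    ∃ Q, EcQ c Q := by
  have z1 := c.ζ_ne_one (t := 4) (by norm_num) (by norm_num)
  have z2 := c.ζ_sq (t := 4) (by norm_num)
  have hN : normalizer (zpowers (c.ζ 4) : Set G) = centralizer ({c.ζ 4} : Set G) := by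
    ext g
    constructor
    · intro hg
      rcases (mem_zpowers_iff_of_mul_self z2).1 ((mem_normalizer_iff.1 hg _).1 (mem_zpowers _)) with e | e
      · exact absurd (by simpa using e) z1
      · exact mem_cent.2 (mul_inv_eq_iff_eq_mul.1 e)
    · intro hg
      refine mem_normalizer_fintype fun n hn => ?_
      rcases (mem_zpowers_iff_of_mul_self z2).1 hn with rfl | rfl
      · simp [one_mem]
      · rw [mem_cent.1 hg, mul_inv_cancel_right]; exact mem_zpowers _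
  have hc := h2.2 (zpowers (c.ζ 4)) (IsPGroup.of_card (n := 1) (by
    rw [Nat.card_zpowers, orderOf_eq_two z1 z2, pow_one])) (by rwa [Ne, zpowers_eq_bot])
  rw [hN] at hc
  have hn' := LAE.le_normalizer_pCoreOf (p := 2) (centralizer ({c.ζ 4} : Set G))
  refine ⟨pCoreOf 2 (centralizer ({c.ζ 4} : Set G)), LAE.isPGroup_pCoreOf _, ?_,
    fun q hq => c.H_iff_mem.2 (LAE.pCoreOf_le _ hq),
    fun g hg q hq => (mem_normalizer_iff.1 (hn' (c.H_iff_mem.1 hg)) q).1 hq, fun g hg e => ?_,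
    fun D h1 h2 h3 => LAE.le_pCoreOf h1 (fun d hd => c.H_iff_mem.1 (h2 d hd))
      fun g hg => mem_normalizer_fintype (h3 g (c.H_iff_mem.2 hg)), hn⟩
  · obtain ⟨S, -, h1, h3⟩ := c.exists_sylow
    have := S.is_maximal' ((S.isPGroup'.to_sup_of_normal_right' (LAE.isPGroup_pCoreOf _)
      fun x hx => hn' (c.H_iff_mem.1 (h3 x hx)))) le_sup_left
    exact (le_sup_right.trans this.le).trans h1
  · exact ⟨⟨g, c.H_iff_mem.1 hg⟩, hc (mem_centralizer_iff.2 fun u hu => Subtype.ext (e u ⟨u, hu, rfl⟩)), rfl⟩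

/-- the normal closure of `Z` in `C(z)` -/
def KC.U (c : KC G) : Subgroup G := closure {x | ∃ h, c.H h ∧ ∃ t < 8, x = h * c.ζ t * h⁻¹}

theorem KC.conj_mem_U (c : KC G) {h : G} (hh : c.H h) {t : ℕ} (ht : t < 8) : h * c.ζ t * h⁻¹ ∈ c.U :=
  subset_closure ⟨h, hh, t, ht, rfl⟩

theorem KC.ζ_mem_U (c : KC G) {t : ℕ} (ht : t < 8) : c.ζ t ∈ c.U := by
  simpa using c.conj_mem_U c.H_one ht

theorem KC.U_norm (c : KC G) {g u : G} (hg : c.H g) (hu : u ∈ c.U) : g * u * g⁻¹ ∈ c.U := by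
  have : c.U ≤ c.U.comap (MulAut.conj g).toMonoidHom := (closure_le _).2 fun x ⟨h, hh, t, ht, e⟩ => by
    have := c.conj_mem_U (c.H_mul hg hh) ht
    simpa [e, mul_assoc] using this
  exact this hu

namespace EcQ

variable {c : KC G} {Q : Subgroup G} (h : EcQ c Q)

include h

theorem σ_Q {q : G} (hq : q ∈ Q) : c.σ q = 33825 := by
  have key : ∀ q ∈ Q, ecP mm4 (c.σ q) = 33825 := fun q hq => by
    obtain ⟨n, hn⟩ := h.pg ⟨q, hq⟩
    exact ec_four (fun x hx y hy => c.σ_mul hx hy) (fun x hx => c.σ_mem hx) ec_s8 c.σ_one (h.le_K hq)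
      (congrArg Subtype.val hn)
  have hK := h.le_K hq
  refine (ec_s _ (c.σ_mem hK) (key q hq)).resolve_right fun ⟨i, hi, e1, e2⟩ => e2 ?_
  obtain ⟨k, hk, rfl, e⟩ := c.surj i hi 273 one_g3
  have h1 := h.norm k (c.H_of_χ hk e) q hq
  rw [← c.σ_mul hk hK, ← c.σ_mul (mul_mem hk hK) hk, show k * q * k = k * q * k⁻¹ * (k * k) by group,
    (c.σ_mul_one (h.le_K h1) (mul_mem hk hk) (by rw [c.σ_mul hk hk, e1])).1, ← c.σ_mul hK (h.le_K h1)]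
  exact key _ (mul_mem hq h1)

theorem χ_Q {q : G} (hq : q ∈ Q) : c.χ q ∈ v4L := by
  have key : ∀ q ∈ Q, ecP mm3 (c.χ q) = 273 := fun q hq => by
    obtain ⟨n, hn⟩ := h.pg ⟨q, hq⟩
    exact ec_four c.χ_mul c.χ_mem ec_g8 c.χ_one (h.le_K hq) (congrArg Subtype.val hn)
  have hK := h.le_K hq
  refine (ec_g _ (c.χ_mem _ hK) ((c.H_iff hK).1 (h.hH q hq)) (key q hq)).resolve_right
    fun ⟨i, hi, e0, e1, e2⟩ => e2 ?_
  obtain ⟨k, hk, -, rfl⟩ := c.surj _ one_s5 i hi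
  have h1 := h.norm k ((c.H_iff hk).2 e0) q hq
  rw [← c.χ_mul _ hk _ hK, ← c.χ_mul _ (mul_mem hk hK) _ hk, show k * q * k = k * q * k⁻¹ * (k * k) by group,
    (c.χ_mul_one (h.le_K h1) (mul_mem hk hk) (by rw [c.χ_mul _ hk _ hk, e1])).1, ← c.χ_mul _ hK _ (h.le_K h1)]
  exact key _ (mul_mem hq h1)

/-- the elements of `U` lie in `Q` and are central modulo `z` -/
theorem U_spec {u : G} (hu : u ∈ c.U) : u ∈ Q ∧ ∀ q ∈ Q, u * q * u⁻¹ = q ∨ u * q * u⁻¹ = c.ζ 4 * q := by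
  have z2 := c.ζ_sq (t := 4) (by norm_num)
  let D : Subgroup G :=
    { carrier := {d | c.H d ∧ ∀ q ∈ Q, d * q * d⁻¹ = q ∨ d * q * d⁻¹ = c.ζ 4 * q}
      mul_mem' := fun {a b} ha hb => ⟨c.H_mul ha.1 hb.1, fun q hq => by
        rw [show a * b * q * (a * b)⁻¹ = a * (b * q * b⁻¹) * a⁻¹ by group]
        rcases hb.2 q hq with e | e <;> rw [e]
        · exact ha.2 q hq
        · rw [show a * (c.ζ 4 * q) * a⁻¹ = a * c.ζ 4 * a⁻¹ * (a * q * a⁻¹) by group, c.H_conj ha.1]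
          rcases ha.2 q hq with e | e <;> rw [e]
          · exact Or.inr rfl
          · exact Or.inl (by rw [← mul_assoc, z2, one_mul])⟩
      one_mem' := ⟨c.H_one, fun q _ => Or.inl (by group)⟩
      inv_mem' := fun {a} ha => ⟨c.H_inv ha.1, fun q hq => by
        rcases ha.2 q hq with e | e
        · exact Or.inl (by conv_lhs => rw [← e]
                           group)
        · refine Or.inr ?_
          have e' : q = c.ζ 4 * (a * q * a⁻¹) := by rw [e, ← mul_assoc, z2, one_mul]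
          conv_lhs => rw [e', show a⁻¹ * (c.ζ 4 * (a * q * a⁻¹)) * a⁻¹⁻¹ = a⁻¹ * c.ζ 4 * a⁻¹⁻¹ * q by group,
            c.H_conj (c.H_inv ha.1)]⟩ }
  have hDn : ∀ g, c.H g → ∀ d ∈ D, g * d * g⁻¹ ∈ D := fun g hg d hd =>
    ⟨c.H_mul (c.H_mul hg hd.1) (c.H_inv hg), fun q hq => by
      have h1 := h.norm _ (c.H_inv hg) q hq
      rw [show g * d * g⁻¹ * q * (g * d * g⁻¹)⁻¹ = g * (d * (g⁻¹ * q * g⁻¹⁻¹) * d⁻¹) * g⁻¹ by group]
      rcases hd.2 _ h1 with e | e <;> rw [e]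
      · exact Or.inl (by group)
      · exact Or.inr (by
          rw [show g * (c.ζ 4 * (g⁻¹ * q * g⁻¹⁻¹)) * g⁻¹ = g * c.ζ 4 * g⁻¹ * q by group, c.H_conj hg])⟩
  have hDp : IsPGroup 2 D := fun d => by
    have : (d : G) * d ∈ Q := h.cent _ (c.H_mul d.2.1 d.2.1) fun q hq => by
      rw [eq_comm, ← mul_inv_eq_iff_eq_mul, show (d : G) * d * q * ((d : G) * d)⁻¹ = d * (d * q * (d : G)⁻¹) * (d : G)⁻¹ by
        group]
      rcases d.2.2 q hq with e | e <;> rw [e]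
      · exact e
      · rw [show (d : G) * (c.ζ 4 * q) * (d : G)⁻¹ = d * c.ζ 4 * (d : G)⁻¹ * (d * q * (d : G)⁻¹) by group,
          c.H_conj d.2.1, e, ← mul_assoc, z2, one_mul]
    obtain ⟨n, hn⟩ := h.pg ⟨_, this⟩
    refine ⟨n + 1, Subtype.ext ?_⟩
    have := congrArg Subtype.val hn
    rw [pow_succ', pow_mul, pow_two]
    exact this
  have hU : c.U ≤ D := (closure_le _).2 fun x ⟨g, hg, t, ht, e⟩ => e ▸ hDn g hg _ ⟨c.H_L (c.ζ_mem t ht), fun q hq => by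
    have e1 := c.act_Z q (h.le_K hq) t ht
    have e2 : c.ζ t * q * (c.ζ t)⁻¹ = c.ζ t * (q * c.ζ t * q⁻¹) * q := by rw [c.ζ_inv ht]; group
    rw [e2, e1]
    rcases ec_cof _ (h.χ_Q hq) t ht with e3 | e3 <;> rw [e3]
    · exact Or.inl (by rw [c.ζ_sq ht, one_mul])
    · exact Or.inr (by
        rw [c.ζ_mul t ht _ (xor_lt (n := 3) (by norm_num) ht), Nat.xor_comm 4, ← Nat.xor_assoc, Nat.xor_self,
          Nat.zero_xor])⟩
  exact ⟨h.max D hDp (fun d hd => hd.1) hDn (hU hu), (hU hu).2⟩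

theorem U_le : c.U ≤ Q := fun _ hu => (h.U_spec hu).1

variable [Finite G]

theorem not_U_le_Z : ¬ c.U ≤ c.Z := fun e => by
  obtain ⟨g, hg, hK⟩ := h.notle
  exact hK (c.mem_K_iff.2 fun t ht => e (c.conj_mem_U hg ht))

theorem mem_U {l : G} (hl : l ∈ c.L) (hp : c.π l < 256) : l ∈ c.U := by
  let X : ℕ → Prop := fun v => ∃ l ∈ c.U, l ∈ c.L ∧ c.π l = v
  have X0 : X 0 := ⟨1, one_mem _, one_mem _, c.π_one⟩
  have Xx : ∀ v w, X v → X w → X (v ^^^ w) := fun v w ⟨l, a1, a2, a3⟩ ⟨m, b1, b2, b3⟩ =>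
    ⟨l * m, mul_mem a1 b1, mul_mem a2 b2, by rw [c.π_mul l a2 m b2, a3, b3]⟩
  have Xa : ∀ a ∈ s5L, ∀ b ∈ g3L, cof b 4 = 4 → ∀ v, X v → X (act a b v) := fun a ha b hb e v ⟨l, a1, a2, a3⟩ => by
    obtain ⟨k, hk, rfl, rfl⟩ := c.surj a ha b hb
    exact ⟨_, c.U_norm ((c.H_iff hk).2 e) a1, c.conj_L k hk l a2, by rw [c.act_L k hk l a2, a3]⟩
  have Xs : ∀ a ∈ s5L, ∀ b ∈ g3L, cof b 4 = 4 → ∀ v, X v → X (ecS a b v) := fun a ha b hb e v hv => by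
    rw [ecS]
    split_ifs
    exacts [hv, Xx _ _ hv (Xa a ha b hb e v hv)]
  have X1 : X 1 := by
    by_contra hX
    have key : ∀ l ∈ c.U, l ∈ c.L → c.π l = 0 := fun l a1 a2 => by
      by_contra h0
      refine hX ?_
      rw [← ec_red _ (c.π_lt l) h0]
      refine Xs _ ?_ _ ?_ ?_ _ (Xs _ ?_ _ ?_ ?_ _ (Xs _ ?_ _ ?_ ?_ _ (Xs _ ?_ _ ?_ ?_ _ (Xs _ ?_ _ ?_ ?_ _
        (Xs _ ?_ _ ?_ ?_ _ ⟨l, a1, a2, rfl⟩))))) <;> decide +kernel
    refine h.not_U_le_Z fun u hu => ?_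
    have hK := h.le_K (h.U_le hu)
    have hL : u ∈ c.L := c.mem_L_of_act hK fun v hv => by
      obtain ⟨l, hl, rfl⟩ := c.π_surj v hv
      rw [← Nat.xor_eq_zero_iff, ← c.π_comm hK hl]
      refine key _ ?_ (mul_mem (c.conj_L u hK l hl) (inv_mem hl))
      have := mul_mem hu (c.U_norm (c.H_L hl) (inv_mem hu))
      simpa [mul_assoc] using this
    exact (c.π_zero u hL).1 (key u hu hL)
  obtain ⟨m, a1, a2, a3⟩ := bits_ind' 8 (P := X) X0 (fun j hj => by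
    obtain ⟨a, ha, e | e⟩ := ec_basis j hj <;> rw [← e]
    · exact Xa a ha _ one_g3 (by decide +kernel) 1 X1
    · exact Xa a ha _ (by decide +kernel) (by decide +kernel) 1 X1) (fun x _ y _ => Xx x y) _ hp
  obtain ⟨t, ht, rfl⟩ := c.exists_ζ a2 hl a3
  exact mul_mem a1 (c.ζ_mem_U ht)

theorem exists_basis {j : ℕ} (hj : j < 8) : ∃ l ∈ c.U, l ∈ c.L ∧ c.π l = 2 ^ j := by
  have h1 : 2 ^ j < 256 := Nat.pow_lt_pow_right (m := j) (n := 8) (by norm_num) hj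
  obtain ⟨l, hl, e⟩ := c.π_surj (2 ^ j) (by omega)
  exact ⟨l, h.mem_U hl (e ▸ h1), hl, e⟩

theorem π_lt {l : G} (hq : l ∈ Q) (hl : l ∈ c.L) : c.π l < 256 := by
  by_contra hp
  obtain ⟨j, hj, e1, e2⟩ := ec_big _ (c.π_lt l) (by omega)
  obtain ⟨m, a1, a2, a3⟩ := h.exists_basis hj
  have e := c.conj_comm a2 hl
  rw [a3] at e
  rcases (h.U_spec a1).2 l hq with e' | e' <;> rw [e'] at e
  · exact e1 (c.ζ_eq_one _ (cm_lt _ _) (mul_eq_right.1 e.symm))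
  · exact e2 (c.ζ_inj (cm_lt _ _) (by norm_num) (mul_right_cancel e).symm)

theorem mem_Z_of_comm {y : G} (hq : y ∈ Q) (hl : y ∈ c.L) (e : ∀ u ∈ c.U, u * y = y * u) : y ∈ c.Z := by
  refine (c.π_zero y hl).1 ?_
  by_contra h0
  obtain ⟨j, hj, e1⟩ := ec_small _ (h.π_lt hq hl) h0
  obtain ⟨m, a1, a2, a3⟩ := h.exists_basis hj
  exact e1 (a3 ▸ (c.comm_iff a2 hl).1 (e m a1))

theorem χ_surj {b : ℕ} (hb : b ∈ v4L) : ∃ u ∈ c.U, c.χ u = b := by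
  obtain ⟨u, hu, e⟩ : ∃ u ∈ c.U, c.χ u ≠ 273 := by
    by_contra hX
    push Not at hX
    have hL : c.U ≤ c.L := fun u hu => c.mem_L (h.le_K (h.U_le hu)) (h.σ_Q (h.U_le hu)) (hX u hu)
    refine h.not_U_le_Z ((closure_le _).2 fun x ⟨g, hg, t, ht, e⟩ => ?_)
    have h1 := c.conj_mem_U hg ht
    rw [e]
    refine h.mem_Z_of_comm (h.U_le h1) (hL h1) fun u hu => ?_
    have := c.ζ_comm (hL (c.U_norm (c.H_inv hg) hu)) ht
    calc u * (g * c.ζ t * g⁻¹) = g * (g⁻¹ * u * g⁻¹⁻¹ * c.ζ t) * g⁻¹ := by group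
      _ = _ := by rw [this]; group
  obtain ⟨k, hk, -, e1⟩ := c.surj _ one_s5 282 (by decide +kernel)
  have h1 := c.U_norm ((c.H_iff hk).2 (by rw [e1]; decide +kernel)) hu
  have hK := h.le_K (h.U_le hu)
  have hK1 := h.le_K (h.U_le h1)
  rcases ec_v4 _ (h.χ_Q (h.U_le hu)) _ (h.χ_Q (h.U_le h1)) ⟨e, by
    rw [← e1, ← c.χ_mul _ hK1 _ hk, ← c.χ_mul _ hk _ hK, inv_mul_cancel_right]⟩ b hb with rfl | rfl | rfl | rfl
  exacts [⟨1, one_mem _, c.χ_one⟩, ⟨u, hu, rfl⟩, ⟨_, h1, rfl⟩, ⟨_, mul_mem hu h1, c.χ_mul _ hK _ hK1⟩]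

theorem le_U : Q ≤ c.U := fun q hq => by
  obtain ⟨u, hu, e⟩ := h.χ_surj (h.χ_Q hq)
  have hQ := h.U_le hu
  have hL : q * u⁻¹ ∈ c.L := c.mem_L (h.le_K (mul_mem hq (inv_mem hQ))) (h.σ_Q (mul_mem hq (inv_mem hQ)))
    (c.χ_mul_inv (h.le_K hq) (h.le_K hQ) e.symm)
  exact (mul_mem_cancel_right (inv_mem hu)).1 (h.mem_U hL (h.π_lt (mul_mem hq (inv_mem hQ)) hL))

theorem mem_iff {l : G} (hl : l ∈ c.L) : l ∈ Q ↔ c.π l < 256 :=
  ⟨fun hq => h.π_lt hq hl, fun hp => h.U_le (h.mem_U hl hp)⟩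

theorem card : Nat.card Q = 8192 := by
  rw [card_eq_of_fib Q c.L c.χ v4L.toFinset (fun b => by
      rw [List.mem_toFinset]
      exact ⟨fun hb => let ⟨u, hu, e⟩ := h.χ_surj hb; ⟨u, h.U_le hu, e⟩, fun ⟨q, hq, e⟩ => e ▸ h.χ_Q hq⟩)
    (fun x hx y hy => by rw [c.inv_mul_mem_L (h.le_K hx) (h.le_K hy), h.σ_Q hx, h.σ_Q hy, eq_self, true_and]),
    c.card_over_Z (A := Q ⊓ c.L) (fun x hx => by
      obtain ⟨t, ht, rfl⟩ := (c.mem_Z x).1 hx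
      exact mem_inf.2 ⟨h.U_le (c.ζ_mem_U ht), c.ζ_mem t ht⟩) inf_le_right (Finset.range 256) fun v => by
      rw [Finset.mem_range]
      refine ⟨fun hv => ?_, fun ⟨l, hl, e⟩ => e ▸ h.π_lt hl.1 hl.2⟩
      obtain ⟨l, hl, e⟩ := c.π_surj v (by omega)
      exact ⟨l, mem_inf.2 ⟨(h.mem_iff hl).2 (e ▸ hv), hl⟩, e⟩,
    Finset.card_range, show v4L.toFinset.card = 4 by decide]

theorem es : ES Q (c.ζ 4) where
  ne_one := c.ζ_ne_one (by norm_num) (by norm_num)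
  mul_self := c.ζ_sq (by norm_num)
  mem := h.U_le (c.ζ_mem_U (by norm_num))
  comm_z := h.hH
  center := fun x hx e => by
    have hK := h.le_K hx
    have hL : x ∈ c.L := c.mem_L hK (h.σ_Q hx)
      (c.χ_eq_one_of_comm hK fun t ht => (e _ (h.U_le (c.ζ_mem_U ht))).symm)
    obtain ⟨t, ht, rfl⟩ := (c.mem_Z x).1 (h.mem_Z_of_comm hx hL fun u hu => e u (h.U_le hu))
    obtain ⟨u, hu, e1⟩ := h.χ_surj (b := 337) (by decide)
    obtain ⟨w, hw, e2⟩ := h.χ_surj (b := 401) (by decide)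
    rcases ec_fix t ht (e1 ▸ (c.comm_ζ_iff (h.le_K (h.U_le hu)) ht).1 (e u (h.U_le hu)))
      (e2 ▸ (c.comm_ζ_iff (h.le_K (h.U_le hw)) ht).1 (e w (h.U_le hw))) with rfl | rfl
    exacts [Or.inl c.ζ_zero, Or.inr rfl]
  comm := fun x hx y hy => by
    rcases (h.U_spec (h.le_U hx)).2 y hy with e | e
    · exact Or.inl (mul_inv_eq_iff_eq_mul.1 e)
    · exact Or.inr (by rw [mul_inv_eq_iff_eq_mul.1 e, mul_assoc])
  nonab := by
    obtain ⟨l, a1, a2, a3⟩ := h.exists_basis (j := 0) (by norm_num)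
    obtain ⟨m, b1, b2, b3⟩ := h.exists_basis (j := 7) (by norm_num)
    refine ⟨l, h.U_le a1, m, h.U_le b1, fun e => ?_⟩
    have := (c.comm_iff a2 b2).1 e
    rw [a3, b3] at this
    exact absurd this (by decide +kernel)

theorem ec : EC c Q where
  pre := ⟨h.es, fun g e => h.es.center g (h.cent g (e _ h.es.mem).symm e) e, h.norm⟩
  card := h.card
  le_K := h.le_K
  σ_E := fun _ he => h.σ_Q he
  χ_E := fun _ he => h.χ_Q he
  χ_surj := fun _ hb => let ⟨u, hu, e⟩ := h.χ_surj hb; ⟨u, h.U_le hu, e⟩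
  mem_L := fun _ hl => h.mem_iff hl
  gen := fun P hP => h.le_U.trans ((closure_le _).2 fun _ ⟨g, hg, t, ht, e⟩ => e ▸ hP g hg t ht)
  notle := h.notle

end EcQ

variable [Finite G]

theorem KC.exists_EC (c : KC G) (h2 : IsCharacteristicTwoType G) (hn : ∃ h, c.H h ∧ h ∉ c.K) :
    ∃ E, EC c E :=
  let ⟨Q, h⟩ := c.exists_EcQ h2 hn
  ⟨Q, h.ec⟩

end CfsgLib.J4K
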