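import Cfsg.Agent.Lib.J4K.Api

/-!
# Coordinates on `E / ⟨z⟩`
-/

set_option autoImplicit false
set_option Elab.async false

namespace CfsgLib.J4K

open Cfsg CfsgLib.J4T CfsgLib.ExtraTwo CfsgLib.LargeExtra Subgroup

variable {G : Type*} [Group G]

/-- powers of a matrix with four columns -/
def pw4 (a : ℕ) : ℕ → ℕ
  | 0 => 33825
  | n + 1 => mm4 (pw4 a n) a

/-- powers of a matrix with three columns -/
def pw3 (b : ℕ) : ℕ → ℕ
  | 0 => 273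
  | n + 1 => mm3 (pw3 b n) b

theorem KC.σ_pow (c : KC G) {k : G} (hk : k ∈ c.K) (n : ℕ) : c.σ (k ^ n) = pw4 (c.σ k) n := by
  induction n with
  | zero => rw [pow_zero, c.σ_one]; rfl
  | succ n ih => rw [pow_succ, c.σ_mul (pow_mem hk n) hk, ih]; rfl

theorem KC.χ_pow (c : KC G) {k : G} (hk : k ∈ c.K) (n : ℕ) : c.χ (k ^ n) = pw3 (c.χ k) n := by
  induction n with
  | zero => rw [pow_zero, c.χ_one]; rfl
  | succ n ih => rw [pow_succ, c.χ_mul _ (pow_mem hk n) _ hk, ih]; rfl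

theorem KC.exists_ρw (c : KC G) : ∃ ρ ∈ c.K, ∃ w ∈ c.K, ρ ^ 3 = 1 ∧ w ^ 5 = 1 ∧ ρ * w = w * ρ ∧
    c.σ ρ = 33825 ∧ c.χ ρ = 282 ∧ c.σ w = 5083 ∧ c.χ w = 273 := by
  obtain ⟨g, hg, h1, h2⟩ := c.surj 5083 (by decide +kernel) 282 (by decide +kernel)
  have h15 : g ^ 15 ∈ c.L := c.mem_L (pow_mem hg _) (by rw [c.σ_pow hg, h1]; decide +kernel)
    (by rw [c.χ_pow hg, h2]; decide +kernel)
  have h60 : g ^ 60 = 1 := by rw [show 60 = 15 * 4 from rfl, pow_mul, c.pow_four h15]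
  refine ⟨g ^ 40, pow_mem hg _, g ^ 36, pow_mem hg _, ?_, ?_, by rw [← pow_add, ← pow_add], ?_, ?_, ?_, ?_⟩
  · rw [← pow_mul, show 40 * 3 = 60 * 2 from rfl, pow_mul, h60, one_pow]
  · rw [← pow_mul, show 36 * 5 = 60 * 3 from rfl, pow_mul, h60, one_pow]
  all_goals simp only [c.σ_pow hg, c.χ_pow hg, h1, h2]; decide +kernel

/-- linear coordinates on `E / ⟨z⟩` with the action of `ρ` and `w` -/
structure Fr (c : KC G) (E : Subgroup G) (V : Type) [AddCommGroup V] [Module (ZMod 2) V] where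
  /-- the quadratic form -/
  q : QuadraticForm (ZMod 2) V
  /-- the map to `V` -/
  P : G → V
  /-- the element of order 3 -/
  ρ : G
  /-- the element of order 5 -/
  w : G
  /-- the action of `ρ` -/
  R : V →ₗ[ZMod 2] V
  /-- the action of `w` -/
  W : V →ₗ[ZMod 2] V
  ec : EC c E
  co : Coord E (c.ζ 4) q P
  ρ_mem : ρ ∈ c.K
  w_mem : w ∈ c.K
  ρ_three : ρ ^ 3 = 1
  σ_ρ : c.σ ρ = 33825
  χ_ρ : c.χ ρ = 282
  σ_w : c.σ w = 5083
  χ_w : c.χ w = 273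
  R_P : ∀ e ∈ E, R (P e) = P (ρ * e * ρ⁻¹)
  W_P : ∀ e ∈ E, W (P e) = P (w * e * w⁻¹)
  R3 : ∀ v, R (R (R v)) = v
  W5 : ∀ v, W (W (W (W (W v)))) = v
  RW : ∀ v, R (W v) = W (R v)
  q_W : ∀ v, q (W v) = q v

theorem EC.exists_Fr [Finite G] {c : KC G} {E : Subgroup G} (ec : EC c E) :
    ∃ n, Nonempty (Fr c E (Fin n → ZMod 2)) := by
  obtain ⟨n, q, P, co⟩ := ec.pre.es.exists_coord
  obtain ⟨A, a1, a2, -⟩ := ec.pre.exists_act co
  obtain ⟨ρ, hρ, w, hw, h1, h2, h3, h4, h5, h6, h7⟩ := c.exists_ρw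
  let ρ' : centralizer ({c.ζ 4} : Set G) := ⟨ρ, c.H_iff_mem.1 ((c.H_iff hρ).2 (by rw [h5]; decide +kernel))⟩
  let w' : centralizer ({c.ζ 4} : Set G) := ⟨w, c.H_iff_mem.1 (c.H_of_χ hw h7)⟩
  refine ⟨n, ⟨⟨q, P, ρ, w, A ρ', A w', ec, co, hρ, hw, h1, h4, h5, h6, h7, a1 ρ', a1 w', fun v => ?_, fun v => ?_,
    fun v => ?_, a2 w'⟩⟩⟩
  · have : A ρ' * (A ρ' * A ρ') = 1 := by
      rw [← map_mul, ← map_mul, ← pow_three, show ρ' ^ 3 = 1 from Subtype.ext h1, map_one]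
    exact DFunLike.congr_fun this v
  · have : A w' * (A w' * (A w' * (A w' * A w'))) = 1 := by
      rw [← map_mul, ← map_mul, ← map_mul, ← map_mul, show w' * (w' * (w' * (w' * w'))) = w' ^ 5 by
        simp only [pow_succ, pow_zero, one_mul, mul_assoc], show w' ^ 5 = 1 from Subtype.ext h2, map_one]
    exact DFunLike.congr_fun this v
  · have : A ρ' * A w' = A w' * A ρ' := by rw [← map_mul, ← map_mul, show ρ' * w' = w' * ρ' from Subtype.ext h3]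
    exact DFunLike.congr_fun this v

namespace Fr

variable {c : KC G} {E : Subgroup G} {V : Type} [AddCommGroup V] [Module (ZMod 2) V] (f : Fr c E V)

theorem nρ {e : G} (he : e ∈ E) : f.ρ * e * f.ρ⁻¹ ∈ E :=
  f.ec.pre.norm _ ((c.H_iff f.ρ_mem).2 (by rw [f.χ_ρ]; decide +kernel)) e he

theorem nw {e : G} (he : e ∈ E) : f.w * e * f.w⁻¹ ∈ E := f.ec.pre.norm _ (c.H_of_χ f.w_mem f.χ_w) e he

include f in
theorem ζE {t : ℕ} (ht : t < 8) : c.ζ t ∈ E := (f.ec.mem_L _ (c.ζ_mem t ht)).2 (by rw [c.π_ζ ht]; norm_num)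

theorem Pζ_xor {t s : ℕ} (ht : t < 8) (hs : s < 8) : f.P (c.ζ (t ^^^ s)) = f.P (c.ζ t) + f.P (c.ζ s) := by
  rw [← c.ζ_mul t ht s hs, f.co.map_mul _ (f.ζE ht) _ (f.ζE hs)]

theorem Pζ_mod {t : ℕ} (ht : t < 8) : f.P (c.ζ (t % 4)) = f.P (c.ζ t) := by
  by_cases h : t < 4
  · rw [Nat.mod_eq_of_lt h]
  · have : t = t % 4 ^^^ 4 := by interval_cases t <;> rfl
    conv_rhs => rw [this, f.Pζ_xor (by omega) (by norm_num), f.co.map_z, add_zero]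

theorem W_ζ {t : ℕ} (ht : t < 8) : f.W (f.P (c.ζ t)) = f.P (c.ζ t) := by
  rw [f.W_P _ (f.ζE ht), c.act_Z _ f.w_mem t ht, f.χ_w, cof_one t ht]

theorem R_ζ {t : ℕ} (ht : t < 8) : f.R (f.P (c.ζ t)) = f.P (c.ζ (cof 282 t)) := by
  rw [f.R_P _ (f.ζE ht), c.act_Z _ f.ρ_mem t ht, f.χ_ρ]

theorem χ_cw {e : G} (he : e ∈ E) : c.χ (f.w * e * f.w⁻¹) = c.χ e := by
  have := f.ec.le_K he
  rw [(c.χ_mul_one (mul_mem f.w_mem this) (inv_mem f.w_mem) (c.χ_inv_one f.w_mem f.χ_w)).1,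
    (c.χ_mul_one this f.w_mem f.χ_w).2]

theorem χ_cρ {e : G} (he : e ∈ E) : mm3 (c.χ (f.ρ * e * f.ρ⁻¹)) 282 = mm3 282 (c.χ e) := by
  rw [← f.χ_ρ, ← c.χ_mul _ (f.ec.le_K (f.nρ he)) _ f.ρ_mem, ← c.χ_mul _ f.ρ_mem _ (f.ec.le_K he),
    inv_mul_cancel_right]

/-- the sum of the five images under `w` -/
def T (v : V) : V := v + f.W v + f.W (f.W v) + f.W (f.W (f.W v)) + f.W (f.W (f.W (f.W v)))

theorem T_add (u v : V) : f.T (u + v) = f.T u + f.T v := by simp only [T, map_add]; abel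

theorem W_T (v : V) : f.W (f.T v) = f.T v := by simp only [T, map_add, f.W5]; abel

theorem T_W (v : V) : f.T (f.W v) = f.T v := by simp only [T, f.W5]; abel

theorem R_T (v : V) : f.R (f.T v) = f.T (f.R v) := by simp only [T, map_add, f.RW]

theorem T_fix {v : V} (h : f.W v = v) : f.T v = v := by
  simp only [T, h]
  rw [add_self_zmod2, zero_add, add_self_zmod2, zero_add]

/-- a representative of `T (P e)` -/
theorem exists_T {e : G} (he : e ∈ E) : ∃ y ∈ E, f.P y = f.T (f.P e) ∧ c.χ y = c.χ e ∧ (e ∈ c.L → y ∈ c.Z) := by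
  have h1 := f.nw he
  have h2 := f.nw h1
  have h3 := f.nw h2
  have h4 := f.nw h3
  have k := f.ec.le_K
  refine ⟨_, mul_mem (mul_mem (mul_mem (mul_mem he h1) h2) h3) h4, ?_, ?_, fun hl => ?_⟩
  · rw [f.co.map_mul _ (mul_mem (mul_mem (mul_mem he h1) h2) h3) _ h4, f.co.map_mul _ (mul_mem (mul_mem he h1) h2) _ h3,
      f.co.map_mul _ (mul_mem he h1) _ h2, f.co.map_mul _ he _ h1, ← f.W_P _ h3, ← f.W_P _ h2, ← f.W_P _ h1,
      ← f.W_P _ he, T]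
  · rw [c.χ_mul _ (k (mul_mem (mul_mem (mul_mem he h1) h2) h3)) _ (k h4),
      c.χ_mul _ (k (mul_mem (mul_mem he h1) h2)) _ (k h3), c.χ_mul _ (k (mul_mem he h1)) _ (k h2),
      c.χ_mul _ (k he) _ (k h1), f.χ_cw h3, f.χ_cw h2, f.χ_cw h1, f.χ_cw he]
    exact (by decide +kernel : ∀ b ∈ v4L, mm3 (mm3 (mm3 (mm3 b b) b) b) b = b) _ (f.ec.χ_E e he)
  · have l1 := c.conj_L _ f.w_mem _ hl
    have l2 := c.conj_L _ f.w_mem _ l1
    have l3 := c.conj_L _ f.w_mem _ l2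
    have l4 := c.conj_L _ f.w_mem _ l3
    rw [← c.π_zero _ (mul_mem (mul_mem (mul_mem (mul_mem hl l1) l2) l3) l4),
      c.π_mul _ (mul_mem (mul_mem (mul_mem hl l1) l2) l3) _ l4, c.π_mul _ (mul_mem (mul_mem hl l1) l2) _ l3,
      c.π_mul _ (mul_mem hl l1) _ l2, c.π_mul _ hl _ l1, c.act_L _ f.w_mem _ l3, c.act_L _ f.w_mem _ l2,
      c.act_L _ f.w_mem _ l1, c.act_L _ f.w_mem _ hl, f.σ_w, f.χ_w]
    exact (ball (by decide +kernel) : ∀ p < 256, p ^^^ act 5083 273 p ^^^ act 5083 273 (act 5083 273 p) ^^^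
      act 5083 273 (act 5083 273 (act 5083 273 p)) ^^^ act 5083 273 (act 5083 273 (act 5083 273 (act 5083 273 p))) = 0)
      _ ((f.ec.mem_L e hl).1 he)

/-- the involution over the transvection 337 -/
theorem exists_top : ∃ e ∈ E, c.χ e = 337 ∧ e * e = 1 ∧ f.W (f.P e) = f.P e ∧
    f.R (f.R (f.P e)) = f.P e + f.R (f.P e) := by
  obtain ⟨e0, h0, χ0⟩ := f.ec.χ_surj 337 (by decide)
  obtain ⟨e', h', p', χ', -⟩ := f.exists_T h0
  have h1 := f.ζE (t := 1) (by norm_num)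
  have : ∃ e ∈ E, c.χ e = 337 ∧ e * e = 1 ∧ f.W (f.P e) = f.P e := by
    rcases f.ec.pre.es.sq h' with h | h
    · exact ⟨e', h', χ'.trans χ0, h, by rw [p', f.W_T]⟩
    · refine ⟨e' * c.ζ 1, mul_mem h' h1, ?_, ?_, ?_⟩
      · rw [(c.χ_mul_one (f.ec.le_K h') (f.ec.le_K h1) (c.χ_L (c.ζ_mem 1 (by norm_num)))).1, χ', χ0]
      · have := c.act_Z _ (f.ec.le_K h') 1 (by norm_num)
        rw [χ', χ0, show cof 337 1 = 5 by decide +kernel] at this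
        calc _ = e' * c.ζ 1 * e'⁻¹ * (e' * e') * c.ζ 1 := by group
          _ = 1 := by
            rw [this, h, c.ζ_mul 5 (by norm_num) 4 (by norm_num)]
            exact c.ζ_sq (t := 1) (by norm_num)
      · rw [f.co.map_mul _ h' _ h1, map_add, p', f.W_T, f.W_ζ (by norm_num)]
  obtain ⟨e, he, χ1, h2, h3⟩ := this
  refine ⟨e, he, χ1, h2, h3, ?_⟩
  have e2 := f.nρ he
  have e3 := f.nρ e2
  have k := f.ec.le_K
  have χ2 := f.χ_cρ he
  have χ3 := f.χ_cρ e2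
  have hy := mul_mem (mul_mem he e2) e3
  have hL := c.mem_L (k hy) (f.ec.σ_E _ hy) (by
    rw [c.χ_mul _ (k (mul_mem he e2)) _ (k e3), c.χ_mul _ (k he) _ (k e2), χ1]
    rw [χ1] at χ2
    exact (by decide +kernel : ∀ a ∈ v4L, ∀ b ∈ v4L, mm3 a 282 = mm3 282 337 → mm3 b 282 = mm3 282 a →
      mm3 (mm3 337 a) b = 273) _ (f.ec.χ_E _ e2) _ (f.ec.χ_E _ e3) χ2 χ3)
  obtain ⟨y, -, py, -, hZ⟩ := f.exists_T hy
  obtain ⟨t, ht, rfl⟩ := (c.mem_Z y).1 (hZ hL)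
  rw [f.co.map_mul _ (mul_mem he e2) _ e3, f.co.map_mul _ he _ e2, ← f.R_P _ e2, ← f.R_P _ he,
    f.T_fix (by simp only [map_add, ← f.RW, h3])] at py
  have h4 : f.P (c.ζ (cof 282 t)) = f.P (c.ζ t) := by
    rw [← f.R_ζ ht, py]; simp only [map_add, f.R3]; abel
  have h5 : t % 4 = 0 := by
    rcases (f.co.eq_iff (f.ζE (cof_lt _ _)) (f.ζE ht)).1 h4 with h | h
    · exact (by decide +kernel : ∀ t < 8, t = cof 282 t → t % 4 = 0) t ht (c.ζ_inj ht (cof_lt _ _) h)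
    · rw [c.ζ_mul _ (cof_lt _ _) 4 (by norm_num)] at h
      exact (by decide +kernel : ∀ t < 8, t = cof 282 t ^^^ 4 → t % 4 = 0) t ht
        (c.ζ_inj ht (xor_lt (n := 3) (cof_lt _ _) (by norm_num)) h)
  rw [← f.Pζ_mod ht, h5, c.ζ_zero, f.co.map_one] at py
  exact (add_eq_zero_zmod2.1 py.symm).symm

/-- the section over `N ⊗ P` -/
theorem exists_mid : ∃ lm : ℕ → G, (∀ p, lm p ∈ E ∧ lm p ∈ c.L ∧ ∃ u, f.P (lm p) = u + f.T u) ∧
    (∀ p < 256, c.π (lm p) = p) ∧ ∀ l ∈ c.L, l ∈ E → f.P (lm (c.π l)) = f.P l + f.T (f.P l) := by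
  have h : ∀ p, ∃ l, (l ∈ E ∧ l ∈ c.L ∧ ∃ u, f.P l = u + f.T u ∧ f.T (f.P l) = 0) ∧ (p < 256 → c.π l = p) := fun p => by
    obtain ⟨l, hl, e⟩ := c.π_surj (p % 256) (by omega)
    have he := (f.ec.mem_L l hl).2 (by omega)
    obtain ⟨y, hy, py, -, hZ⟩ := f.exists_T he
    have hyL := c.Z_le_L (hZ hl)
    refine ⟨l * y, ⟨mul_mem he hy, mul_mem hl hyL, f.P l, by rw [f.co.map_mul _ he _ hy, py], ?_⟩, fun hp => ?_⟩
    · rw [f.co.map_mul _ he _ hy, py, f.T_add, f.T_fix (f.W_T _), add_self_zmod2]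
    · rw [c.π_mul _ hl _ hyL, (c.π_zero _ hyL).2 (hZ hl), Nat.xor_zero, e, Nat.mod_eq_of_lt hp]
  choose lm h1 h2 using h
  refine ⟨lm, fun p => ⟨(h1 p).1, (h1 p).2.1, (h1 p).2.2.imp fun _ h => h.1⟩, h2, fun l hl he => ?_⟩
  obtain ⟨a1, a2, -, -, a3⟩ := h1 (c.π l)
  obtain ⟨t, ht, e⟩ := c.exists_ζ a2 hl (h2 _ ((f.ec.mem_L l hl).1 he))
  conv_rhs => rw [e, f.co.map_mul _ a1 _ (f.ζE ht), f.T_add, a3, f.T_fix (f.W_ζ ht), zero_add, add_assoc,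
    add_self_zmod2, add_zero]

theorem polar_W (u v : V) : QuadraticMap.polar f.q (f.W u) (f.W v) = QuadraticMap.polar f.q u v := by
  simp only [QuadraticMap.polar, ← map_add, f.q_W]

theorem polar_T {v : V} (h : f.W v = v) (u : V) : QuadraticMap.polar f.q (u + f.T u) v = 0 := by
  have e : ∀ u, QuadraticMap.polar f.q (f.W u) v = QuadraticMap.polar f.q u v := fun u => by
    conv_lhs => rw [← h, f.polar_W]
  simp only [T, QuadraticMap.polar_add_left, e]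
  generalize QuadraticMap.polar f.q u v = a
  revert a
  decide

include f in
theorem exists_EM0
    (st : ∀ h, h * c.ζ 4 = c.ζ 4 * h → (h * c.ζ 2 * h⁻¹ = c.ζ 2 ∨ h * c.ζ 2 * h⁻¹ = c.ζ 6) → h ∈ c.K) :
    Nonempty (EM0 G) := by
  classical
  obtain ⟨e1, he1, χ1, sq1, w1, r1⟩ := f.exists_top
  obtain ⟨lm, l1, l2, l3⟩ := f.exists_mid
  have k := f.ec.le_K
  have he2 := f.nρ he1
  have he3 := f.nρ he2
  have cj : ∀ x : G, x * x = 1 → f.ρ * x * f.ρ⁻¹ * (f.ρ * x * f.ρ⁻¹) = 1 := fun x h => by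
    rw [show f.ρ * x * f.ρ⁻¹ * (f.ρ * x * f.ρ⁻¹) = f.ρ * (x * x) * f.ρ⁻¹ by group, h]; group
  -- the top part
  obtain ⟨tp, t1, t2, t3⟩ : ∃ tp : ℕ → G, (∀ u, tp u ∈ E ∧ tp u * tp u = 1 ∧ f.W (f.P (tp u)) = f.P (tp u)) ∧
      (∀ u < 4, c.χ (tp u) = 273 + 64 * u ∧ f.R (f.P (tp u)) = f.P (tp ([0, 2, 3, 1].getD u 0))) ∧
      ∀ u < 4, ∀ u' < 4, f.P (tp (u ^^^ u')) = f.P (tp u) + f.P (tp u') := by
    have χ2 := f.χ_cρ he1
    have χ3 := f.χ_cρ he2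
    rw [χ1] at χ2
    have χ2' := (by decide +kernel : ∀ a ∈ v4L, mm3 a 282 = mm3 282 337 → a = 401) _ (f.ec.χ_E _ he2) χ2
    rw [χ2'] at χ3
    have χ3' := (by decide +kernel : ∀ a ∈ v4L, mm3 a 282 = mm3 282 401 → a = 465) _ (f.ec.χ_E _ he3) χ3
    have p2 := f.R_P _ he1
    have p3 := f.R_P _ he2
    refine ⟨fun u => if u = 1 then e1 else if u = 2 then f.ρ * e1 * f.ρ⁻¹ else if u = 3 then
      f.ρ * (f.ρ * e1 * f.ρ⁻¹) * f.ρ⁻¹ else 1, fun u => ?_, fun u hu => ?_, fun u hu u' hu' => ?_⟩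
    · dsimp only
      split_ifs
      · exact ⟨he1, sq1, w1⟩
      · exact ⟨he2, cj _ sq1, by rw [← p2, ← f.RW, w1]⟩
      · exact ⟨he3, cj _ (cj _ sq1), by rw [← p3, ← p2, ← f.RW, ← f.RW, w1]⟩
      · exact ⟨one_mem _, mul_one _, by rw [f.co.map_one, map_zero]⟩
    · interval_cases u
      · exact ⟨c.χ_one, by simp [f.co.map_one]⟩
      · exact ⟨χ1, p2⟩
      · exact ⟨χ2', p3⟩
      · exact ⟨χ3', by simp [← p3, ← p2, f.R3]⟩
    · have a := add_self_zmod2 (f.P e1)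
      have b := add_self_zmod2 (f.R (f.P e1))
      interval_cases u <;> interval_cases u' <;>
        simp [f.co.map_one, ← p3, ← p2, r1, add_self_zmod2] <;>
        first | abel1 | (rw [← add_assoc, a, zero_add]) | (rw [add_left_comm, b, add_zero]) |
          (rw [add_right_comm, a, zero_add]) | (rw [add_assoc, b, add_zero])
  have l4 : ∀ p < 256, ∀ p' < 256, f.P (lm (p ^^^ p')) = f.P (lm p) + f.P (lm p') := fun p hp p' hp' => by
    have := l3 _ (mul_mem (l1 p).2.1 (l1 p').2.1) (mul_mem (l1 p).1 (l1 p').1)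
    have a := l3 _ (l1 p).2.1 (l1 p).1
    have b := l3 _ (l1 p').2.1 (l1 p').1
    rw [l2 p hp, left_eq_add] at a
    rw [l2 p' hp', left_eq_add] at b
    rw [c.π_mul _ (l1 p).2.1 _ (l1 p').2.1, l2 p hp, l2 p' hp', f.co.map_mul _ (l1 p).1 _ (l1 p').1, f.T_add, a, b,
      add_zero, add_zero] at this
    exact this
  have l5 : ∀ g ∈ c.K, ∀ A : V →ₗ[ZMod 2] V, (∀ e ∈ E, A (f.P e) = f.P (g * e * g⁻¹) ∧ g * e * g⁻¹ ∈ E) →
      (∀ v, A (f.T v) = f.T (A v)) → ∀ p < 256, A (f.P (lm p)) = f.P (lm (act (c.σ g) (c.χ g) p)) :=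
    fun g hg A h1 h2 p hp => by
      have a := l3 _ (l1 p).2.1 (l1 p).1
      rw [l2 p hp] at a
      rw [a, map_add, h2, (h1 _ (l1 p).1).1, ← l3 _ (c.conj_L g hg _ (l1 p).2.1) (h1 _ (l1 p).1).2,
        c.act_L g hg _ (l1 p).2.1, l2 p hp]
  -- the section
  let s : ℕ → G := fun v => c.ζ (v % 4) * lm (v / 4 % 256) * tp (v / 1024 % 4)
  have z4 : ∀ v : ℕ, v % 4 < 8 := fun v => by omega
  have m8 : ∀ v : ℕ, v % 256 < 256 := fun v => by omega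
  have m2 : ∀ v : ℕ, v % 4 < 4 := fun v => by omega
  have sL : ∀ v, c.ζ (v % 4) * lm (v / 4 % 256) ∈ c.L := fun v => mul_mem (c.ζ_mem _ (z4 v)) (l1 _).2.1
  have sE' : ∀ v, c.ζ (v % 4) * lm (v / 4 % 256) ∈ E := fun v => mul_mem (f.ζE (z4 v)) (l1 _).1
  have sE : ∀ v, s v ∈ E := fun v => mul_mem (sE' v) (t1 _).1
  have sP : ∀ v, f.P (s v) = f.P (c.ζ (v % 4)) + f.P (lm (v / 4 % 256)) + f.P (tp (v / 1024 % 4)) := fun v => by
    rw [f.co.map_mul _ (sE' v) _ (t1 _).1, f.co.map_mul _ (f.ζE (z4 v)) _ (l1 _).1]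
  have sχ : ∀ v, c.χ (s v) = 273 + 64 * (v / 1024 % 4) := fun v => by
    rw [(c.χ_mul_one (k (t1 _).1) (c.L_le (sL v)) (c.χ_L (sL v))).2, (t2 _ (m2 _)).1]
  have sx : ∀ v w, f.P (s (v ^^^ w)) = f.P (s v) + f.P (s w) := fun v w => by
    rw [sP, sP, sP, show (v ^^^ w) % 4 = v % 4 ^^^ w % 4 from Nat.xor_mod_two_pow (n := 2),
      show (v ^^^ w) / 4 = v / 4 ^^^ w / 4 from Nat.xor_div_two_pow (n := 2),
      show (v ^^^ w) / 1024 = v / 1024 ^^^ w / 1024 from Nat.xor_div_two_pow (n := 10),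
      show (v / 4 ^^^ w / 4) % 256 = v / 4 % 256 ^^^ w / 4 % 256 from Nat.xor_mod_two_pow (n := 8),
      show (v / 1024 ^^^ w / 1024) % 4 = v / 1024 % 4 ^^^ w / 1024 % 4 from Nat.xor_mod_two_pow (n := 2),
      f.Pζ_xor (z4 v) (z4 w), l4 _ (m8 _) _ (m8 _), t3 _ (m2 _) _ (m2 _)]
    abel
  have l0 : f.P (lm 0) = 0 := by simpa [add_self_zmod2] using l4 0 (by norm_num) 0 (by norm_num)
  have t0 : f.P (tp 0) = 0 := by simpa [add_self_zmod2] using t3 0 (by norm_num) 0 (by norm_num)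
  have zL : ∀ x, x = 1 ∨ x = c.ζ 4 → x ∈ c.Z := by
    rintro _ (rfl | rfl)
    exacts [one_mem _, c.ζ_mem_Z (by norm_num)]
  have s0 : ∀ v < 4096, f.P (s v) = 0 → v = 0 := fun v hv h => by
    have h1 := sχ v
    rw [c.χ_L (c.Z_le_L (zL _ ((f.co.ker _ (sE v)).1 h)))] at h1
    have h2 : v / 1024 % 4 = 0 := by omega
    rw [sP, h2, t0, add_zero, ← f.co.map_mul _ (f.ζE (z4 v)) _ (l1 _).1] at h
    have h3 := (c.π_zero _ (sL v)).2 (zL _ ((f.co.ker _ (sE' v)).1 h))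
    rw [c.π_mul _ (c.ζ_mem _ (z4 v)) _ (l1 _).2.1, c.π_ζ (z4 v), Nat.zero_xor, l2 _ (m8 _)] at h3
    rw [f.co.map_mul _ (f.ζE (z4 v)) _ (l1 _).1, h3, l0, add_zero, f.co.ker _ (f.ζE (z4 v))] at h
    rcases h with h | h
    · have := c.ζ_eq_one _ (z4 v) h
      omega
    · have := c.ζ_inj (z4 v) (by norm_num) h
      omega
  have sinj : ∀ v < 4096, ∀ w < 4096, f.P (s v) = f.P (s w) → v = w := fun v hv w hw h =>
    Nat.xor_eq_zero_iff.1 (s0 _ (xor_lt' hv hw) (by rw [sx, h, add_self_zmod2]))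
  have sL1 : ∀ l ∈ c.L, l ∈ E → ∃ t < 4, f.P l = f.P (c.ζ t) + f.P (lm (c.π l)) := fun l hl he => by
    obtain ⟨y, -, py, -, hZ⟩ := f.exists_T he
    obtain ⟨t, ht, rfl⟩ := (c.mem_Z y).1 (hZ hl)
    exact ⟨t % 4, m2 t, by rw [f.Pζ_mod ht, l3 l hl he, ← py, add_left_comm, add_self_zmod2, add_zero]⟩
  have ssurj : ∀ e, ∃ v < 4096, e ∈ E → f.P (s v) = f.P e := fun e => by
    by_cases he : e ∈ E
    · obtain ⟨u, hu, h1⟩ := (by decide : ∀ b ∈ v4L, ∃ u < 4, b = 273 + 64 * u) _ (f.ec.χ_E e he)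
      have h2 := mul_mem he (inv_mem (t1 u).1)
      have h3 := c.mem_L (k h2) (f.ec.σ_E _ h2) (c.χ_mul_inv (k he) (k (t1 u).1) (h1.trans (t2 u hu).1.symm))
      have h4 := (f.ec.mem_L _ h3).1 h2
      obtain ⟨t, ht, h5⟩ := sL1 _ h3 h2
      refine ⟨t + 4 * c.π (e * (tp u)⁻¹) + 1024 * u, by omega, fun _ => ?_⟩
      rw [sP, show (t + 4 * c.π (e * (tp u)⁻¹) + 1024 * u) % 4 = t by omega,
        show (t + 4 * c.π (e * (tp u)⁻¹) + 1024 * u) / 4 % 256 = c.π (e * (tp u)⁻¹) by omega,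
        show (t + 4 * c.π (e * (tp u)⁻¹) + 1024 * u) / 1024 % 4 = u by omega, ← h5,
        ← f.co.map_mul _ h2 _ (t1 u).1, inv_mul_cancel_right]
    · exact ⟨0, by norm_num, fun h => absurd h he⟩
  choose ε ε1 ε2 using ssurj
  have ε3 : ∀ e ∈ E, ∀ v < 4096, f.P (s v) = f.P e → ε e = v := fun e he v hv h =>
    sinj _ (ε1 e) v hv ((ε2 e he).trans h.symm)
  have sz : f.P (s 0) = 0 := by simpa [add_self_zmod2] using sx 0 0
  refine ⟨⟨c, E, ε, s, f.ρ, f.w, f.ec, st, ε1, fun e he e' he' => ?_, fun e he => ?_, sE,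
    fun v hv => ε3 _ (sE v) v hv rfl, fun e he => ?_, fun t ht => ?_, fun l hl hp => ?_, fun e he => ?_, f.ρ_mem,
    f.ρ_three, f.σ_ρ, f.χ_ρ, fun e he => ?_, f.w_mem, f.σ_w, f.χ_w, fun e he => ?_⟩⟩
  · exact ε3 _ (mul_mem he he') _ (xor_lt' (ε1 e) (ε1 e')) (by rw [sx, ε2 e he, ε2 e' he', f.co.map_mul e he e' he'])
  · rw [← f.co.ker e he]
    exact ⟨fun h => by rw [← ε2 e he, h, sz], fun h => ε3 e he 0 (by norm_num) (sz.trans h.symm)⟩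
  · have hv := ε1 e
    have hq : f.q (f.P e) = ((qe (ε e) : ℕ) : ZMod 2) := by
      rw [← ε2 e he, sP]
      generalize ε e = v at hv
      obtain ⟨a1, a2, u, a3⟩ := l1 (v / 4 % 256)
      obtain ⟨b1, b2, b3⟩ := t1 (v / 1024 % 4)
      have c1 := f.ζE (z4 v)
      rw [QuadraticMap.map_add f.q, QuadraticMap.map_add f.q, QuadraticMap.polar_add_left,
        (f.co.sq _ c1).2 (c.ζ_sq (z4 v)), (f.co.sq _ b1).2 b2,
        (f.co.polar_iff c1 a1).2 (c.ζ_comm a2 (z4 v)).symm,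
        show QuadraticMap.polar f.q (f.P (lm (v / 4 % 256))) (f.P (tp (v / 1024 % 4))) = 0 by rw [a3, f.polar_T b3]]
      have d1 : f.q (f.P (lm (v / 4 % 256))) = 0 ↔ sqv (v / 4 % 256) = 0 := by
        rw [f.co.sq _ a1, c.sq _ a2, l2 _ (m8 _)]
        exact ⟨c.ζ_eq_one _ (sqv_lt _), fun h => by rw [h, c.ζ_zero]⟩
      have d2 : QuadraticMap.polar f.q (f.P (c.ζ (v % 4))) (f.P (tp (v / 1024 % 4))) = 0 ↔
          cof (273 + 64 * (v / 1024 % 4)) (v % 4) = v % 4 := by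
        rw [f.co.polar_iff c1 b1, eq_comm, c.comm_ζ_iff (k b1) (z4 v), (t2 _ (m2 _)).1]
      have d3 := (ball (by decide +kernel) : ∀ v < 4096, (qe v = 0 ↔ (sqv (v / 4 % 256) = 0 ↔
        cof (273 + 64 * (v / 1024 % 4)) (v % 4) = v % 4))) v hv
      rw [← d1, ← d2] at d3
      have d4 := qe_lt v
      revert d3
      generalize f.q (f.P (lm (v / 4 % 256))) = x
      generalize QuadraticMap.polar f.q (f.P (c.ζ (v % 4))) (f.P (tp (v / 1024 % 4))) = y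
      generalize qe v = r at d4
      revert x y r
      decide
    have d4 := qe_lt (ε e)
    generalize qe (ε e) = r at d4 hq
    interval_cases r
    · rw [pow_zero]; exact (f.co.sq e he).1 hq
    · rw [pow_one]; exact (f.co.sq_one he).1 hq
  · refine ε3 _ (f.ζE ht) _ (by omega) ?_
    rw [sP, show t % 4 / 4 % 256 = 0 by omega, show t % 4 / 1024 % 4 = 0 by omega, l0, t0, add_zero, add_zero,
      Nat.mod_mod, f.Pζ_mod ht]
  · have he := (f.ec.mem_L l hl).2 hp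
    obtain ⟨t, ht, h⟩ := sL1 l hl he
    rw [ε3 l he (t + 4 * c.π l) (by omega) (by
      rw [sP, show (t + 4 * c.π l) % 4 = t by omega, show (t + 4 * c.π l) / 4 % 256 = c.π l by omega,
        show (t + 4 * c.π l) / 1024 % 4 = 0 by omega, t0, add_zero, h])]
    omega
  · have hv := ε1 e
    have h1 := sχ (ε e)
    rw [show ε e / 1024 % 4 = ε e / 1024 by omega] at h1
    rcases (f.co.eq_iff (sE _) he).1 (ε2 e he) with h | h
    · exact (congrArg c.χ h).trans h1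
    · exact (congrArg c.χ h).trans ((c.χ_mul_one (k (sE _)) (c.ζ_mem_K (by norm_num))
        (c.χ_L (c.ζ_mem 4 (by norm_num)))).1.trans h1)
  · refine ε3 _ (f.nρ he) _ (rh_lt _) ?_
    obtain ⟨a1, a2, a3⟩ := (ball (by decide +kernel) : ∀ v < 4096, rh v % 4 = cof 282 (v % 4) % 4 ∧
      rh v / 4 % 256 = act 33825 282 (v / 4 % 256) ∧ rh v / 1024 % 4 = [0, 2, 3, 1].getD (v / 1024 % 4) 0) _ (ε1 e)
    rw [← f.R_P e he, ← ε2 e he, sP, sP, map_add, map_add, a1, a2, a3, f.Pζ_mod (cof_lt _ _), f.R_ζ (z4 _),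
      (t2 _ (m2 _)).2, l5 _ f.ρ_mem f.R (fun e he => ⟨f.R_P e he, f.nρ he⟩) f.R_T _ (m8 _), f.σ_ρ, f.χ_ρ]
  · refine ε3 _ (f.nw he) _ (mv_lt _ _) ?_
    obtain ⟨a1, a2, a3⟩ := (ball (by decide +kernel) : ∀ v < 4096, mv wM v % 4 = v % 4 ∧
      mv wM v / 4 % 256 = act 5083 273 (v / 4 % 256) ∧ mv wM v / 1024 % 4 = v / 1024 % 4) _ (ε1 e)
    rw [← f.W_P e he, ← ε2 e he, sP, sP, map_add, map_add, a1, a2, a3, f.W_ζ (z4 _), (t1 _).2.2,
      l5 _ f.w_mem f.W (fun e he => ⟨f.W_P e he, f.nw he⟩) (fun v => (f.W_T v).trans (f.T_W v).symm) _ (m8 _),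
      f.σ_w, f.χ_w]

end Fr

variable [Finite G]

theorem EC.exists_EM0 {c : KC G} {E : Subgroup G} (ec : EC c E)
    (st : ∀ h, h * c.ζ 4 = c.ζ 4 * h → (h * c.ζ 2 * h⁻¹ = c.ζ 2 ∨ h * c.ζ 2 * h⁻¹ = c.ζ 6) → h ∈ c.K) :
    Nonempty (EM0 G) := by
  obtain ⟨n, ⟨f⟩⟩ := ec.exists_Fr
  exact f.exists_EM0 st

end CfsgLib.J4K
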