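import Cfsg.Agent.Lib.J4K.Api

/-!
# The matrices of `L` and of an element over a 3-cycle
-/

set_option autoImplicit false
set_option Elab.async false

namespace CfsgLib.J4K

open Cfsg CfsgLib.J4T CfsgLib.ExtraTwo CfsgLib.LargeExtra Subgroup

namespace Emb

/-- a new first column -/
def cn (a B : ℕ) : ℕ := Nat.add a (Nat.mul 4096 B)

theorem col_eq (A i : ℕ) : col A i = A / 2 ^ (12 * i) % 4096 := by
  show (A >>> (12 * i)) &&& (2 ^ 12 - 1) = _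
  rw [Nat.and_two_pow_sub_one_eq_mod, Nat.shiftRight_eq_div_pow]

theorem col_cn_zero {a : ℕ} (ha : a < 4096) (B : ℕ) : col (cn a B) 0 = a := by
  rw [col_eq]
  show (a + 4096 * B) / 1 % 4096 = a
  omega

theorem col_cn_succ {a : ℕ} (ha : a < 4096) (B i : ℕ) : col (cn a B) (i + 1) = col B i := by
  rw [col_eq, col_eq, show 12 * (i + 1) = 12 + 12 * i by ring, pow_add, ← Nat.div_div_eq_div_mul]
  have : cn a B / 2 ^ 12 = B := by
    show (a + 4096 * B) / 4096 = B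
    omega
  rw [this]

/-- the matrix of a map that commutes with `rh` and fixes 1 and 2 -/
def shp (c0 c1 c2 c3 b : ℕ) : ℕ :=
  cn 1 (cn 2 (cn c0 (cn c1 (cn c2 (cn c3 (cn (rh c0) (cn (rh c1) (cn (rh c2) (cn (rh c3) (cn b (cn (rh b) 0)))))))))))

theorem eq_shp {f : ℕ → ℕ} (hf : Lin f) (hl : ∀ v, f v < 4096) (hc : ∀ v < 4096, f (rh v) = rh (f v))
    (h1 : f 1 = 1) (h2 : f 2 = 2) : ∀ v < 4096, f v = mv (shp (f 4) (f 8) (f 16) (f 32) (f 1024)) v := by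
  refine lin_ext hf (lin_mv _) fun i hi => ?_
  have e4 : f 64 = rh (f 4) := hc 4 (by norm_num)
  have e8 : f 128 = rh (f 8) := hc 8 (by norm_num)
  have e16 : f 256 = rh (f 16) := hc 16 (by norm_num)
  have e32 : f 512 = rh (f 32) := hc 32 (by norm_num)
  have e1024 : f 2048 = rh (f 1024) := hc 1024 (by norm_num)
  have a1 : (1 : ℕ) < 4096 := by norm_num
  have a2 : (2 : ℕ) < 4096 := by norm_num
  rw [mv_two_pow _ hi, shp]
  interval_cases i <;>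
    simp only [col_cn_succ a1, col_cn_succ a2, col_cn_succ (hl _), col_cn_succ (rh_lt _), col_cn_zero a1,
      col_cn_zero a2, col_cn_zero (hl _), col_cn_zero (rh_lt _)] <;>
    first | rfl | assumption

/-- candidates for the matrix of an element of `L` -/
def nMa (μ a : ℕ) : ℕ :=
  shp (cm (256 * μ) 1 % 4 ^^^ 4) (cm (256 * μ) 2 % 4 ^^^ 8) (cm (256 * μ) 4 % 4 ^^^ 16) (cm (256 * μ) 8 % 4 ^^^ 32)
    ((4 * μ + a) ^^^ 1024)

theorem chk_cm : ∀ p < 4096, ∀ w ∈ [1, 2, 4, 8], cm p w % 4 = cm (256 * (p / 256)) w % 4 :=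
  ball (by decide +kernel)

theorem chk_337 : ∀ p < 4096, p ^^^ act 33825 337 p = p / 256 := ball (by decide +kernel)

theorem chk_w : ∀ p < 4096,
    p ^^^ act 5083 273 (p ^^^ act 5083 273 (p ^^^ act 5083 273 (p ^^^ act 5083 273 p))) = 0 :=
  ball (by decide +kernel)

theorem chk_n : ∀ μ < 16, ∀ a < 4, qe (mv (nMa μ a) 1024) = 0 →
    mv (nMa μ a) (mv wM (mv (nMa μ a) (mv wM (mv (nMa μ a) (mv wM (mv (nMa μ a) (mv wM (mv (nMa μ a) 1024)))))))) =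
      1024 → nMa μ a = nM μ :=
  ball (by decide +kernel)

/-- the conditions on a column -/
def Cx (b c : ℕ) : Prop := be b c = 0 ∧ be b (rh c) = 0

instance (b c : ℕ) : Decidable (Cx b c) := inferInstanceAs (Decidable (_ ∧ _))

/-- the conditions on the matrix -/
def Dx (X : ℕ) : Prop :=
  (∀ μ < 16, mv X (mv (nM μ) 1024) = mv (nM (act 24370 273 (256 * μ) / 256)) (mv X 1024)) →
    (∃ i < 16, ∀ j < 12, mv X (mv X (mv X (2 ^ j))) = mv (nM i) (2 ^ j)) → ∃ i < 16, X = mm xM (nM i)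

instance (X : ℕ) : Decidable (Dx X) := inferInstanceAs (Decidable (_ → _ → _))

set_option synthInstance.maxSize 1024 in
theorem chk_x : ∀ y < 1024, qe (1024 + y) = 0 → ∀ t0 < 4, Cx (1024 + y) (8 + t0) → ∀ t1 < 4, Cx (1024 + y) (12 + t1) →
    ∀ t2 < 4, Cx (1024 + y) (60 + t2) → ∀ t3 < 4, Cx (1024 + y) (20 + t3) →
      Dx (shp (8 + t0) (12 + t1) (60 + t2) (20 + t3) (1024 + y)) :=
  ball (by decide +kernel)

end Emb

open Emb

variable {G : Type*} [Group G]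

theorem EM0.α_shp (m : EM0 G) {k : G} (hk : k ∈ m.K) (h : m.χ k = 273) :
    ∀ v < 4096, m.α k v = mv (shp (m.α k 4) (m.α k 8) (m.α k 16) (m.α k 32) (m.α k 1024)) v := by
  have hh := m.H_of_χ hk h
  refine eq_shp (m.α_lin hh) (m.α_lt k) (m.com_of_χ hk h) ?_ ?_
  · rw [m.α_K hk hh (by norm_num), h]; rfl
  · rw [m.α_K hk hh (by norm_num), h]; rfl

theorem EM0.α_L_low (m : EM0 G) {l : G} (hl : l ∈ m.L) {v : ℕ} (hv : v < 1024) :
    m.α l v = cm (m.π l) (v / 4) % 4 ^^^ v := by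
  obtain ⟨h1, h2⟩ := m.s_mem_L hv
  rw [EM0.α, m.conj_comm hl h1, m.ε_mul _ (m.ζ_mem_E (cm_lt _ _)) _ (m.s_mem v), m.ε_ζ _ (cm_lt _ _),
    m.ε_s v (by omega), h2]

theorem EM0.χ_s (m : EM0 G) : m.χ (m.s 1024) = 337 := by
  rw [m.ε_top _ (m.s_mem _), m.ε_s _ (by norm_num)]

theorem EM0.α_nMa (m : EM0 G) {l : G} (hl : l ∈ m.L) :
    ∃ a < 4, ∀ v < 4096, m.α l v = mv (nMa (m.π l / 256) a) v := by
  have he := m.s_mem 1024
  have hK := m.ec.le_K he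
  have h1 : m.s 1024 * l⁻¹ * (m.s 1024)⁻¹ ∈ m.L := m.conj_L _ hK _ (inv_mem hl)
  have hd : l * (m.s 1024 * l⁻¹ * (m.s 1024)⁻¹) ∈ m.L := mul_mem hl h1
  have h2 : m.π (l * (m.s 1024 * l⁻¹ * (m.s 1024)⁻¹)) = m.π l / 256 := by
    rw [m.π_mul _ hl _ h1, m.act_L _ hK _ (inv_mem hl), m.π_inv hl, m.ec.σ_E _ he, m.χ_s, chk_337 _ (m.π_lt l)]
  have h3 : m.π (l * (m.s 1024 * l⁻¹ * (m.s 1024)⁻¹)) < 256 := by
    have := m.π_lt l
    omega
  have h4 := m.ε_L _ hd h3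
  have h5 : m.α l 1024 = m.ε (l * (m.s 1024 * l⁻¹ * (m.s 1024)⁻¹)) ^^^ 1024 := by
    have h6 := m.ε_mul _ ((m.ec.mem_L _ hd).2 h3) _ he
    rw [m.ε_s 1024 (by norm_num)] at h6
    rw [← h6, EM0.α]
    congr 1
    group
  refine ⟨m.ε (l * (m.s 1024 * l⁻¹ * (m.s 1024)⁻¹)) % 4, Nat.mod_lt _ (by norm_num), fun v hv => ?_⟩
  have c := chk_cm _ (m.π_lt l)
  rw [m.α_shp (m.L_le hl) (m.χ_L hl) v hv, m.α_L_low hl (v := 4) (by norm_num), m.α_L_low hl (v := 8) (by norm_num),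
    m.α_L_low hl (v := 16) (by norm_num), m.α_L_low hl (v := 32) (by norm_num), h5, c 1 (by simp), c 2 (by simp),
    c 4 (by simp), c 8 (by simp), nMa, ← h2, ← h4, Nat.div_add_mod]

theorem EM0.α_w_conj (m : EM0 G) {g : G} (hg : m.H g) : m.α (m.w * g * m.w⁻¹) 1024 = mv wM (m.α g 1024) := by
  have h1 : m.α m.w 1024 = 1024 := by rw [m.α_w (by norm_num)]; rfl
  have h2 : m.α m.w⁻¹ 1024 = 1024 := by
    have := m.α_inv_α m.H_w (v := 1024) (by norm_num)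
    rwa [h1] at this
  rw [m.α_mul (m.H_mul m.H_w hg) (m.H_inv m.H_w), m.α_mul m.H_w hg, h2, m.α_w (m.α_lt _ _)]

theorem EM0.step_w (m : EM0 G) {l g : G} (hl : l ∈ m.L) (hg : g ∈ m.L) :
    l * (m.w * g * m.w⁻¹) ∈ m.L ∧ m.π (l * (m.w * g * m.w⁻¹)) = m.π l ^^^ act 5083 273 (m.π g) ∧
      m.α (l * (m.w * g * m.w⁻¹)) 1024 = m.α l (mv wM (m.α g 1024)) := by
  have h1 := m.conj_L _ m.w_mem _ hg
  refine ⟨mul_mem hl h1, ?_, ?_⟩
  · rw [m.π_mul _ hl _ h1, m.act_L _ m.w_mem _ hg, m.σ_w, m.χ_w]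
  · rw [m.α_mul (m.H_L hl) (m.H_L h1), m.α_w_conj (m.H_L hg)]

variable [Finite G]

theorem EM0.α_n (m : EM0 G) {l : G} (hl : l ∈ m.L) {v : ℕ} (hv : v < 4096) :
    m.α l v = mv (nM (m.π l / 256)) v := by
  obtain ⟨a, ha, e⟩ := m.α_nMa hl
  obtain ⟨a1, b1, c1⟩ := m.step_w hl hl
  obtain ⟨a2, b2, c2⟩ := m.step_w hl a1
  obtain ⟨a3, b3, c3⟩ := m.step_w hl a2
  obtain ⟨a4, b4, c4⟩ := m.step_w hl a3
  rw [b3, b2, b1, chk_w _ (m.π_lt l)] at b4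
  rw [m.α_E ((m.ec.mem_L _ a4).2 (by rw [b4]; norm_num)) (by norm_num), c3, c2, c1, e _ (mv_lt _ _), e _ (mv_lt _ _),
    e _ (mv_lt _ _), e _ (mv_lt _ _), e 1024 (by norm_num)] at c4
  have h1 : qe (mv (nMa (m.π l / 256) a) 1024) = 0 := by
    rw [← e 1024 (by norm_num), m.α_qe (m.H_L hl) (by norm_num)]; rfl
  have h2 : m.π l / 256 < 16 := by
    have := m.π_lt l
    omega
  rw [e v hv, chk_n _ h2 a ha h1 c4.symm]

theorem EM0.exists_x (m : EM0 G) :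
    ∃ x ∈ m.K, m.σ x = 24370 ∧ m.χ x = 273 ∧ ∀ v < 4096, m.α x v = mv xM v := by
  obtain ⟨x, hx, hσ, hχ⟩ := m.surj 24370 (by decide +kernel) 273 one_g3
  have hh := m.H_of_χ hx hχ
  have hc := m.com_of_χ hx hχ
  have e := m.α_shp hx hχ
  have low : ∀ v < 1024, ∀ c, act 24370 273 (v / 4) = c → be 1024 v = 0 → be 1024 (rh v) = 0 →
      ∃ t < 4, m.α x v = 4 * c + t ∧ Cx (m.α x 1024) (m.α x v) := fun v hv c h1 h2 h3 => by
    have h4 := (m.α_L hx hh hv).2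
    rw [hσ, hχ, h1] at h4
    refine ⟨m.α x v % 4, Nat.mod_lt _ (by norm_num), by omega, ?_, ?_⟩
    · rw [m.α_be hh (by norm_num) (by omega), h2]
    · rw [← hc v (by omega), m.α_be hh (by norm_num) (rh_lt _), h3]
  obtain ⟨t0, l0, e0, c0⟩ := low 4 (by norm_num) 2 rfl rfl rfl
  obtain ⟨t1, l1, e1, c1⟩ := low 8 (by norm_num) 3 rfl rfl rfl
  obtain ⟨t2, l2, e2, c2⟩ := low 16 (by norm_num) 15 rfl rfl rfl
  obtain ⟨t3, l3, e3, c3⟩ := low 32 (by norm_num) 5 rfl rfl rfl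
  obtain ⟨y, ly, ey⟩ : ∃ y < 1024, m.α x 1024 = 1024 + y := by
    have he := m.s_mem 1024
    have hK := m.ec.le_K he
    have h1 := m.ε_top _ (m.norm hh he)
    rw [(m.χ_mul_one (mul_mem hx hK) (inv_mem hx) (m.χ_inv_one hx hχ)).1, (m.χ_mul_one hK hx hχ).2, m.χ_s] at h1
    exact ⟨m.α x 1024 - 1024, by unfold EM0.α; omega, by unfold EM0.α; omega⟩
  have hq : qe (1024 + y) = 0 := by rw [← ey, m.α_qe hh (by norm_num)]; rfl
  rw [ey, e0] at c0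
  rw [ey, e1] at c1
  rw [ey, e2] at c2
  rw [ey, e3] at c3
  rw [ey, e0, e1, e2, e3] at e
  have d := chk_x y ly hq t0 l0 c0 t1 l1 c1 t2 l2 c2 t3 l3 c3
  obtain ⟨X, hX⟩ : ∃ X, X = shp (8 + t0) (12 + t1) (60 + t2) (20 + t3) (1024 + y) := ⟨_, rfl⟩
  have e' : ∀ v < 4096, m.α x v = mv X v := hX ▸ e
  rw [← hX] at d
  obtain ⟨i, hi, f⟩ := d (fun μ hμ => by
      obtain ⟨l, hl, h1⟩ := m.π_surj (256 * μ) (by omega)
      have h2 := m.conj_L x hx l hl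
      have h3 := m.α_n hl (v := 1024) (by norm_num)
      have h4 := m.α_n h2 (m.α_lt x 1024)
      rw [h1, Nat.mul_div_cancel_left _ (by norm_num)] at h3
      rw [m.act_L x hx l hl, hσ, hχ, h1, ← m.α_mul (m.H_L h2) hh, inv_mul_cancel_right,
        m.α_mul hh (m.H_L hl)] at h4
      rw [← h3, ← e' _ (m.α_lt _ _), ← e' 1024 (by norm_num), h4]) (by
      have hxx := mul_mem hx hx
      have h1 : x * (x * x) ∈ m.L := m.mem_L (mul_mem hx hxx)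
        (by rw [m.σ_mul hx hxx, m.σ_mul hx hx, hσ]; rfl)
        (by rw [(m.χ_mul_one hxx hx hχ).2, (m.χ_mul_one hx hx hχ).2, hχ])
      refine ⟨m.π (x * (x * x)) / 256, by have := m.π_lt (x * (x * x)); omega, fun j hj => ?_⟩
      have hj' : 2 ^ j < 4096 := Nat.pow_lt_pow_right (by norm_num) hj
      rw [← m.α_n h1 hj', m.α_mul hh (m.H_mul hh hh), m.α_mul hh hh, ← e' _ hj', ← e' _ (m.α_lt _ _),
        ← e' _ (m.α_lt _ _)])
  obtain ⟨l, hl, h1⟩ := m.π_surj (256 * i) (by omega)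
  have hl' := m.L_le (inv_mem hl)
  refine ⟨x * l⁻¹, mul_mem hx hl', ?_, ?_, fun v hv => ?_⟩
  · rw [(m.σ_mul_one hx hl' (m.σ_L (inv_mem hl))).1, hσ]
  · rw [(m.χ_mul_one hx hl' (m.χ_L (inv_mem hl))).1, hχ]
  · have h3 := m.α_n hl (m.α_lt l⁻¹ v)
    rw [h1, Nat.mul_div_cancel_left _ (by norm_num), m.α_α_inv (m.H_L hl) hv] at h3
    rw [m.α_mul hh (m.H_L (inv_mem hl)), e' _ (m.α_lt _ _), f, mv_mm _ _ (m.α_lt _ _), ← h3]

theorem EM0.exists_EM (m : EM0 G) : Nonempty (EM G) := by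
  obtain ⟨x, hx, hσ, hχ, e⟩ := m.exists_x
  exact ⟨⟨m, x, hx, hσ, hχ, fun a ha => by rw [m.α_spec (m.H_of_χ hx hχ) ha, e _ (m.ε_lt a)],
    fun l hl a ha => by rw [m.α_spec (m.H_L hl) ha, m.α_n hl (m.ε_lt a)]⟩⟩

end CfsgLib.J4K
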