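import Cfsg.Agent.Lib.J4K.Lab

/-!
# The possible orbits
-/

set_option autoImplicit false
set_option Elab.async false

namespace CfsgLib.J4K

open Cfsg CfsgLib.J4T CfsgLib.ExtraTwo CfsgLib.LargeExtra Subgroup

namespace OmX

theorem card_bij {f : ℕ → ℕ} (hl : Lin f) (hlt : ∀ x < 4096, f x < 4096) (h0 : ∀ x < 4096, f x = 0 → x = 0)
    {P Q : ℕ → Prop} [DecidablePred P] [DecidablePred Q] (h : ∀ x < 4096, Q (f x) ↔ P x) :
    ((Finset.range 4096).filter Q).card = ((Finset.range 4096).filter P).card := by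
  have inj : Set.InjOn f (Finset.range 4096) := fun x hx y hy e => by
    have hx := Finset.mem_range.1 hx
    have hy := Finset.mem_range.1 hy
    exact Nat.xor_eq_zero_iff.1 (h0 _ (xor_lt' hx hy) (by rw [hl x hx y hy, e, Nat.xor_self]))
  have e : (Finset.range 4096).image f = Finset.range 4096 :=
    Finset.eq_of_subset_of_card_le (fun y hy => by
      obtain ⟨x, hx, rfl⟩ := Finset.mem_image.1 hy
      exact Finset.mem_range.2 (hlt x (Finset.mem_range.1 hx))) (Finset.card_image_of_injOn inj).ge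
  conv_lhs => rw [← e]
  rw [Finset.filter_image, Finset.card_image_of_injOn (inj.mono (Finset.coe_subset.2 (Finset.filter_subset _ _)))]
  exact congrArg Finset.card (Finset.filter_congr fun x hx => h x (Finset.mem_range.1 hx))

/-- numbers of vectors of orbit `j` perpendicular to `rep i` -/
def tb (i j : ℕ) : ℕ := ([[3, 60, 60, 90, 90, 240, 96, 96, 160, 160], [3, 60, 28, 42, 42, 112, 144, 144, 240, 240],
  [3, 28, 60, 42, 42, 112, 144, 144, 240, 240], [3, 28, 28, 58, 58, 112, 160, 160, 224, 224],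
  [3, 28, 28, 58, 58, 112, 128, 128, 256, 256], [3, 28, 28, 42, 42, 144, 144, 144, 240, 240],
  [1, 30, 30, 50, 40, 120, 168, 136, 240, 240], [1, 30, 30, 50, 40, 120, 136, 168, 240, 240],
  [1, 30, 30, 42, 48, 120, 144, 144, 264, 232], [1, 30, 30, 42, 48, 120, 144, 144, 232, 264]].getD i []).getD j 0

theorem tb_eq : ∀ i < 10, ∀ j < 10,
    ((Finset.range 4096).filter fun w => lab w = j ∧ be (rep i) w = 0).card = tb i j := by
  intro i hi j hj
  refine card_filter_eq ?_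
  revert j
  revert i
  decide +kernel

theorem n1_eq {M : ℕ} (hM : M < 1024) {i : ℕ} (hi : i < 10) :
    ((Finset.range 4096).filter fun w => bt M (lab w) = 1 ∧ be (rep i) w = 0).card =
      ∑ j ∈ Finset.range 10, bt M j * tb i j := by
  rw [Finset.card_eq_sum_card_fiberwise (f := lab) (t := Finset.range 10) fun w hw => by
    have := (Finset.mem_filter.1 hw).2.1
    rw [bt_eq] at this
    refine Finset.mem_range.2 (lt_of_not_ge fun l => ?_)
    rw [Nat.div_eq_of_lt (hM.trans_le (Nat.pow_le_pow_right (by norm_num) l : 2 ^ 10 ≤ _))] at this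
    omega]
  refine Finset.sum_congr rfl fun j hj => ?_
  rw [Finset.filter_filter, ← tb_eq i hi j (Finset.mem_range.1 hj)]
  rcases (by have := bt_lt M j; omega : bt M j = 0 ∨ bt M j = 1) with e | e <;> rw [e]
  · rw [zero_mul, Finset.card_eq_zero, Finset.filter_eq_empty_iff]
    rintro w - ⟨⟨h1, -⟩, rfl⟩
    omega
  · rw [one_mul]
    refine congrArg Finset.card (Finset.filter_congr fun w _ => ⟨fun h => ⟨h.2, h.1.2⟩, fun h => ⟨⟨?_, h.2⟩, h.1⟩⟩)
    rw [h.1, e]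

theorem masks : ∀ M < 1024, (bt M 0 = 1 ∧ bt M 5 ≠ 1 ∧ (bt M 1 = 1 ↔ bt M 2 = 1) ∧ ∀ i < 10, bt M i = 1 →
    ∑ j ∈ Finset.range 10, bt M j * tb i j = ∑ j ∈ Finset.range 10, bt M j * tb 0 j) →
    M = 1 ∨ M = 279 ∨ M = 535 ∨ M ∈ [351, 415, 607, 671] := ball (by decide +kernel)

theorem n2 : ∀ M ∈ [351, 415, 607, 671], bt M 3 = 1 ∧
    cntT 4096 (fun w => decide (bt M (lab w) = 1 ∧ bt M (lab (4 ^^^ w)) = 1 ∧ bt M (lab (4 ^^^ rh w)) = 1)) 0 = 61 ∧
    cntT 4096 (fun w => decide (bt M (lab w) = 1 ∧ bt M (lab (1 ^^^ w)) = 1 ∧ bt M (lab (1 ^^^ rh w)) = 1)) 0 = 301 ∧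
    cntT 4096 (fun w => decide (bt M (lab w) = 1 ∧ bt M (lab (1 ^^^ w)) = 1 ∧
      bt M (lab (1 ^^^ rh (rh w))) = 1)) 0 = 301 := by decide +kernel

theorem exists_mask (p : ℕ → Prop) (n : ℕ) : ∃ M < 2 ^ n, ∀ i < n, (bt M i = 1 ↔ p i) := by
  classical
  induction n with
  | zero => exact ⟨0, by simp, by simp⟩
  | succ n ih =>
    obtain ⟨M, hM, h⟩ := ih
    refine ⟨(if p n then 1 else 0) * 2 ^ n + M, by split_ifs <;> omega, fun i hi => ?_⟩
    rcases Nat.lt_succ_iff_lt_or_eq.1 hi with hi | rfl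
    · obtain ⟨k, rfl⟩ := Nat.exists_eq_add_of_lt hi
      rw [← h i hi, bt_eq, bt_eq, show 2 ^ (i + k + 1) = 2 ^ k * 2 * 2 ^ i by ring, ← mul_assoc, add_comm,
        Nat.add_mul_div_right _ _ (by positivity), ← mul_assoc, Nat.add_mul_mod_self_right]
    · rw [bt_eq, add_comm, Nat.add_mul_div_right _ _ (by positivity), Nat.div_eq_of_lt hM]
      split_ifs with e <;> simp [e]

end OmX

open OmX

theorem omega_cases (Ω : ℕ → Prop) (hlt : ∀ v, Ω v → v < 4096 ∧ v ≠ 0 ∧ qe v = 0) (h1 : Ω 1)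
    (hg : ∀ A ∈ gens, ∀ v < 4096, Ω v → Ω (mv A v)) (hC : ¬ Ω 80) (hf : Ω 72 ↔ Ω 76)
    (ht : ∀ v, Ω v → ∃ f : ℕ → ℕ, f 1 = v ∧ Lin f ∧ (∀ x < 4096, f x < 4096) ∧ (∀ x < 4096, f x = 0 → x = 0) ∧
      (∀ x < 4096, qe (f x) = qe x) ∧ (∀ x < 4096, (Ω (f x) ↔ Ω x)) ∧
      ((∀ x < 4096, f (rh x) = rh (f x)) ∨ ∀ x < 4096, f (rh x) = rh (rh (f x)))) :
    (∀ v, Ω v → Blk 1 v) ∨ (∀ v < 4096, Ω v ↔ lab v ∈ [0, 1, 2, 4, 8]) ∨
      ∀ v < 4096, Ω v ↔ lab v ∈ [0, 1, 2, 4, 9] := by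
  obtain ⟨M, hM, h⟩ := exists_mask (fun i => Ω (rep i)) 10
  have hΩ : ∀ v < 4096, (Ω v ↔ bt M (lab v) = 1) := fun v hv => by
    by_cases l : lab v < 10
    · rw [h _ l, lab_iff_rep Ω hg v hv l]
    · refine iff_of_false (fun e => l ((lab_iff v hv).2 (hlt v e).2)) fun e => ?_
      rw [bt_eq, Nat.div_eq_of_lt (hM.trans_le (Nat.pow_le_pow_right (by norm_num) (not_lt.1 l)))] at e
      omega
  have o1 : (1 : ℕ) < 4096 := by norm_num
  rcases masks M hM ⟨(h 0 (by norm_num)).2 h1, fun e => hC ((h 5 (by norm_num)).1 e),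
    (h 1 (by norm_num)).trans (hf.trans (h 2 (by norm_num)).symm), fun i hi e => by
      obtain ⟨f, f1, f2, f3, f4, f5, f6, -⟩ := ht _ ((h i hi).1 e)
      rw [← n1_eq hM hi, ← n1_eq hM (by norm_num : 0 < 10)]
      refine card_bij f2 f3 f4 fun x hx => and_congr (by rw [← hΩ _ (f3 x hx), f6 x hx, hΩ x hx]) ?_
      have : be (rep i) (f x) = be 1 x := by
        show qe (rep i ^^^ f x) ^^^ (qe (rep i) ^^^ qe (f x)) = qe (1 ^^^ x) ^^^ (qe 1 ^^^ qe x)
        rw [← f1, ← f2 1 o1 x hx, f5 _ (xor_lt' o1 hx), f5 1 o1, f5 x hx]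
      rw [this]
      rfl⟩ with rfl | rfl | rfl | e
  · refine Or.inl fun v hv => blk_one.2 ((lab_zero v (hlt v hv).1).1 ?_)
    exact (ball (n := 16) (P := fun i => bt 1 i = 1 → i = 0) (by decide +kernel)) _ (land15_lt _)
      ((hΩ v (hlt v hv).1).1 hv)
  · exact Or.inr (Or.inl fun v hv => (hΩ v hv).trans
      (ball (n := 16) (P := fun i => bt 279 i = 1 ↔ i ∈ [0, 1, 2, 4, 8]) (by decide +kernel) _ (land15_lt _)))
  · exact Or.inr (Or.inr fun v hv => (hΩ v hv).trans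
      (ball (n := 16) (P := fun i => bt 535 i = 1 ↔ i ∈ [0, 1, 2, 4, 9]) (by decide +kernel) _ (land15_lt _)))
  · obtain ⟨k0, k1, k2, k3⟩ := n2 M e
    obtain ⟨f, f1, f2, f3, f4, -, f6, f7⟩ := ht _ ((h 3 (by norm_num)).1 k0)
    have f1 : f 1 = 4 := f1
    have k : ∀ x < 4096, (bt M (lab (f x)) = 1 ↔ bt M (lab x) = 1) := fun x hx => by
      rw [← hΩ _ (f3 x hx), f6 x hx, hΩ x hx]
    have k' : ∀ x < 4096, (bt M (lab (4 ^^^ f x)) = 1 ↔ bt M (lab (1 ^^^ x)) = 1) := fun x hx => by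
      rw [← f1, ← f2 1 o1 x hx, k _ (xor_lt' o1 hx)]
    rcases f7 with f7 | f7
    · exact absurd ((card_filter_eq k1).symm.trans ((card_bij f2 f3 f4 fun x hx => and_congr (k x hx) (and_congr
        (k' x hx) (by rw [← f7 x hx, k' _ (rh_lt x)]))).trans (card_filter_eq k2))) (by norm_num)
    · exact absurd ((card_filter_eq k1).symm.trans ((card_bij f2 f3 f4 fun x hx => and_congr (k x hx) (and_congr
        (k' x hx) (by rw [← k' _ (rh_lt (rh x)), f7 _ (rh_lt x), f7 x hx, rh_three _ (rh_lt _)]))).trans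
        (card_filter_eq k3))) (by norm_num)

end CfsgLib.J4K
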