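import Cfsg.Agent.Lib.J4K.Blk
import Cfsg.Agent.Lib.J4K.Om

/-!
# The orbit has length 693
-/

set_option autoImplicit false
set_option Elab.async false

namespace CfsgLib.J4K

open Cfsg CfsgLib.J4T CfsgLib.ExtraTwo CfsgLib.LargeExtra Subgroup

namespace ExcX

theorem perp : ∀ u < 4096, (be u 1 = 0 ∧ (be u 2 = 0 ∨ be u 3 = 0)) → ∀ i < 16, mv (nM i) u ^^^ u < 4 :=
  ball (by decide +kernel)

theorem tests : ∀ u ∈ [1, 2, 4, 16, 84, 168], be u 80 = 0 ∧ be u 324 = 0 := by decide +kernel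

theorem c1 : ∀ a ∈ s5L, ∀ b ∈ v4L, (∀ u ∈ [84, 168], ∃ c ∈ [0, 80, 324, 276], act a b (u / 4) = (u ^^^ c) / 4) →
    a = 33825 := by decide +kernel

theorem c2 : ∀ k < 16, (∀ u ∈ [4, 16, 168], ∃ c ∈ [0, 80, 324, 276], mv (nM k) u = u ^^^ c) → k = 0 := by
  decide +kernel

theorem c3 : ∀ i < 16, ∀ j < 16, 256 * i ^^^ 256 * j < 256 → i = j := by decide +kernel

theorem blk80 {c : ℕ} : Blk 80 c ↔ c = 80 ∨ c = 324 ∨ c = 276 := by
  rw [Blk, show rh 80 = 324 by decide +kernel, show rh 324 = 276 by decide +kernel]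

variable {G : Type*} [Group G] [Finite G]

theorem key (m : EM G) {h l : G} (hh : m.H h) (e : m.α h 1 = 80) (hl : l ∈ m.L) {u : ℕ} (hu : u < 4096)
    (b : be u 80 = 0 ∧ be u 324 = 0) : ∃ c ∈ [0, 80, 324, 276], m.α (h * l * h⁻¹) u = u ^^^ c := by
  obtain ⟨j, hj, e'⟩ := (BlkX.blk_iff m hh).1 (e ▸ blk80.2 (Or.inr (Or.inl rfl)))
  have e0 := m.α_α_inv hh hu
  have l0 := m.α_lt h⁻¹ u
  rw [m.α_mul (m.H_mul hh (m.H_L hl)) (m.H_inv hh), m.α_mul hh (m.H_L hl), m.α_n hl l0]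
  generalize m.α h⁻¹ u = v at e0 l0
  have b1 : be v 1 = 0 := by rw [← m.α_be hh l0 (by norm_num), e0, e, b.1]
  have b2 : be v j = 0 := by rw [← m.α_be hh l0 (BlkX.lt4 hj), e0, e', b.2]
  have k := perp v l0 ⟨b1, by
    rcases blk_one.1 hj with rfl | rfl | rfl
    exacts [absurd (e.symm.trans e') (by norm_num), Or.inl b2, Or.inr b2]⟩ _
    (show m.π l / 256 < 16 by have := m.π_lt l; omega)
  refine ⟨m.α h (mv (nM (m.π l / 256)) v ^^^ v), ?_, ?_⟩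
  · generalize mv (nM (m.π l / 256)) v ^^^ v = t at k
    by_cases t0 : t = 0
    · rw [t0, m.α_zero hh]; simp
    · have := (BlkX.blk_iff m hh).2 ⟨t, blk_one.2 (by omega), rfl⟩
      rw [e, blk80] at this
      simpa using Or.inr this
  · rw [m.α_lin hh _ (mv_lt _ _) _ l0, e0, Nat.xor_comm _ u, ← Nat.xor_assoc, Nat.xor_self, Nat.zero_xor]

end ExcX

open ExcX

variable {G : Type*} [Group G] [Finite G]

theorem EM.not_C (m : EM G) : ¬ m.Om 80 := by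
  rintro ⟨h, hh, e⟩
  choose! n hn hπ _ using fun i (hi : i < 16) => m.exists_n hi
  have hH : ∀ {l}, l ∈ m.L → m.H (h * l * h⁻¹) := fun hl => m.H_mul (m.H_mul hh (m.H_L hl)) (m.H_inv hh)
  obtain ⟨i, hi, j, hj, ne, e1⟩ := Finset.exists_ne_map_eq_of_card_lt_of_maps_to (s := Finset.range 16)
    (t := ({1, 81, 325, 277} : Finset ℕ)) (by simp) (f := fun i => m.α (h * n i * h⁻¹) 1) fun i hi => by
      obtain ⟨c, hc, e⟩ := key m hh e (hn i (Finset.mem_range.1 hi)) (u := 1) (by norm_num) (tests 1 (by simp))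
      show m.α _ 1 ∈ _
      rw [e]
      revert c
      simp
  rw [Finset.mem_range] at hi hj
  have hl := mul_mem (inv_mem (hn i hi)) (hn j hj)
  have lE : (n i)⁻¹ * n j ∉ m.E := fun l => ne (c3 i hi j hj (by
    rwa [m.ec.mem_L _ hl, m.π_mul _ (inv_mem (hn i hi)) _ (hn j hj), m.π_inv (hn i hi), hπ i hi, hπ j hj] at l))
  have f1 : m.α (h * ((n i)⁻¹ * n j) * h⁻¹) 1 = 1 := by
    rw [show h * ((n i)⁻¹ * n j) * h⁻¹ = (h * n i * h⁻¹)⁻¹ * (h * n j * h⁻¹) by group,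
      m.α_mul (m.H_inv (hH (hn i hi))) (hH (hn j hj)), ← e1, m.α_inv_α (hH (hn i hi)) (by norm_num)]
  generalize (n i)⁻¹ * n j = l at hl lE f1
  have hy := hH hl
  have k : ∀ u ∈ [1, 2, 4, 16, 84, 168], ∃ c ∈ [0, 80, 324, 276], m.α (h * l * h⁻¹) u = u ^^^ c := fun u hu =>
    key m hh e hl ((by decide : ∀ u ∈ [1, 2, 4, 16, 84, 168], u < 4096) u hu) (tests u hu)
  have yE : h * l * h⁻¹ ∉ m.E := fun l => lE (by simpa [mul_assoc] using m.norm (m.H_inv hh) l)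
  generalize h * l * h⁻¹ = y at hy k yE f1
  have yK := m.stab1 hy (by rw [f1]; exact Blk.refl 1)
  have f2 : m.α y 2 = 2 := by
    obtain ⟨c, hc, e⟩ := k 2 (by simp)
    have := blk_one.1 (m.blk_K yK hy (blk_one.2 (Or.inr (Or.inl rfl))))
    rw [e] at this ⊢
    revert c
    simp
  have hχ := cof_v4 _ (m.χ_mem y yK) ((m.H_iff yK).1 hy) ((m.α_K yK hy (by norm_num)).symm.trans f1)
    ((m.α_K yK hy (by norm_num)).symm.trans f2)
  obtain ⟨a, ha, h0, e⟩ := m.α_v4 yK (c1 _ (m.σ_mem yK) _ hχ fun u hu => by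
    obtain ⟨c, hc, e⟩ := k u ((by decide : ∀ u ∈ [84, 168], u ∈ [1, 2, 4, 16, 84, 168]) u hu)
    exact ⟨c, hc, by rw [← e, (m.α_L yK hy ((by decide : ∀ u ∈ [84, 168], u < 1024) u hu)).2]⟩) hχ
  exact yE (h0 (c2 a ha fun u hu => by
    obtain ⟨c, hc, e'⟩ := k u ((by decide : ∀ u ∈ [4, 16, 168], u ∈ [1, 2, 4, 16, 84, 168]) u hu)
    exact ⟨c, hc, by rw [← e', e u ((by decide : ∀ u ∈ [4, 16, 168], u < 4096) u hu)]⟩))

theorem EM.big (m : EM G) : m.Big := by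
  have hg : ∀ A ∈ gens, ∀ v < 4096, m.Om v → m.Om (mv A v) := fun A hA v hv => (m.om_gens hA hv).2
  refine (omega_cases m.Om (fun v hv => hv.prop) m.om_one hg m.not_C ?_ fun v ⟨h, hh, e⟩ =>
    ⟨m.α h, e, m.α_lin hh, fun x _ => m.α_lt h x, fun x hx => m.α_eq_zero hh hx, fun x hx => m.α_qe hh hx,
      fun x hx => m.om_α_iff hh hx, m.norm_rho hh⟩).resolve_left fun k => ?_
  · obtain ⟨k, -, hk, e⟩ := m.exists_fuse
    rw [← m.om_α_iff hk.1 (by norm_num : 72 < 4096), lab_iff_rep _ hg _ (m.α_lt _ _) (by omega), e]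
    rfl
  · obtain ⟨h, hh, hn⟩ := m.ec.notle
    exact hn (m.stab1 hh (k _ ⟨h, hh, rfl⟩))

end CfsgLib.J4K
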