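import Cfsg.Agent.Lib.J4K.Api

/-!
# Coordinates on `L / Z` only
-/

set_option autoImplicit false
set_option Elab.async false

namespace CfsgLib.J4K

open Cfsg CfsgLib.J4T CfsgLib.ExtraTwo CfsgLib.LargeExtra Subgroup

/-- coordinates on `K` and `L / Z` -/
structure KC0 (G : Type*) [Group G] where
  /-- the normaliser of `Z` -/
  K : Subgroup G
  /-- the special group of order `2 ^ 15` -/
  L : Subgroup G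
  /-- the centre of `L` -/
  Z : Subgroup G
  /-- the map `L → N ⊗ W` -/
  π : G → ℕ
  /-- the map `K → S5` -/
  σ : G → ℕ
  /-- the map `K → GL3(2)` -/
  χ : G → ℕ
  /-- the map `K → S5` as a homomorphism -/
  σh : K →* Equiv.Perm (Fin 5)
  σ_eq : ∀ k : K, σ k = pm (σh k)
  hK : K = normalizer (Z : Set G)
  L_le : L ≤ K
  conj_L : ∀ k ∈ K, ∀ l ∈ L, k * l * k⁻¹ ∈ L
  card_L : Nat.card L = 32768
  Z_le : Z ≤ L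
  card_Z : Nat.card Z = 8
  Z_comm : ∀ a ∈ Z, ∀ l ∈ L, a * l = l * a
  Z_sq : ∀ a ∈ Z, a * a = 1
  Z_gen : ∀ P : Subgroup G, (∀ l ∈ L, ∀ l' ∈ L, l * l' * l⁻¹ * l'⁻¹ ∈ P) → Z ≤ P
  π_lt : ∀ l, π l < 4096
  π_mul : ∀ l ∈ L, ∀ l' ∈ L, π (l * l') = π l ^^^ π l'
  π_zero : ∀ l ∈ L, (π l = 0 ↔ l ∈ Z)
  π_surj : ∀ v < 4096, ∃ l ∈ L, π l = v
  χ_mem : ∀ k ∈ K, χ k ∈ g3L
  χ_mul : ∀ k ∈ K, ∀ k' ∈ K, χ (k * k') = mm3 (χ k) (χ k')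
  ker : ∀ k ∈ K, (k ∈ L ↔ σ k = 33825 ∧ χ k = 273)
  surj : ∀ a ∈ s5L, ∀ b ∈ g3L, ∃ k ∈ K, σ k = a ∧ χ k = b
  act_L : ∀ k ∈ K, ∀ l ∈ L, π (k * l * k⁻¹) = act (σ k) (χ k) (π l)
  cent : ∀ k ∈ K, χ k = 273 → ∀ a ∈ Z, k * a = a * k

end CfsgLib.J4K
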