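import Cfsg.Agent.Lib.J4K.Api
import Cfsg.Agent.Lib.G23.Setup

/-!
# The module `N ⊗ W`
-/

set_option autoImplicit false
set_option Elab.async false

namespace CfsgLib.J4K

open Cfsg CfsgLib.J4T CfsgLib.ExtraTwo CfsgLib.LargeExtra Subgroup

theorem mm4_mem_s5 {a b : ℕ} (ha : a ∈ s5L) (hb : b ∈ s5L) : mm4 a b ∈ s5L := by
  obtain ⟨g, rfl⟩ := pm_surj a ha
  obtain ⟨h, rfl⟩ := pm_surj b hb
  rw [← pm_mul]; exact pm_mem _

/-- an action of the coded `S5` in which the elements of order 3 have no fixed points -/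
structure TRep (V : Type*) [CommGroup V] where
  /-- the action -/
  A : ℕ → V →* V
  sq : ∀ v : V, v * v = 1
  mul : ∀ a ∈ s5L, ∀ b ∈ s5L, ∀ v, A (mm4 a b) v = A a (A b v)
  one : ∀ v, A 33825 v = v
  fpf : ∀ a ∈ s5L, a ≠ 33825 → mm4 a (mm4 a a) = 33825 → ∀ v, A a v = v → v = 1

/-- `gT n` maps the vector 1 to `n` -/
def gT (n : ℕ) : ℕ :=
  [33825, 33825, 19506, 18467, 8580, 8613, 8630, 8599, 5064, 5097, 5114, 5083, 4748, 4797, 4766, 4783].getD n 0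

/-- a step towards a fixed vector -/
def stepT (a v : ℕ) : ℕ := if act a 273 v = v then v else v ^^^ act a 273 v

namespace TRep

variable {V : Type*} [CommGroup V] (R : TRep V)

include R in
theorem eq_of_mul {v w : V} (h : v * w = 1) : v = w := by
  rw [← mul_one v, ← R.sq w, ← mul_assoc, h, one_mul]

theorem rel {a b a' b' : ℕ} (h : a ∈ s5L ∧ b ∈ s5L ∧ a' ∈ s5L ∧ b' ∈ s5L ∧ mm4 a b = mm4 a' b') (v : V) :
    R.A a (R.A b v) = R.A a' (R.A b' v) := by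
  rw [← R.mul a h.1 b h.2.1, h.2.2.2.2, R.mul a' h.2.2.1 b' h.2.2.2.1]

theorem three {a : ℕ} (h : a ∈ s5L ∧ a ≠ 33825 ∧ mm4 a (mm4 a a) = 33825) (v : V) :
    v * (R.A a v * R.A a (R.A a v)) = 1 := by
  refine R.fpf a h.1 h.2.1 h.2.2 _ ?_
  have e : R.A a (R.A a (R.A a v)) = v := by
    rw [← R.mul a h.1 a h.1 v, ← R.mul a h.1 _ (mm4_mem_s5 h.1 h.1), h.2.2, R.one]
  rw [map_mul, map_mul, e, mul_comm v, mul_assoc]

/-- the vectors fixed by `a` -/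
def Fx (a : ℕ) : Subgroup V := (R.A a).eqLocus (MonoidHom.id V)

theorem mem_Fx {a : ℕ} {v : V} : v ∈ R.Fx a ↔ R.A a v = v := Iff.rfl

theorem fix_eq {i c : ℕ} (hc : c ∈ s5L ∧ c ≠ 33825 ∧ mm4 c (mm4 c c) = 33825)
    (hi : i ∈ s5L ∧ mm4 i c = mm4 (mm4 c c) i) {v : V} (hv : v ∈ R.Fx i) : v = R.A c v * R.A i (R.A c v) := by
  have h2 := mm4_mem_s5 hc.1 hc.1
  rw [R.rel ⟨hi.1, hc.1, h2, hi.1, hi.2⟩, R.mem_Fx.1 hv, R.mul c hc.1 c hc.1]
  exact R.eq_of_mul (R.three hc v)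

theorem card_sq [Finite V] {i c : ℕ} (hc : c ∈ s5L ∧ c ≠ 33825 ∧ mm4 c (mm4 c c) = 33825)
    (hi : i ∈ s5L ∧ mm4 i c = mm4 (mm4 c c) i) (h2 : mm4 i i = 33825) (U : Subgroup V)
    (h3 : ∀ u ∈ U, R.A i u ∈ U) (h4 : ∀ u ∈ U, R.A c u ∈ U) :
    Nat.card (U ⊓ R.Fx i : Subgroup V) * Nat.card (U ⊓ R.Fx i : Subgroup V) = Nat.card U := by
  let φ : V →* V := MonoidHom.id V * R.A i
  have hφ : ∀ v, φ v = v * R.A i v := fun v => rfl
  have k : φ.ker = R.Fx i := by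
    ext v
    rw [MonoidHom.mem_ker, hφ, mem_Fx]
    exact ⟨fun h => (R.eq_of_mul h).symm, fun h => by rw [h, R.sq]⟩
  have m : U.map φ = U ⊓ R.Fx i := by
    refine le_antisymm ?_ fun v hv => ⟨_, h4 v hv.1, (R.fix_eq hc hi hv.2).symm⟩
    rintro _ ⟨u, hu, rfl⟩
    exact ⟨mul_mem hu (h3 u hu), by
      change R.A i (φ u) = φ u
      rw [hφ, map_mul, ← R.mul i hi.1 i hi.1, h2, R.one, mul_comm]⟩
  have e := (φ.ker.subgroupOf U).card_mul_index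
  rwa [← relIndex, relIndex_ker, m, k, ← inf_subgroupOf_left,
    Nat.card_congr (subgroupOfEquivOfLe inf_le_left).toEquiv] at e

theorem fix_s2 {v : V} (hv : v ∈ R.Fx 42273) : v ∈ R.Fx 46625 := by
  have e := R.fix_eq (c := 8613) (by decide +kernel) (by decide +kernel) hv
  generalize R.A 8613 v = u at e
  have h1 := R.three (a := 19506) (by decide +kernel) (R.A 51219 u)
  have h2 := R.three (a := 24370) (by decide +kernel) (R.A 51219 u)
  rw [R.rel (a' := 33825) (b' := 33825) (by decide +kernel), R.one, R.one] at h1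
  rw [R.rel (b := 51219) (a' := 42273) (b' := 33825) (by decide +kernel), R.one,
    R.rel (b := 42273) (a' := 46625) (b' := 19506) (by decide +kernel)] at h2
  have h3 := mul_left_cancel (h1.trans h2.symm)
  have h4 : v = R.A 19506 u * R.A 46625 (R.A 19506 u) := by
    rw [e]
    refine R.eq_of_mul ?_
    rw [mul_mul_mul_comm, h3, R.sq]
  rw [mem_Fx, h4, map_mul, R.rel (a := 46625) (b := 46625) (a' := 33825) (b' := 33825) (by decide +kernel), R.one,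
    R.one, mul_comm]

/-- the fixed vectors of the stabiliser of the vector 1 -/
def W : Subgroup V := R.Fx 42273 ⊓ R.Fx 50225

theorem card_W [Finite V] (hc : Nat.card V = 4096) : Nat.card R.W = 8 := by
  have h1 := R.card_sq (i := 42273) (c := 8613) (by decide +kernel) (by decide +kernel) (by decide +kernel) ⊤
    (fun _ _ => trivial) fun _ _ => trivial
  rw [top_inf_eq, card_top, hc] at h1
  have h2 := R.card_sq (i := 50225) (c := 19506) (by decide +kernel) (by decide +kernel) (by decide +kernel)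
    (R.Fx 42273) (fun u hu => by
      rw [mem_Fx, R.rel (a' := 50225) (b' := 42273) (by decide +kernel), R.mem_Fx.1 hu]) fun u hu => by
      rw [mem_Fx, R.rel (a' := 19506) (b' := 46625) (by decide +kernel), R.mem_Fx.1 (R.fix_s2 hu)]
  rw [Nat.mul_self_inj.1 (h1.trans (show 4096 = 64 * 64 from rfl))] at h2
  exact Nat.mul_self_inj.1 (h2.trans (show 64 = 8 * 8 from rfl))

/-- the vector `n ⊗ v` -/
def f (v : V) (n : ℕ) : V := if n % 16 = 0 then 1 else R.A (gT (n % 16)) v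

theorem f_mod (v : V) (n : ℕ) : R.f v (n % 16) = R.f v n := by rw [f, f, Nat.mod_mod]

theorem f_mul (v w : V) (n : ℕ) : R.f (v * w) n = R.f v n * R.f w n := by
  rw [f, f, f]; split_ifs <;> simp

theorem f_one (n : ℕ) : R.f 1 n = 1 := by
  rw [f]; split_ifs <;> simp

theorem f_zero (v : V) : R.f v 0 = 1 := rfl

theorem f_at_one (v : V) : R.f v 1 = v := R.one v

theorem f_map {β : V →* V} (h : ∀ a v, β (R.A a v) = R.A a (β v)) (v : V) (n : ℕ) : β (R.f v n) = R.f (β v) n := by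
  rw [f, f]; split_ifs
  exacts [map_one β, h _ _]

theorem f_act {v : V} (hv : v ∈ R.W) {a : ℕ} (ha : a ∈ s5L) (n : ℕ) : R.A a (R.f v n) = R.f v (ap4 a n) := by
  rw [← ap4_mod, f, f, Nat.mod_eq_of_lt (ap4_lt _ _)]
  have hn : n % 16 < 16 := Nat.mod_lt _ (by norm_num)
  generalize n % 16 = n at hn
  by_cases h0 : n = 0
  · rw [if_pos h0, if_pos (by rw [h0]; simp [ap4_def, bt_eq]), map_one]
  obtain ⟨h1, h2, h3, i, hi, j, hj, k, hk, e⟩ := (by decide +kernel : ∀ a ∈ s5L, ∀ n < 16, n ≠ 0 →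
    ap4 a n ≠ 0 ∧ gT n ∈ s5L ∧ gT (ap4 a n) ∈ s5L ∧ ∃ i ∈ [33825, 42273], ∃ j ∈ [33825, 46625],
      ∃ k ∈ [33825, 50225], mm4 a (gT n) = mm4 (gT (ap4 a n)) (mm4 i (mm4 j k))) a ha n hn h0
  have key : ∀ b ∈ s5L, v ∈ R.Fx b → ∀ i ∈ [33825, b], i ∈ s5L ∧ R.A i v = v := fun b hb h i hi => by
    simp only [List.mem_cons, List.not_mem_nil, or_false] at hi
    rcases hi with rfl | rfl
    exacts [⟨one_s5, R.one v⟩, ⟨hb, h⟩]
  obtain ⟨i1, i2⟩ := key _ (by decide +kernel) hv.1 i hi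
  obtain ⟨j1, j2⟩ := key _ (by decide +kernel) (R.fix_s2 hv.1) j hj
  obtain ⟨k1, k2⟩ := key _ (by decide +kernel) hv.2 k hk
  rw [if_neg h0, if_neg h1, R.rel ⟨ha, h2, h3, mm4_mem_s5 i1 (mm4_mem_s5 j1 k1), e⟩,
    R.mul i i1 _ (mm4_mem_s5 j1 k1), R.mul j j1 k k1, k2, j2, i2]

set_option synthInstance.maxSize 1024 in
theorem f_xor {v : V} (hv : v ∈ R.W) (n m : ℕ) : R.f v (n ^^^ m) = R.f v n * R.f v m := by
  rw [← R.f_mod, ← R.f_mod v n, ← R.f_mod v m, show (16 : ℕ) = 2 ^ 4 from rfl, Nat.xor_mod_two_pow]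
  have hn : n % 2 ^ 4 < 16 := Nat.mod_lt _ (by norm_num)
  have hm : m % 2 ^ 4 < 16 := Nat.mod_lt _ (by norm_num)
  generalize n % 2 ^ 4 = n at hn
  generalize m % 2 ^ 4 = m at hm
  by_cases h : n ≠ 0 ∧ m ≠ 0 ∧ n ≠ m
  · obtain ⟨a, ha, h1, h2, h3, h4⟩ := (by decide +kernel : ∀ n < 16, ∀ m < 16, (n ≠ 0 ∧ m ≠ 0 ∧ n ≠ m) →
      ∃ a ∈ s5L, ap4 a n = m ∧ ap4 a m = n ^^^ m ∧ a ≠ 33825 ∧ mm4 a (mm4 a a) = 33825) n hn m hm h
    have e := R.three ⟨ha, h3, h4⟩ (R.f v n)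
    rw [R.f_act hv ha, h1, R.f_act hv ha, h2, ← mul_assoc] at e
    exact (R.eq_of_mul e).symm
  · have : n = 0 ∨ m = 0 ∨ n = m := by tauto
    rcases this with rfl | rfl | rfl
    · rw [Nat.zero_xor, f_zero, one_mul]
    · rw [Nat.xor_zero, f_zero, mul_one]
    · rw [Nat.xor_self, f_zero, R.sq]

theorem f_bit {p : ℕ} (hp : p < 2) (v : V) (n : ℕ) : R.f v (p * n) = R.f (v ^ p) n := by
  interval_cases p
  · rw [zero_mul, pow_zero, f_zero, f_one]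
  · rw [one_mul, pow_one]

include R in
theorem pow_xor {p q : ℕ} (hp : p < 2) (hq : q < 2) (v : V) : v ^ (p ^^^ q) = v ^ p * v ^ q := by
  interval_cases p <;> interval_cases q <;> simp [R.sq]

/-- the product of basis vectors with the code `t` -/
def ev (w0 w1 w2 : V) (t : ℕ) : V := w0 ^ bt t 0 * w1 ^ bt t 1 * w2 ^ bt t 2

theorem ev_mod (w0 w1 w2 : V) (t : ℕ) : ev w0 w1 w2 (t % 8) = ev w0 w1 w2 t := by
  have e : ∀ i < 3, bt (t % 8) i = bt t i := fun i hi => by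
    rw [bt_eq, bt_eq]; interval_cases i <;> omega
  rw [ev, ev, e 0 (by norm_num), e 1 (by norm_num), e 2 (by norm_num)]

include R in
theorem ev_xor (w0 w1 w2 : V) (t s : ℕ) : ev w0 w1 w2 (t ^^^ s) = ev w0 w1 w2 t * ev w0 w1 w2 s := by
  simp only [ev, bt_xor, R.pow_xor (bt_lt _ _) (bt_lt _ _)]
  ac_rfl

theorem exists_basis [Finite V] (hc : Nat.card V = 4096) : ∃ w0 ∈ R.W, ∃ w1 ∈ R.W, ∃ w2 ∈ R.W,
    (∀ t < 8, ev w0 w1 w2 t = 1 → t = 0) ∧ ∀ w ∈ R.W, ∃ t < 8, ev w0 w1 w2 t = w := by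
  classical
  have h8 : (R.W : Set V).ncard = 8 := R.card_W hc
  have pick : ∀ s : Finset V, s.card < 8 → ∃ w ∈ R.W, w ∉ s := fun s hs =>
    Set.exists_mem_notMem_of_ncard_lt_ncard (s := (s : Set V)) (t := (R.W : Set V)) (by rwa [h8, Set.ncard_coe_finset])
  obtain ⟨w0, h0, n0⟩ := pick {1} (by simp)
  obtain ⟨w1, h1, n1⟩ := pick {1, w0} (lt_of_le_of_lt Finset.card_le_two (by norm_num))
  obtain ⟨w2, h2, n2⟩ := pick {1, w0, w1, w0 * w1} (lt_of_le_of_lt Finset.card_le_four (by norm_num))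
  simp only [Finset.mem_insert, Finset.mem_singleton, not_or] at n0 n1 n2
  have inj : ∀ t < 8, ev w0 w1 w2 t = 1 → t = 0 := fun t ht e => by
    interval_cases t <;> simp only [ev, bt_eq] at e <;> norm_num at e ⊢
    exacts [n0 e, n1.1 e, n1.2 (R.eq_of_mul e).symm, n2.1 e, n2.2.1 (R.eq_of_mul e).symm,
      n2.2.2.1 (R.eq_of_mul e).symm, n2.2.2.2 (R.eq_of_mul e).symm]
  refine ⟨w0, h0, w1, h1, w2, h2, inj, fun w hw => ?_⟩
  let g : Fin 8 → R.W := fun t => ⟨ev w0 w1 w2 t, mul_mem (mul_mem (pow_mem h0 _) (pow_mem h1 _)) (pow_mem h2 _)⟩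
  have hg : Function.Injective g := fun t s e => Fin.ext (Nat.xor_eq_zero_iff.1 (inj _ (xor_lt (n := 3) t.2 s.2) (by
    rw [R.ev_xor, show ev w0 w1 w2 t = ev w0 w1 w2 s from congrArg Subtype.val e, R.sq])))
  obtain ⟨t, e⟩ := ((Nat.bijective_iff_injective_and_card g).2 ⟨hg, by rw [R.card_W hc]; simp⟩).2 ⟨w, hw⟩
  exact ⟨t, t.2, congrArg Subtype.val e⟩

/-- the vector with the code `x` -/
def F (w0 w1 w2 : V) (x : ℕ) : V := R.f w0 x * R.f w1 (x >>> 4) * R.f w2 (x >>> 8)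

variable {w0 w1 w2 : V}

theorem F_xor (h0 : w0 ∈ R.W) (h1 : w1 ∈ R.W) (h2 : w2 ∈ R.W) (x y : ℕ) :
    R.F w0 w1 w2 (x ^^^ y) = R.F w0 w1 w2 x * R.F w0 w1 w2 y := by
  simp only [F, Nat.shiftRight_xor_distrib, R.f_xor h0, R.f_xor h1, R.f_xor h2]
  ac_rfl

theorem F_sp {n : ℕ} (hn : n < 16) (c : ℕ) : R.F w0 w1 w2 (n * sp c) = R.f (ev w0 w1 w2 c) n := by
  rw [← sp_mod, ← ev_mod]
  obtain ⟨e0, e1, e2⟩ := (by decide +kernel : ∀ n < 16, ∀ c < 8, n * sp c % 16 = bt c 0 * n ∧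
    (n * sp c) >>> 4 % 16 = bt c 1 * n ∧ (n * sp c) >>> 8 % 16 = bt c 2 * n) n hn _ (Nat.mod_lt c (by norm_num))
  rw [F, ← R.f_mod w0, ← R.f_mod w1, ← R.f_mod w2, e0, e1, e2, R.f_bit (bt_lt _ _), R.f_bit (bt_lt _ _),
    R.f_bit (bt_lt _ _), ev, f_mul, f_mul]

theorem F_act (h0 : w0 ∈ R.W) (h1 : w1 ∈ R.W) (h2 : w2 ∈ R.W) {β : V →* V}
    (h : ∀ a v, β (R.A a v) = R.A a (β v)) {a b : ℕ} (ha : a ∈ s5L) (e0 : ev w0 w1 w2 b = β w0)
    (e1 : ev w0 w1 w2 (b >>> 3) = β w1) (e2 : ev w0 w1 w2 (b >>> 6) = β w2) (x : ℕ) :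
    R.F w0 w1 w2 (act a b x) = β (R.A a (R.F w0 w1 w2 x)) := by
  rw [act_def, R.F_xor h0 h1 h2, R.F_xor h0 h1 h2, R.F_sp (ap4_lt _ _), R.F_sp (ap4_lt _ _), R.F_sp (ap4_lt _ _),
    e0, e1, e2, F, map_mul (R.A a), map_mul (R.A a), R.f_act h0 ha, R.f_act h1 ha, R.f_act h2 ha, map_mul, map_mul, R.f_map h,
    R.f_map h, R.f_map h]

theorem F_inj (h0 : w0 ∈ R.W) (h1 : w1 ∈ R.W) (h2 : w2 ∈ R.W) (inj : ∀ t < 8, ev w0 w1 w2 t = 1 → t = 0)
    {x : ℕ} (hx : x < 4096) (e : R.F w0 w1 w2 x = 1) : x = 0 := by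
  have st : ∀ a ∈ s5L, ∀ x, R.F w0 w1 w2 x = 1 → R.F w0 w1 w2 (stepT a x) = 1 := fun a ha x e => by
    rw [stepT]
    split_ifs
    · exact e
    · rw [R.F_xor h0 h1 h2, R.F_act h0 h1 h2 (β := MonoidHom.id V) (fun _ _ => rfl) ha (by simp [ev, bt_eq])
        (by simp [ev, bt_eq]) (by simp [ev, bt_eq]), e, map_one, map_one, mul_one]
  by_contra h
  obtain ⟨c, hc, c0, e'⟩ := (ball (by decide +kernel) : ∀ x < 4096, x ≠ 0 →
    ∃ c < 8, c ≠ 0 ∧ stepT 50225 (stepT 46625 (stepT 42273 x)) = 1 * sp c) x hx h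
  have := st 50225 (by decide +kernel) _ (st 46625 (by decide +kernel) _ (st 42273 (by decide +kernel) _ e))
  rw [e', R.F_sp (by norm_num), f_at_one] at this
  exact c0 (inj c hc this)

include R in
theorem ev_ap3 {β : V →* V} {b : ℕ} (e0 : ev w0 w1 w2 b = β w0) (e1 : ev w0 w1 w2 (b >>> 3) = β w1)
    (e2 : ev w0 w1 w2 (b >>> 6) = β w2) (t : ℕ) : ev w0 w1 w2 (ap3 b t) = β (ev w0 w1 w2 t) := by
  have k : ∀ p < 2, ∀ c, ev w0 w1 w2 (p * (c &&& 7)) = ev w0 w1 w2 c ^ p := fun p hp c => by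
    interval_cases p
    · simp [ev, bt_eq]
    · rw [one_mul, pow_one, show (7 : ℕ) = 2 ^ 3 - 1 from rfl, Nat.and_two_pow_sub_one_eq_mod]
      exact ev_mod _ _ _ _
  rw [ap3_def, R.ev_xor, R.ev_xor, k _ (bt_lt _ _), k _ (bt_lt _ _), k _ (bt_lt _ _), e0, e1, e2, ev, map_mul,
    map_mul, map_pow, map_pow, map_pow]

end TRep

theorem tensor {V : Type*} [CommGroup V] [Finite V] (h2 : ∀ v : V, v * v = 1) (hc : Nat.card V = 4096)
    (μ : Equiv.Perm (Fin 5) × Matrix.SpecialLinearGroup (Fin 3) (ZMod 2) →* MulAut V)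
    (h3 : ∀ g : Equiv.Perm (Fin 5), orderOf g = 3 → ∀ v, μ (g, 1) v = v → v = 1) (h7 : ∃ y, μ (1, y) ≠ 1) :
    ∃ (p : V → ℕ) (χ : Matrix.SpecialLinearGroup (Fin 3) (ZMod 2) → ℕ), (∀ v, p v < 4096) ∧
      (∀ v w, p (v * w) = p v ^^^ p w) ∧ (∀ v, p v = 0 → v = 1) ∧ (∀ x < 4096, ∃ v, p v = x) ∧
      (∀ y, χ y ∈ g3L) ∧ (∀ y y', χ (y * y') = mm3 (χ y) (χ y')) ∧ (∀ y, χ y = 273 ↔ y = 1) ∧
      (∀ b ∈ g3L, ∃ y, χ y = b) ∧ ∀ g y v, p (μ (g, y) v) = act (pm g) (χ y) (p v) := by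
  classical
  have : Fact (Nat.Prime 3) := ⟨Nat.prime_three⟩
  have hι : ∀ g, Function.invFun pm (pm g) = g := Function.leftInverse_invFun fun _ _ => pm_inj
  have mm : ∀ a b v, μ (a * b) v = μ a (μ b v) := fun a b v => by rw [map_mul]; rfl
  let R : TRep V :=
    { A := fun a => (μ (Function.invFun pm a, 1)).toMonoidHom
      sq := h2
      mul := fun a ha b hb v => by
        obtain ⟨g, rfl⟩ := pm_surj a ha
        obtain ⟨h, rfl⟩ := pm_surj b hb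
        rw [← pm_mul, hι, hι, hι]
        exact (by rw [← mm, Prod.mk_mul_mk, mul_one] : μ (g * h, 1) v = μ (g, 1) (μ (h, 1) v))
      one := fun v => by
        rw [← pm_one, hι]
        exact (by rw [Prod.mk_one_one, map_one]; rfl : μ (1, 1) v = v)
      fpf := fun a ha h1 h4 v => by
        obtain ⟨g, rfl⟩ := pm_surj a ha
        rw [hι]
        refine h3 g (orderOf_eq_prime (pm_eq_one _ ?_) fun e => h1 (by rw [e, pm_one])) v
        rw [pow_three, pm_mul, pm_mul, h4] }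
  have hA : ∀ g v, R.A (pm g) v = μ (g, 1) v := fun g v => by
    change μ (Function.invFun pm (pm g), 1) v = _
    rw [hι]
  let B : Matrix.SpecialLinearGroup (Fin 3) (ZMod 2) → V →* V := fun y => (μ (1, y)).toMonoidHom
  have hB : ∀ y v, B y v = μ (1, y) v := fun _ _ => rfl
  have AB : ∀ y a v, B y (R.A a v) = R.A a (B y v) := fun y a v => by
    change μ (1, y) (μ (_, 1) v) = μ (_, 1) (μ (1, y) v)
    rw [← mm, ← mm, Prod.mk_mul_mk, Prod.mk_mul_mk, one_mul, mul_one, one_mul, mul_one]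
  have BW : ∀ y, ∀ w ∈ R.W, B y w ∈ R.W := fun y w hw =>
    ⟨R.mem_Fx.2 (by rw [← AB, R.mem_Fx.1 hw.1]), R.mem_Fx.2 (by rw [← AB, R.mem_Fx.1 hw.2])⟩
  obtain ⟨w0, m0, w1, m1, w2, m2, inj, sur⟩ := R.exists_basis hc
  choose! τ τl τe using sur
  have inj' : ∀ t < 8, ∀ s < 8, TRep.ev w0 w1 w2 t = TRep.ev w0 w1 w2 s → t = s := fun t ht s hs e =>
    Nat.xor_eq_zero_iff.1 (inj _ (xor_lt (n := 3) ht hs) (by rw [R.ev_xor, e, h2]))
  let χ : Matrix.SpecialLinearGroup (Fin 3) (ZMod 2) → ℕ := fun y => τ (B y w0) + 8 * τ (B y w1) + 64 * τ (B y w2)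
  have hχ : ∀ y, χ y < 512 ∧ TRep.ev w0 w1 w2 (χ y) = B y w0 ∧ TRep.ev w0 w1 w2 (χ y >>> 3) = B y w1 ∧
      TRep.ev w0 w1 w2 (χ y >>> 6) = B y w2 := fun y => by
    have a0 := τl _ (BW y _ m0)
    have a1 := τl _ (BW y _ m1)
    have a2 := τl _ (BW y _ m2)
    have e : χ y = τ (B y w0) + 8 * τ (B y w1) + 64 * τ (B y w2) := rfl
    refine ⟨by omega, ?_, ?_, ?_⟩ <;> rw [← TRep.ev_mod]
    · rw [← τe _ (BW y _ m0)]; congr 1; omega
    · rw [← τe _ (BW y _ m1), Nat.shiftRight_eq_div_pow]; congr 1; omega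
    · rw [← τe _ (BW y _ m2), Nat.shiftRight_eq_div_pow]; congr 1; omega
  have Fa : ∀ g y x, R.F w0 w1 w2 (act (pm g) (χ y) x) = μ (g, y) (R.F w0 w1 w2 x) := fun g y x => by
    rw [R.F_act m0 m1 m2 (AB y) (pm_mem g) (hχ y).2.1 (hχ y).2.2.1 (hχ y).2.2.2, hA, hB, ← mm, Prod.mk_mul_mk,
      one_mul, mul_one]
  have ea : ∀ y t, TRep.ev w0 w1 w2 (ap3 (χ y) t) = B y (TRep.ev w0 w1 w2 t) := fun y =>
    R.ev_ap3 (hχ y).2.1 (hχ y).2.2.1 (hχ y).2.2.2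
  have Fi : ∀ x < 4096, ∀ y < 4096, R.F w0 w1 w2 x = R.F w0 w1 w2 y → x = y := fun x hx y hy e =>
    Nat.xor_eq_zero_iff.1 (R.F_inj m0 m1 m2 inj (xor_lt' hx hy) (by rw [R.F_xor m0 m1 m2, e, h2]))
  have Fs : ∀ v, ∃ x < 4096, R.F w0 w1 w2 x = v := fun v => by
    obtain ⟨x, e⟩ := ((Nat.bijective_iff_injective_and_card fun x : Fin 4096 => R.F w0 w1 w2 x).2
      ⟨fun x y e => Fin.ext (Fi _ x.2 _ y.2 e), by rw [hc]; simp⟩).2 v
    exact ⟨x, x.2, e⟩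
  choose p pl pe using Fs
  have μi : Function.Injective fun y => μ (1, y) := by
    have := G23.simple_SL32
    have hk := ((μ.comp (MonoidHom.inr _ _)).normal_ker.eq_bot_or_eq_top).resolve_right fun e => by
      obtain ⟨y, hy⟩ := h7
      exact hy (e ▸ mem_top y : y ∈ (μ.comp (MonoidHom.inr _ _)).ker)
    exact (MonoidHom.ker_eq_bot_iff _).1 hk
  have χi : Function.Injective χ := fun y y' e => μi (MulEquiv.ext fun v => by
    change μ (1, y) v = μ (1, y') v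
    rw [← pe v, ← Fa, e, Fa])
  have χm : ∀ y, χ y ∈ g3L := fun y => (ball (by decide +kernel) : ∀ b < 512,
    (∀ t < 8, ap3 b t = 0 → t = 0) → b ∈ g3L) _ (hχ y).1 fun t ht e => inj t ht (by
      have := ea y t
      rw [e, show TRep.ev w0 w1 w2 0 = 1 by simp [TRep.ev, bt_eq], hB] at this
      exact (MulEquiv.map_eq_one_iff _).1 this.symm)
  have χ1 : χ 1 = 273 := by
    have k : ∀ w ∈ R.W, ∀ t < 8, TRep.ev w0 w1 w2 t = w → τ (B 1 w) = t := fun w hw t ht e =>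
      inj' _ (τl _ (BW 1 w hw)) t ht (by rw [τe _ (BW 1 w hw), e, hB, Prod.mk_one_one, map_one]; rfl)
    change τ (B 1 w0) + 8 * τ (B 1 w1) + 64 * τ (B 1 w2) = 273
    rw [k w0 m0 1 (by norm_num) (by simp [TRep.ev, bt_eq]), k w1 m1 2 (by norm_num) (by simp [TRep.ev, bt_eq]),
      k w2 m2 4 (by norm_num) (by simp [TRep.ev, bt_eq])]
  refine ⟨p, χ, pl, fun v w => Fi _ (pl _) _ (xor_lt' (pl _) (pl _)) (by rw [R.F_xor m0 m1 m2, pe, pe, pe]),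
    fun v e => ?_, fun x hx => ⟨_, Fi _ (pl _) _ hx (pe _)⟩, χm, fun y y' => ?_,
    fun y => ⟨fun e => χi (e.trans χ1.symm), fun e => e ▸ χ1⟩, fun b hb => ?_,
    fun g y v => Fi _ (pl _) _ (act_lt _ _ _) (by rw [Fa, pe, pe])⟩
  · rw [← pe v, e]
    simp [TRep.F, TRep.f_zero]
  · have k : ∀ w ∈ R.W, ∀ t, TRep.ev w0 w1 w2 t = B y' w → τ (B (y * y') w) = ap3 (χ y) t := fun w hw t e =>
      inj' _ (τl _ (BW _ w hw)) _ (ap3_lt _ _) (by
        rw [τe _ (BW _ w hw), ea, e, hB, hB, hB, ← mm, Prod.mk_mul_mk, one_mul])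
    rw [mm3_def, ← k w0 m0 _ (hχ y').2.1, ← k w1 m1 _ (hχ y').2.2.1, ← k w2 m2 _ (hχ y').2.2.2]
  · have := Fintype.ofFinite (Matrix.SpecialLinearGroup (Fin 3) (ZMod 2))
    have e : Finset.univ.image χ = g3L.toFinset := Finset.eq_of_subset_of_card_le
      (Finset.image_subset_iff.2 fun y _ => List.mem_toFinset.2 (χm y)) (by
        rw [Finset.card_image_of_injective _ χi, g3L_card, Finset.card_univ, ← Nat.card_eq_fintype_card,
          G23.card_SL32])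
    obtain ⟨y, -, hy⟩ := Finset.mem_image.1 (e ▸ List.mem_toFinset.2 hb)
    exact ⟨y, hy⟩

end CfsgLib.J4K
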