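import Cfsg.Agent.Lib.J4K.Kc0
import Cfsg.Agent.Lib.J4K.Tens
import Cfsg.Agent.Lib.Fgs.AutBound
import Cfsg.Agent.Lib.Transfer.Frobenius

/-!
# Coordinates on `L / Z` from the hypothesis
-/

set_option autoImplicit false
set_option Elab.async false

namespace CfsgLib.J4K

open Cfsg CfsgLib.J4T CfsgLib.ExtraTwo CfsgLib.LargeExtra Subgroup

theorem tensor' {V : Type*} [Group V] [Finite V] (hv : ∀ v w : V, v * w = w * v) (h2 : ∀ v : V, v * v = 1)
    (hc : Nat.card V = 4096)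
    (μ : Equiv.Perm (Fin 5) × Matrix.SpecialLinearGroup (Fin 3) (ZMod 2) →* MulAut V)
    (h3 : ∀ g : Equiv.Perm (Fin 5), orderOf g = 3 → ∀ v, μ (g, 1) v = v → v = 1) (h7 : ∃ y, μ (1, y) ≠ 1) :
    ∃ (p : V → ℕ) (χ : Matrix.SpecialLinearGroup (Fin 3) (ZMod 2) → ℕ), (∀ v, p v < 4096) ∧
      (∀ v w, p (v * w) = p v ^^^ p w) ∧ (∀ v, p v = 0 → v = 1) ∧ (∀ x < 4096, ∃ v, p v = x) ∧
      (∀ y, χ y ∈ g3L) ∧ (∀ y y', χ (y * y') = mm3 (χ y) (χ y')) ∧ (∀ y, χ y = 273 ↔ y = 1) ∧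
      (∀ b ∈ g3L, ∃ y, χ y = b) ∧ ∀ g y v, p (μ (g, y) v) = act (pm g) (χ y) (p v) := by
  letI : CommGroup V := { ‹Group V› with mul_comm := hv }
  exact tensor h2 hc μ h3 h7

theorem kca_fact7 : Fact (Nat.Prime 7) := ⟨by norm_num⟩

attribute [local instance] kca_fact7

theorem kca_seven : ∃ y : Matrix.SpecialLinearGroup (Fin 3) (ZMod 2), orderOf y = 7 :=
  exists_prime_orderOf_dvd_card' 7 (by rw [G23.card_SL32]; norm_num)

theorem kca_three : ∃ g : Equiv.Perm (Fin 5), orderOf g = 3 :=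
  exists_prime_orderOf_dvd_card' 3 (by rw [Nat.card_perm, Nat.card_fin]; decide)

variable {G : Type*} [Group G] [Finite G]

/-- the hypotheses in elementary form -/
structure KcH (K L Z : Subgroup G)
    (φ : K →* Equiv.Perm (Fin 5) × Matrix.SpecialLinearGroup (Fin 3) (ZMod 2)) : Prop where
  le : L ≤ K
  surj : Function.Surjective φ
  ker : ∀ k : K, φ k = 1 ↔ (k : G) ∈ L
  mZ : ∀ a, a ∈ Z ↔ a ∈ L ∧ ∀ l ∈ L, l * a = a * l
  sq : ∀ l ∈ L, l * l ∈ Z
  Zsq : ∀ a ∈ Z, a * a = 1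
  cardZ : Nat.card Z = 8
  gen : ∀ P : Subgroup G, (∀ l ∈ L, ∀ l' ∈ L, l * l' * l⁻¹ * l'⁻¹ ∈ P) → Z ≤ P
  hK : K = normalizer (Z : Set G)
  hxy : ∀ x y : G, x ∈ K → y ∈ K → orderOf x = 3 → orderOf y = 7 → x * y = y * x →
    L ⊓ centralizer ({x} : Set G) = Z ∧ L ⊓ centralizer ({y} : Set G) = ⊥

namespace KcH

variable {K L Z : Subgroup G} {φ : K →* Equiv.Perm (Fin 5) × Matrix.SpecialLinearGroup (Fin 3) (ZMod 2)}

omit [Finite G] in
theorem conj (h : KcH K L Z φ) {k l : G} (hk : k ∈ K) (hl : l ∈ L) : k * l * k⁻¹ ∈ L :=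
  (h.ker (⟨k, hk⟩ * ⟨l, h.le hl⟩ * ⟨k, hk⟩⁻¹)).1 (by
    rw [map_mul, map_mul, (h.ker ⟨l, h.le hl⟩).2 hl, map_inv, mul_one, mul_inv_cancel])

omit [Finite G] in
theorem pow_four (h : KcH K L Z φ) {l : G} (hl : l ∈ L) : l ^ 4 = 1 := by
  rw [show l ^ 4 = l * l * (l * l) by simp only [pow_succ, pow_zero, one_mul, mul_assoc], h.Zsq _ (h.sq l hl)]

omit [Finite G] in
theorem lifts (h : KcH K L Z φ) {g : Equiv.Perm (Fin 5)} {y0 : Matrix.SpecialLinearGroup (Fin 3) (ZMod 2)}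
    (hg : orderOf g = 3) (hy : orderOf y0 = 7) : ∃ x y : K, φ x = (g, 1) ∧ φ y = (1, y0) ∧ (x : G) ^ 3 = 1 ∧
      (y : G) ^ 7 = 1 ∧ L ⊓ centralizer ({(x : G)} : Set G) = Z ∧ L ⊓ centralizer ({(y : G)} : Set G) = ⊥ := by
  obtain ⟨k, hk⟩ := h.surj (g, y0)
  have g3 : g ^ 3 = 1 := hg ▸ pow_orderOf_eq_one g
  have y7 : y0 ^ 7 = 1 := hy ▸ pow_orderOf_eq_one y0
  have e : ∀ n, φ (k ^ n) = (g ^ n, y0 ^ n) := fun n => by rw [map_pow, hk, Prod.pow_mk]
  have h21 : ((k ^ 21 : K) : G) ∈ L := (h.ker _).1 (by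
    rw [e, show 21 = 3 * 7 from rfl, pow_mul, g3, one_pow, mul_comm, pow_mul, y7, one_pow]; rfl)
  have h84 : (k : G) ^ 84 = 1 := by
    have := h.pow_four h21
    rwa [SubgroupClass.coe_pow, ← pow_mul] at this
  have ex : φ (k ^ 28) = (g, 1) := by
    rw [e, show 28 = 3 * 9 + 1 from rfl, pow_succ, pow_mul, g3, one_pow, one_mul, show 3 * 9 + 1 = 7 * 4 from rfl,
      pow_mul, y7, one_pow]
  have ey : φ (k ^ 36) = (1, y0) := by
    rw [e, show 36 = 3 * 12 from rfl, pow_mul, g3, one_pow, show 3 * 12 = 7 * 5 + 1 from rfl, pow_succ, pow_mul, y7,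
      one_pow, one_mul]
  have x3 : ((k ^ 28 : K) : G) ^ 3 = 1 := by rw [SubgroupClass.coe_pow, ← pow_mul]; exact h84
  have y7' : ((k ^ 36 : K) : G) ^ 7 = 1 := by
    rw [SubgroupClass.coe_pow, ← pow_mul, show 36 * 7 = 84 * 3 from rfl, pow_mul, h84, one_pow]
  have ox : orderOf ((k ^ 28 : K) : G) = 3 := orderOf_eq_prime x3 fun h1 => by
    rw [OneMemClass.coe_eq_one] at h1
    rw [h1, map_one] at ex
    rw [← (Prod.mk.inj ex).1, orderOf_one] at hg
    omega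
  have oy : orderOf ((k ^ 36 : K) : G) = 7 := orderOf_eq_prime y7' fun h1 => by
    rw [OneMemClass.coe_eq_one] at h1
    rw [h1, map_one] at ey
    rw [← (Prod.mk.inj ey).2, orderOf_one] at hy
    omega
  exact ⟨_, _, ex, ey, x3, y7', h.hxy _ _ (k ^ 28).2 (k ^ 36).2 ox oy (by
    rw [SubgroupClass.coe_pow, SubgroupClass.coe_pow, pow_mul_comm])⟩

theorem cent_inv (h : KcH K L Z φ) {k : K} {i : Equiv.Perm (Fin 5)} (hk : φ k = (i, 1)) (hi : i * i = 1) :
    ∀ a ∈ Z, (k : G) * a = a * k := by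
  obtain ⟨g, hg⟩ := kca_three
  obtain ⟨y0, hy0⟩ := kca_seven
  obtain ⟨-, y, -, ey, -, y7, -, hy⟩ := h.lifts hg hy0
  have hkk : ((k * k : K) : G) ∈ L := (h.ker _).1 (by rw [map_mul, hk, Prod.mk_mul_mk, hi, mul_one]; rfl)
  have h1 := Transfer.card_modEq_card_inf_centralizer (q := 2) (Q := Z) (g := k) (h.hK ▸ k.2) ⟨3, by
    have := h.pow_four hkk
    rwa [Subgroup.coe_mul, ← pow_two, ← pow_mul] at this⟩
  have hc : ((y⁻¹ * k * y * k⁻¹ : K) : G) ∈ L := (h.ker _).1 (by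
    rw [map_mul, map_mul, map_mul, map_inv, map_inv, hk, ey]; simp)
  have hyn : (y : G) ∈ normalizer ((Z ⊓ centralizer ({(k : G)} : Set G) : Subgroup G) : Set G) := by
    refine mem_normalizer_fintype fun a ha => ?_
    have hyZ : (y : G) ∈ normalizer (Z : Set G) := h.hK ▸ y.2
    refine mem_inf.2 ⟨(mem_normalizer_iff.1 hyZ a).1 ha.1, mem_cent.2 ?_⟩
    have e1 : a * k = k * a := mem_cent.1 ha.2
    have e2 := ((h.mZ a).1 ha.1).2 _ hc
    simp only [Subgroup.coe_mul, InvMemClass.coe_inv] at e2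
    calc (y : G) * a * (y : G)⁻¹ * k = y * (a * ((y : G)⁻¹ * k * y * (k : G)⁻¹)) * k * (y : G)⁻¹ := by group
      _ = k * y * ((k : G)⁻¹ * (a * k)) * (y : G)⁻¹ := by rw [← e2]; group
      _ = _ := by rw [e1]; group
  have h2 := Transfer.card_modEq_card_inf_centralizer (q := 7) hyn ⟨1, by rw [pow_one, y7]⟩
  have h3 : (Z ⊓ centralizer ({(k : G)} : Set G)) ⊓ centralizer ({(y : G)} : Set G) = ⊥ :=
    eq_bot_iff.2 (hy ▸ inf_le_inf_right _ (inf_le_left.trans fun a ha => ((h.mZ a).1 ha).1))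
  rw [h3, card_bot] at h2
  have h4 := card_dvd_of_le (inf_le_left : Z ⊓ centralizer ({(k : G)} : Set G) ≤ Z)
  rw [h.cardZ] at h1 h4
  have h5 := Nat.le_of_dvd (by norm_num) h4
  have h6 : Z ⊓ centralizer ({(k : G)} : Set G) = Z := eq_of_le_of_card_ge inf_le_left (by
    rw [h.cardZ]
    unfold Nat.ModEq at h1 h2
    omega)
  exact fun a ha => (mem_cent.1 ((inf_eq_left.1 h6) ha)).symm

theorem cent (h : KcH K L Z φ) (g : Equiv.Perm (Fin 5)) :
    ∀ k : K, φ k = (g, 1) → ∀ a ∈ Z, (k : G) * a = a * k := by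
  induction g using Equiv.Perm.swap_induction_on with
  | one => exact fun k hk => h.cent_inv hk (mul_one 1)
  | swap_mul f x y _ ih =>
    intro k hk a ha
    obtain ⟨k1, hk1⟩ := h.surj (Equiv.swap x y, 1)
    have e1 := h.cent_inv hk1 (Equiv.swap_mul_self x y) a ha
    have e2 := ih (k1⁻¹ * k) (by rw [map_mul, map_inv, hk1, hk]; simp) a ha
    simp only [Subgroup.coe_mul, InvMemClass.coe_inv] at e2
    calc (k : G) * a = k1 * ((k1 : G)⁻¹ * k * a) := by group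
      _ = k1 * a * ((k1 : G)⁻¹ * k) := by rw [e2]; group
      _ = _ := by rw [e1]; group

theorem exists_KC0 (h : KcH K L Z φ) (hLc : Nat.card L = 32768)
    (hcomm : ∀ l ∈ L, ∀ l' ∈ L, l * l' * l⁻¹ * l'⁻¹ ∈ Z) : Nonempty (KC0 G) := by
  classical
  have mc : ∀ l : L, l ∈ center L ↔ (l : G) ∈ Z := fun l => by
    rw [h.mZ, mem_center_iff]
    exact ⟨fun e => ⟨l.2, fun m hm => congrArg Subtype.val (e ⟨m, hm⟩)⟩, fun e m => Subtype.ext (e.2 m m.2)⟩
  have hKn : K ≤ normalizer (L : Set G) := fun k hk => mem_normalizer_fintype fun l hl => h.conj hk hl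
  let ψ : K →* MulAut (L ⧸ center L) := (Fgs.quotAut (center L)).comp (L.normalizerMonoidHom.comp (inclusion hKn))
  have hψ : ∀ (k : K) (l : L), ψ k (l : L ⧸ center L) = ((⟨k * l * (k : G)⁻¹, h.conj k.2 l.2⟩ : L) : L ⧸ center L) :=
    fun k l => rfl
  have hv : ∀ v w : L ⧸ center L, v * w = w * v := fun v w => by
    obtain ⟨l, rfl⟩ := QuotientGroup.mk_surjective v
    obtain ⟨m, rfl⟩ := QuotientGroup.mk_surjective w
    rw [← QuotientGroup.mk_mul, ← QuotientGroup.mk_mul, QuotientGroup.eq, mc]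
    have := hcomm _ (inv_mem m.2) _ (inv_mem l.2)
    simpa [mul_assoc] using this
  have h2 : ∀ v : L ⧸ center L, v * v = 1 := fun v => by
    obtain ⟨l, rfl⟩ := QuotientGroup.mk_surjective v
    rw [← QuotientGroup.mk_mul, QuotientGroup.eq_one_iff, mc]
    exact h.sq l l.2
  have hc : Nat.card (L ⧸ center L) = 4096 := by
    have e1 := card_eq_card_quotient_mul_card_subgroup (center L)
    have e2 : Nat.card (center L) = 8 := by
      rw [← h.cardZ, ← card_map_of_injective L.subtype_injective]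
      congr 2
      ext a
      rw [mem_center_map, h.mZ]
    rw [e2, hLc] at e1
    omega
  have hker : φ.ker ≤ ψ.ker := fun k hk => by
    have hl := (h.ker k).1 hk
    refine MulEquiv.ext fun v => ?_
    obtain ⟨l, rfl⟩ := QuotientGroup.mk_surjective v
    rw [hψ, show (⟨k * l * (k : G)⁻¹, h.conj k.2 l.2⟩ : L) = ⟨k, hl⟩ * l * ⟨k, hl⟩⁻¹ from rfl, QuotientGroup.mk_mul,
      QuotientGroup.mk_mul, QuotientGroup.mk_inv, hv _ (l : L ⧸ center L), mul_inv_cancel_right]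
    rfl
  let μ := φ.liftOfSurjective h.surj ⟨ψ, hker⟩
  have hμ : ∀ k, μ (φ k) = ψ k := fun k => φ.liftOfRightInverse_comp_apply _ _ _ k
  have fx : ∀ (k : K) (l : L), ψ k (l : L ⧸ center L) = l → ∃ a ∈ Z, (k : G) * l * (k : G)⁻¹ = l * a := fun k l e => by
    rw [hψ, eq_comm, QuotientGroup.eq, mc] at e
    exact ⟨_, e, by simp⟩
  obtain ⟨y0, hy0⟩ := kca_seven
  obtain ⟨p, χ, p1, p2, p3, p4, c1, c2, c3, c4, c5⟩ := tensor' hv h2 hc μ (fun g hg v e => by
      obtain ⟨x, -, ex, -, x3, -, hx, -⟩ := h.lifts hg hy0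
      obtain ⟨l, rfl⟩ := QuotientGroup.mk_surjective v
      rw [← ex, hμ] at e
      obtain ⟨a, ha, e⟩ := fx x l e
      have ea : (x : G) * a * (x : G)⁻¹ = a := by
        rw [← mem_cent.1 (hx.ge ha).2, mul_inv_cancel_right]
      have cj : ∀ u w : G, (x : G) * (u * w) * (x : G)⁻¹ = x * u * (x : G)⁻¹ * (x * w * (x : G)⁻¹) :=
        fun u w => by group
      have e3 : (l : G) = l * a * (a * a) := by
        calc (l : G) = (x : G) ^ 3 * l * ((x : G) ^ 3)⁻¹ := by rw [x3]; group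
          _ = x * (x * (x * l * (x : G)⁻¹) * (x : G)⁻¹) * (x : G)⁻¹ := by rw [pow_three]; group
          _ = _ := by rw [e, cj l a, e, ea, cj (l * a) a, cj l a, e, ea, mul_assoc]
      rw [h.Zsq a ha, mul_one, ← e] at e3
      rw [QuotientGroup.eq_one_iff, mc, ← hx]
      exact mem_inf.2 ⟨l.2, mem_cent.2 (eq_mul_inv_iff_mul_eq.1 e3)⟩)
    (by
      obtain ⟨g, hg⟩ := kca_three
      obtain ⟨-, y, -, ey, -, -, -, hy⟩ := h.lifts hg hy0
      refine ⟨y0, fun e => ?_⟩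
      rw [← ey, hμ] at e
      have hZ : Z ≤ centralizer ({(y : G)} : Set G) := h.gen _ fun l hl m hm => by
        obtain ⟨a, ha, ea⟩ := fx y ⟨l, hl⟩ (by rw [e]; rfl)
        obtain ⟨b, hb, eb⟩ := fx y ⟨m, hm⟩ (by rw [e]; rfl)
        have zc : ∀ a ∈ Z, ∀ l ∈ L, l * a * l⁻¹ = a := fun a ha l hl => by
          rw [((h.mZ a).1 ha).2 l hl, mul_inv_cancel_right]
        refine mem_cent.2 (eq_mul_inv_iff_mul_eq.1 ?_)
        calc l * m * l⁻¹ * m⁻¹ = l * (a * (m * a⁻¹ * m⁻¹)) * m * (b * (l⁻¹ * b⁻¹ * l⁻¹⁻¹)) * l⁻¹ * m⁻¹ := by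
              rw [zc _ (inv_mem ha) m hm, zc _ (inv_mem hb) _ (inv_mem hl)]; group
          _ = l * a * (m * (a⁻¹ * b * a⁻¹⁻¹)) * (l * a)⁻¹ * (m * b)⁻¹ := by group
          _ = _ := by
              rw [zc b hb _ ((h.mZ _).1 (inv_mem ha)).1]
              simp only at ea eb
              rw [← ea, ← eb]; group
      have : Z = ⊥ := eq_bot_iff.2 (hy ▸ le_inf (fun a ha => ((h.mZ a).1 ha).1) hZ)
      have h8 := h.cardZ
      rw [this, card_bot] at h8
      omega)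
  have p0 : p 1 = 0 := by have := p2 1 1; rwa [mul_one, Nat.xor_self] at this
  exact ⟨{
    K := K, L := L, Z := Z
    π := fun g => if hg : g ∈ L then p ((⟨g, hg⟩ : L) : L ⧸ center L) else 0
    σ := fun g => if hg : g ∈ K then pm (φ ⟨g, hg⟩).1 else 0
    χ := fun g => if hg : g ∈ K then χ (φ ⟨g, hg⟩).2 else 0
    σh := (MonoidHom.fst _ _).comp φ
    σ_eq := fun k => dif_pos k.2
    hK := h.hK, L_le := h.le, conj_L := fun k hk l hl => h.conj hk hl, card_L := hLc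
    Z_le := fun a ha => ((h.mZ a).1 ha).1
    card_Z := h.cardZ
    Z_comm := fun a ha l hl => (((h.mZ a).1 ha).2 l hl).symm
    Z_sq := h.Zsq, Z_gen := h.gen
    π_lt := fun l => by
      split_ifs
      exacts [p1 _, by norm_num]
    π_mul := fun l hl l' hl' => by
      rw [dif_pos hl, dif_pos hl', dif_pos (mul_mem hl hl'), ← p2]; rfl
    π_zero := fun l hl => by
      rw [dif_pos hl, ← mc ⟨l, hl⟩, ← QuotientGroup.eq_one_iff]
      exact ⟨p3 _, fun e => by rw [e, p0]⟩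
    π_surj := fun v hv => by
      obtain ⟨w, e⟩ := p4 v hv
      obtain ⟨l, rfl⟩ := QuotientGroup.mk_surjective w
      exact ⟨l, l.2, by rw [dif_pos l.2, e]⟩
    χ_mem := fun k hk => by rw [dif_pos hk]; exact c1 _
    χ_mul := fun k hk k' hk' => by
      rw [dif_pos hk, dif_pos hk', dif_pos (mul_mem hk hk'), ← c2, ← Prod.snd_mul, ← map_mul]; rfl
    ker := fun k hk => by
      rw [dif_pos hk, dif_pos hk, c3, ← h.ker ⟨k, hk⟩, Prod.ext_iff]
      exact and_congr_left fun _ => ⟨fun e => by rw [e]; exact pm_one, pm_eq_one _⟩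
    surj := fun a ha b hb => by
      obtain ⟨g, rfl⟩ := pm_surj a ha
      obtain ⟨y, rfl⟩ := c4 b hb
      obtain ⟨k, e⟩ := h.surj (g, y)
      exact ⟨k, k.2, by rw [dif_pos k.2, e], by rw [dif_pos k.2, e]⟩
    act_L := fun k hk l hl => by
      rw [dif_pos hk, dif_pos hk, dif_pos hl, dif_pos (h.conj hk hl), ← c5, hμ]; rfl
    cent := fun k hk e => by
      rw [dif_pos hk, c3] at e
      exact h.cent (φ ⟨k, hk⟩).1 ⟨k, hk⟩ (Prod.ext rfl e) }⟩

end KcH

theorem exists_KC0 (K L Z : Subgroup G) (hLdef : L = (pCore 2 K).map K.subtype)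
    (hZdef : Z = (center L).map L.subtype) (hLs : IsSpecial 2 L) (hLc : Nat.card L = 2 ^ 15)
    (hZe : IsElementaryAbelian 2 Z) (hZc : Nat.card Z = 8) (hK : K = normalizer (Z : Set G))
    (hq : ∃ _ : (L.subgroupOf K).Normal, Nonempty (K ⧸ L.subgroupOf K ≃*
      Equiv.Perm (Fin 5) × Matrix.SpecialLinearGroup (Fin 3) (ZMod 2)))
    (hxy : ∀ x y : G, x ∈ K → y ∈ K → orderOf x = 3 → orderOf y = 7 → x * y = y * x →
      L ⊓ centralizer ({x} : Set G) = Z ∧ L ⊓ centralizer ({y} : Set G) = ⊥) : Nonempty (KC0 G) := by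
  obtain ⟨hN, ⟨e⟩⟩ := hq
  have h : KcH K L Z (e.toMonoidHom.comp (QuotientGroup.mk' _)) :=
    { le := hLdef ▸ map_subtype_le _
      surj := e.surjective.comp (QuotientGroup.mk'_surjective _)
      ker := fun k => by
        rw [MonoidHom.comp_apply, MulEquiv.coe_toMonoidHom, e.map_eq_one_iff, QuotientGroup.mk'_apply,
          QuotientGroup.eq_one_iff, mem_subgroupOf]
      mZ := fun a => by rw [hZdef, mem_center_map]
      sq := fun l hl => by
        have := Core.pow_mem_frattini_of_isPGroup hLs.1 ⟨l, hl⟩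
        rw [hLs.2.1, pow_two] at this
        rw [hZdef]
        exact ⟨_, this, rfl⟩
      Zsq := fun a ha => by rw [← pow_two]; exact hZe.2 a ha
      cardZ := hZc
      gen := fun P hP => by
        rw [hZdef, ← hLs.2.2, map_subtype_commutator, commutator_le]
        exact hP
      hK := hK, hxy := hxy }
  refine h.exists_KC0 hLc fun l hl l' hl' => ?_
  rw [hZdef, ← hLs.2.2, map_subtype_commutator]
  exact commutator_mem_commutator hl hl'

end CfsgLib.J4K
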