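import Cfsg.Agent.Lib.J4K.Api

/-!
# Elements of order 11
-/

set_option autoImplicit false
set_option Elab.async false

namespace CfsgLib.J4K

open Cfsg CfsgLib.J4T CfsgLib.ExtraTwo CfsgLib.LargeExtra Subgroup

section core

variable {Γ V : Type*} [Group Γ] [AddCommGroup V] [DistribMulAction Γ V]

/-- the vectors fixed by `g` -/
def fixV (V : Type*) [AddCommGroup V] [DistribMulAction Γ V] (g : Γ) : AddSubgroup V where
  carrier := {v | g • v = v}
  zero_mem' := smul_zero g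
  add_mem' := fun ha hb => by rw [Set.mem_ofPred_eq, smul_add, ha, hb]
  neg_mem' := fun ha => by rw [Set.mem_ofPred_eq, smul_neg, ha]

theorem mem_fixV {g : Γ} {v : V} : v ∈ fixV V g ↔ g • v = v := Iff.rfl

theorem card_modEq_fixV [Finite V] {p : ℕ} [Fact p.Prime] {u : Γ} (hu : u ^ p = 1) (A : AddSubgroup V)
    (hA : ∀ w ∈ A, u • w ∈ A) : Nat.card A ≡ Nat.card (A ⊓ fixV V u : AddSubgroup V) [MOD p] := by
  classical
  have := Fintype.ofFinite A
  let f : Function.End A := fun w => ⟨u • w, hA w w.2⟩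
  have hp : ∀ n (w : A), ((f ^ n) w : V) = u ^ n • (w : V) := fun n => by
    induction n with
    | zero => intro w; rw [pow_zero, pow_zero, one_smul]; rfl
    | succ n ih => intro w; rw [pow_succ, pow_succ, mul_smul]; exact ih (f w)
  have h1 := Equiv.Perm.card_fixedPoints_modEq (f := f) (p := p) (n := 1) (funext fun w => Subtype.ext (by
    rw [hp, pow_one, hu, one_smul]; rfl))
  rw [← Nat.card_eq_fintype_card, ← Nat.card_eq_fintype_card] at h1
  let ε : Function.fixedPoints f ≃ (A ⊓ fixV V u : AddSubgroup V) :=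
    ⟨fun w => ⟨w.1, w.1.2, congrArg Subtype.val w.2⟩, fun w => ⟨⟨w, w.2.1⟩, Subtype.ext w.2.2⟩,
      fun _ => rfl, fun _ => rfl⟩
  rwa [Nat.card_congr ε] at h1

theorem odd_core (hV : Nat.card V = 2 ^ 12) (h2 : ∀ v : V, v + v = 0)
    (hf : ∀ g : Γ, (∀ v : V, g • v = v) → g = 1) {r s t : Γ} (r3 : r ^ 3 = 1) (fpf : ∀ v : V, r • v = v → v = 0)
    (s11 : s ^ 11 = 1) (s1 : s ≠ 1) (t2 : t * t = 1) (t1 : t ≠ 1) (rs : s * r = r * s) (rt : t * r = r * t)
    (ts : t * s = s * t ∨ t * s = s⁻¹ * t) : False := by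
  classical
  have : Finite V := Nat.finite_of_card_ne_zero (by rw [hV]; norm_num)
  have : Fact (Nat.Prime 11) := ⟨by norm_num⟩
  have : Fact (Nat.Prime 3) := ⟨by norm_num⟩
  have pw : ∀ A : AddSubgroup V, ∃ k ≤ 12, Nat.card A = 2 ^ k := fun A =>
    (Nat.dvd_prime_pow Nat.prime_two).1 (hV ▸ A.card_addSubgroup_dvd_card)
  have full : ∀ g : Γ, Nat.card (fixV V g) = 2 ^ 12 → g = 1 := fun g h =>
    hf g fun w => ((AddSubgroup.eq_top_of_card_eq _ (h.trans hV.symm)) ▸ AddSubgroup.mem_top w : w ∈ fixV V g)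
  have c3 : ∀ A : AddSubgroup V, (∀ w ∈ A, r • w ∈ A) → Nat.card A ≡ 1 [MOD 3] := fun A hA => by
    have h := card_modEq_fixV r3 A hA
    rwa [show A ⊓ fixV V r = ⊥ from eq_bot_iff.2 fun w hw => fpf w hw.2, AddSubgroup.card_bot] at h
  have inv : ∀ {g h : Γ}, g * h = h * g → ∀ w ∈ fixV V g, h • w ∈ fixV V g := fun {g h} e w hw => by
    rw [mem_fixV, ← mul_smul, e, mul_smul, mem_fixV.1 hw]
  have sinv : ∀ w : V, s⁻¹ • w = w ↔ s • w = w := fun w => by rw [inv_smul_eq_iff, eq_comm]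
  have hC : Nat.card (fixV V s) = 4 := by
    obtain ⟨j, hj, e⟩ := pw (fixV V s)
    have c := card_modEq_fixV (V := V) s11 ⊤ fun _ _ => trivial
    rw [top_inf_eq, AddSubgroup.card_top, hV, e] at c
    have : j ≠ 12 := fun h => s1 (full s (h ▸ e))
    rw [e]
    interval_cases j <;> simp [Nat.ModEq] at c this ⊢
  have tC : ∀ w ∈ fixV V s, t • w ∈ fixV V s := fun w hw => by
    rcases ts with e | e
    · exact inv e.symm w hw
    · rw [mem_fixV, ← sinv, ← mul_smul, ← e, mul_smul, mem_fixV.1 hw]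
  have neg : ∀ v w : V, v + w = 0 → v = w := fun v w h => by
    rw [← add_zero v, ← h2 w, ← add_assoc, h, zero_add]
  let φ : V →+ V := AddMonoidHom.id V + DistribSMul.toAddMonoidHom V t
  have hφ : ∀ v, φ v = v + t • v := fun v => rfl
  have φF : ∀ v, φ v ∈ fixV V t := fun v => by rw [mem_fixV, hφ, smul_add, ← mul_smul, t2, one_smul, add_comm]
  have kφ : φ.ker = fixV V t := by
    ext v
    rw [AddMonoidHom.mem_ker, hφ, mem_fixV]
    exact ⟨fun h => (neg _ _ h).symm, fun h => by rw [h, h2]⟩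
  obtain ⟨c, hc, c0⟩ : ∃ c ∈ fixV V s, c ≠ 0 := by
    by_contra! h
    rw [show fixV V s = ⊥ from eq_bot_iff.2 h, AddSubgroup.card_bot] at hC
    omega
  have CF : fixV V s ≤ fixV V t := by
    have h1 := c3 (fixV V s ⊓ fixV V t) fun w hw => ⟨inv rs w hw.1, inv rt w hw.2⟩
    have h3 := AddSubgroup.card_le_of_le (inf_le_left : fixV V s ⊓ fixV V t ≤ _)
    obtain ⟨j, hj, e⟩ := pw (fixV V s ⊓ fixV V t)
    have h4 : j ≠ 0 := fun h => by
      rw [h, pow_zero, AddSubgroup.card_eq_one] at e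
      have h5 : φ c = 0 := (e ▸ ⟨add_mem hc (tC c hc), φF c⟩ : φ c ∈ (⊥ : AddSubgroup V))
      exact c0 (e ▸ ⟨hc, kφ ▸ h5⟩ : c ∈ (⊥ : AddSubgroup V))
    refine inf_eq_left.1 (AddSubgroup.eq_of_le_of_card_ge inf_le_left ?_)
    rw [e] at h1 h3 ⊢
    rw [hC] at h3 ⊢
    interval_cases j <;> simp [Nat.ModEq] at h1 h3 h4 ⊢
  obtain ⟨k, hk, e⟩ := pw (fixV V t)
  have k12 : k ≠ 12 := fun h => t1 (full t (h ▸ e))
  have k3 := c3 _ (inv rt)
  have hr : Nat.card φ.range * 2 ^ k = 2 ^ 12 := by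
    rw [← AddSubgroup.index_ker, kφ, ← e, ← hV, AddSubgroup.index_mul_card]
  have hle : φ.range ≤ fixV V t := by rintro _ ⟨v, rfl⟩; exact φF v
  have k6 := AddSubgroup.card_le_of_le hle
  rw [e] at k3 k6
  have k6' : 2 ^ 12 ≤ 2 ^ k * 2 ^ k := hr ▸ Nat.mul_le_mul_right _ k6
  rcases ts with ts | ts
  · have h1 := card_modEq_fixV s11 _ (inv ts)
    rw [inf_eq_right.2 CF, e, hC] at h1
    interval_cases k <;> simp [Nat.ModEq] at h1 k12 k3 k6'
  · have s2 : ∀ w : V, s • s • w = w → s • w = w := fun w h => by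
      have h1 : ∀ n, (s ^ 2) ^ n • w = w := fun n => by
        induction n with
        | zero => rw [pow_zero, one_smul]
        | succ n ih => rw [pow_succ, mul_smul, pow_two, mul_smul, h, ← pow_two, ih]
      have h3 := h1 6
      rwa [← pow_mul, show 2 * 6 = 11 + 1 from rfl, pow_succ, s11, one_mul] at h3
    let σ : V →+ V := DistribSMul.toAddMonoidHom V s
    have h1 : fixV V t ⊓ (fixV V t).comap σ ≤ fixV V s := fun w hw => s2 w (by
      have h3 : t • s • w = s • w := hw.2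
      rw [← mul_smul, ts, mul_smul, mem_fixV.1 hw.1, inv_smul_eq_iff] at h3
      exact h3.symm)
    have h3 : (fixV V t ⊓ (fixV V t).comap σ).index ≤ _ := AddSubgroup.index_inf_le
    rw [AddSubgroup.index_comap_of_surjective _ (MulAction.surjective s)] at h3
    have h4 := AddSubgroup.card_le_of_le h1
    have h5 := (fixV V t ⊓ (fixV V t).comap σ).index_mul_card
    have h6 := (fixV V t).index_mul_card
    rw [hC] at h4
    rw [e, hV] at h6
    rw [hV] at h5
    have h7 : 2 ^ 12 ≤ (fixV V t).index * (fixV V t).index * 4 := h5 ▸ Nat.mul_le_mul h3 h4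
    have h8 : k = 6 := by
      generalize (fixV V t).index = i at h6 h7
      interval_cases k <;> simp [Nat.ModEq] at k12 k3 k6' ⊢
      · obtain rfl : i = 16 := by omega
        omega
      · obtain rfl : i = 4 := by omega
        omega
    subst h8
    obtain ⟨v, hv⟩ : c ∈ φ.range := AddSubgroup.eq_of_le_of_card_ge hle (by omega) ▸ CF hc
    let N : V → V := fun v => ∑ i ∈ Finset.range 11, s ^ i • v
    have N1 : ∀ v, N (s • v) = N v := fun v => by
      have a := Finset.sum_range_succ (fun i => s ^ i • v) 11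
      rw [Finset.sum_range_succ', s11, pow_zero] at a
      simpa only [pow_succ, mul_smul] using add_right_cancel a
    have N2 : ∀ v, s • N v = N v := fun v => by
      rw [Finset.smul_sum, ← N1 v]
      exact Finset.sum_congr rfl fun i _ => by rw [← mul_smul, ← mul_smul, ← pow_succ, ← pow_succ']
    have N3 : N c = c := by
      have h9 : ∀ i, s ^ i • c = c := fun i => by
        induction i with
        | zero => rw [pow_zero, one_smul]
        | succ n ih => rw [pow_succ, mul_smul, mem_fixV.1 hc, ih]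
      simp only [N, h9, Finset.sum_const, Finset.card_range]
      rw [show 11 = 5 * 2 + 1 from rfl, succ_nsmul, mul_nsmul', two_nsmul, h2, smul_zero, zero_add]
    have N4 : t • N v = N (t • v) := by
      have h9 : ∀ i, t * s ^ i = s⁻¹ ^ i * t := fun i => by
        induction i with
        | zero => simp
        | succ n ih => rw [pow_succ, ← mul_assoc, ih, mul_assoc, ts, pow_succ, mul_assoc]
      rw [← N1 (t • v), Finset.smul_sum, ← Finset.sum_range_reflect]
      refine Finset.sum_congr rfl fun i hi => ?_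
      rw [← mul_smul, h9, mul_smul, ← mul_smul (s ^ i)]
      congr 1
      rw [inv_pow, inv_eq_iff_mul_eq_one, ← pow_succ, ← pow_add, ← s11]
      congr 1
      have := Finset.mem_range.1 hi
      omega
    apply c0
    rw [← N3, ← hv, hφ, show N (v + t • v) = N v + N (t • v) by simp only [N, smul_add, Finset.sum_add_distrib],
      ← N4, mem_fixV.1 (CF (N2 v)), h2]

end core

variable {G : Type*} [Group G] [Finite G]

theorem odd11 {E : Subgroup G} {z ρ s t : G} (pre : Pre E z) (hc : Nat.card E = 8192) (hρ : ρ * z = z * ρ)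
    (hs : s * z = z * s) (ht : t * z = z * t) (h3 : ρ ^ 3 = 1)
    (fpf : ∀ e ∈ E, (ρ * e * ρ⁻¹ = e ∨ ρ * e * ρ⁻¹ = e * z) → e = 1 ∨ e = z)
    (s11 : s ^ 11 ∈ E) (s1 : s ∉ E) (t2 : t * t ∈ E) (t1 : t ∉ E) (cs : s * ρ * s⁻¹ * ρ⁻¹ ∈ E)
    (ct : t * ρ * t⁻¹ * ρ⁻¹ ∈ E) (ts : t * s * t⁻¹ * s⁻¹ ∈ E ∨ t * s * t⁻¹ * s ∈ E) : False := by
  obtain ⟨n, q, π, c⟩ := pre.es.exists_coord
  obtain ⟨α, a1, -, a2⟩ := pre.exists_act c
  have hV : Nat.card (Fin n → ZMod 2) = 2 ^ 12 := by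
    have := c.card_eq
    rw [hc] at this
    omega
  let r' : centralizer ({z} : Set G) := ⟨ρ, mem_cent.2 hρ⟩
  let s' : centralizer ({z} : Set G) := ⟨s, mem_cent.2 hs⟩
  let t' : centralizer ({z} : Set G) := ⟨t, mem_cent.2 ht⟩
  have cm : ∀ x y : centralizer ({z} : Set G), (x : G) * y * (x : G)⁻¹ * (y : G)⁻¹ ∈ E → α x * α y = α y * α x :=
    fun x y h => by
      have := (a2 (x * y * x⁻¹ * y⁻¹)).2 h
      rwa [map_mul, map_mul, map_mul, map_inv, map_inv, mul_inv_eq_one, mul_inv_eq_iff_eq_mul] at this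
  refine odd_core (Γ := (Fin n → ZMod 2) ≃ₗ[ZMod 2] (Fin n → ZMod 2)) hV (fun v => add_eq_zero_zmod2.2 rfl)
    (fun g hg => LinearEquiv.ext hg) (r := α r') (s := α s') (t := α t') ?_ ?_ ?_ (fun h => s1 ((a2 s').1 h)) ?_
    (fun h => t1 ((a2 t').1 h)) (cm s' r' cs) (cm t' r' ct) (ts.imp (cm t' s') fun h => ?_)
  · rw [← map_pow, show r' ^ 3 = 1 from Subtype.ext h3, map_one]
  · intro v hv
    obtain ⟨e, he, rfl⟩ := c.surj v
    exact (c.ker e he).2 (fpf e he ((c.eq_iff he (pre.norm ρ hρ e he)).1 (hv.symm.trans (a1 r' e he))))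
  · rw [← map_pow]; exact (a2 _).2 s11
  · rw [← map_mul]; exact (a2 _).2 t2
  · have := (a2 (t' * s' * t'⁻¹ * s')).2 h
    rwa [map_mul, map_mul, map_mul, map_inv, mul_eq_one_iff_eq_inv, mul_inv_eq_iff_eq_mul] at this

theorem odd_relIndex {E A R : Subgroup G} {z ρ : G} (pre : Pre E z) (hc : Nat.card E = 8192)
    (hρ : ρ * z = z * ρ) (h3 : ρ ^ 3 = 1)
    (fpf : ∀ e ∈ E, (ρ * e * ρ⁻¹ = e ∨ ρ * e * ρ⁻¹ = e * z) → e = 1 ∨ e = z)
    (hA : ∀ h ∈ A, h * z = z * h ∧ h * ρ * h⁻¹ * ρ⁻¹ ∈ E) (hER : E ≤ R) (hRA : R ≤ A)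
    (hn : ∀ h ∈ A, ∀ r ∈ R, h * r * h⁻¹ ∈ R) (h11 : 11 ∣ Nat.card R) (h121 : ¬ 121 ∣ Nat.card A) :
    Odd (R.relIndex A) := by
  classical
  have : Fact (Nat.Prime 11) := ⟨by norm_num⟩
  have : Fact (Nat.Prime 2) := ⟨Nat.prime_two⟩
  have hN : (R.subgroupOf A).Normal := ⟨fun y hy x => hn x x.2 y hy⟩
  obtain ⟨s0, hs0⟩ := exists_prime_orderOf_dvd_card' (G := R) 11 h11
  let s : A := ⟨s0, hRA s0.2⟩
  have hs : orderOf s = 11 := by rw [← orderOf_coe, ← hs0, ← orderOf_coe s0]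
  obtain ⟨P, hP⟩ := (IsPGroup.of_card (G := zpowers s) (p := 11) (n := 1)
    (by rw [Nat.card_zpowers, hs, pow_one])).exists_le_sylow
  have hPs : (P : Subgroup A) = zpowers s := by
    refine (eq_of_le_of_card_ge hP ?_).symm
    obtain ⟨k, hk⟩ := IsPGroup.iff_card.1 P.2
    have h1 : 11 ^ k ∣ Nat.card A := hk ▸ card_subgroup_dvd_card _
    have h2 : k ≤ 1 := by
      by_contra h
      exact h121 ((pow_dvd_pow 11 (by omega : 2 ≤ k)).trans h1)
    rw [Nat.card_zpowers, hs]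
    exact hk.le.trans (Nat.pow_le_pow_right (by norm_num) h2)
  have hF := P.normalizer_sup_eq_top' (N := R.subgroupOf A) (hPs ▸ zpowers_le.2 s0.2)
  rw [← Nat.not_even_iff_odd, even_iff_two_dvd]
  intro h2
  rw [relIndex, ← relIndex_top_right, ← hF, relIndex_sup_right] at h2
  obtain ⟨T⟩ : Nonempty (Sylow 2 (normalizer ((P : Subgroup A) : Set A))) := inferInstance
  obtain ⟨t0, ht0, t1⟩ : ∃ t0 : normalizer ((P : Subgroup A) : Set A), t0 ∈ T.1 ∧ ((t0 : A) : G) ∉ R := by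
    by_contra! h
    exact T.not_dvd_index (h2.trans (index_dvd_of_le fun x hx => h x hx))
  obtain ⟨m, hm⟩ := T.2 ⟨t0, ht0⟩
  have hex : ∃ j, ((t0 : A) : G) ^ 2 ^ j ∈ E := ⟨m, by
    rw [show ((t0 : A) : G) ^ 2 ^ m = 1 from congrArg (fun x : T => ((x.1 : A) : G)) hm]; exact one_mem _⟩
  obtain ⟨j, hj⟩ : ∃ j, Nat.find hex = j + 1 := Nat.exists_eq_succ_of_ne_zero fun h => by
    have := Nat.find_spec hex
    rw [h, pow_zero, pow_one] at this
    exact t1 (hER this)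
  have h4 := Nat.find_spec hex
  have h5 := Nat.find_min hex (m := j) (by omega)
  rw [hj, pow_succ, pow_mul, pow_two] at h4
  obtain ⟨t, ht, et⟩ : ∃ t : A, t ∈ normalizer ((P : Subgroup A) : Set A) ∧ (t : G) = ((t0 : A) : G) ^ 2 ^ j :=
    ⟨(t0 ^ 2 ^ j : normalizer ((P : Subgroup A) : Set A)), (t0 ^ 2 ^ j).2, rfl⟩
  rw [← et] at h4 h5
  have h6 : t * s * t⁻¹ ∈ zpowers s := hPs ▸ (mem_normalizer_iff.1 ht s).1 (hP (mem_zpowers s))
  obtain ⟨k, hk, ek⟩ := Finset.mem_image.1 (mem_zpowers_iff_mem_range_orderOf.1 h6)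
  rw [hs, Finset.mem_range] at hk
  have s11 : s ^ 11 = 1 := hs ▸ pow_orderOf_eq_one s
  have hE : ∀ i, (s : G) ^ i ∈ E → 11 ∣ i * 8192 := fun i hi => by
    rw [← hs, orderOf_dvd_iff_pow_eq_one, pow_mul, ← hc]
    exact Subtype.ext (congrArg (fun x : E => (x : G)) (pow_card_eq_one' (x := (⟨_, hi⟩ : E))))
  have si : s⁻¹ = s ^ 10 := by rw [inv_eq_iff_mul_eq_one, ← pow_succ', s11]
  have h7 : (s : G) ^ (k * k + 10) ∈ E := by
    have h8 : s ^ (k * k + 10) = t * t * (s * (t * t)⁻¹ * s⁻¹) := by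
      rw [pow_add, ← si, pow_mul, ek, conj_pow, ek]; group
    rw [← coe_pow, h8]
    exact mul_mem h4 (pre.norm s (hA s s.2).1 _ (inv_mem h4))
  have h9 := hE _ h7
  refine odd11 pre hc hρ (hA s s.2).1 (hA t t.2).1 h3 fpf (by rw [← coe_pow, s11]; exact one_mem _)
    (fun h => absurd (hE 1 (by rwa [pow_one])) (by norm_num)) h4 h5 (hA s s.2).2 (hA t t.2).2 ?_
  have ek' : (t : G) * s * (t : G)⁻¹ = s ^ k := (congrArg Subtype.val ek).symm
  rw [ek']
  have : k = 1 ∨ k = 10 := by interval_cases k <;> omega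
  rcases this with rfl | rfl
  · left; rw [pow_one, mul_inv_cancel]; exact one_mem _
  · right; rw [← pow_succ, ← coe_pow, s11]; exact one_mem _

end CfsgLib.J4K
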