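import Cfsg.Agent.Lib.J4K.Api
import Cfsg.Agent.Lib.Tech.SylowIn
import Cfsg.Agent.Lib.Tech.Invol

/-!
# Two conjugates of `L` that normalise the centre of each other
-/

set_option autoImplicit false
set_option Elab.async false

namespace CfsgLib.J4K

open Cfsg CfsgLib.J4T CfsgLib.ExtraTwo CfsgLib.LargeExtra Subgroup

/-- test vectors -/
def tvL : List ℕ := [0, 3084, 2429, 3573, 364, 1918, 1161, 3219, 4020, 568, 2494, 2039, 1385, 487]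

theorem tvL_lt : ∀ v ∈ tvL, v < 4096 := by decide +kernel

theorem many_values : ∀ a ∈ s5L, mm4 a a = 33825 → ∀ b ∈ g3L, mm3 b b = 273 →
    (a = 33825 ∧ b = 273) ∨ 8 < (tvL.map fun v => act a b v ^^^ v).toFinset.card := by decide +kernel

theorem fix_nib : ∀ u < 256, ∀ a ∈ s5L, (act a 281 (16 * u) % 16 = 0 → u % 16 = 0) ∧
    (act a 337 (16 * u) % 16 = 0 → u / 16 = 0) ∧ (act a 345 (16 * u) % 16 = 0 → u % 16 = u / 16) :=
  ball (by decide +kernel)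

/-- common fixed vectors of two elements over different transvections with centre `w0` -/
theorem fix_two {a a' b b' : ℕ} (ha : a ∈ s5L) (ha' : a' ∈ s5L) (hb : b ∈ c4L) (hb' : b' ∈ c4L) (h1 : b ≠ 273)
    (h2 : b' ≠ 273) (h3 : b ≠ b') {v w : ℕ} (hv : v < 4096) (hw : w < 4096) (v1 : act a b v = v)
    (v2 : act a' b' v = v) (w1 : act a b w = w) (w2 : act a' b' w = w) (e : v % 16 = w % 16) : v = w := by
  have e0 : (v ^^^ w) % 16 = 0 := by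
    rw [show (16 : ℕ) = 2 ^ 4 from rfl, Nat.xor_mod_two_pow]
    exact Nat.xor_eq_zero_iff.2 e
  have hu := xor_lt' hv hw
  have e1 : act a b (v ^^^ w) % 16 = 0 := by rw [act_xor, v1, w1, e0]
  have e2 : act a' b' (v ^^^ w) % 16 = 0 := by rw [act_xor, v2, w2, e0]
  rw [← Nat.xor_eq_zero_iff]
  obtain ⟨u, e3⟩ : ∃ u, v ^^^ w = 16 * u := ⟨(v ^^^ w) / 16, by omega⟩
  rw [e3] at e1 e2 hu ⊢
  have k1 := fix_nib u (by omega) a ha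
  have k2 := fix_nib u (by omega) a' ha'
  simp only [c4L, List.mem_cons, List.not_mem_nil, or_false] at hb hb'
  rcases hb with rfl | rfl | rfl | rfl <;> rcases hb' with rfl | rfl | rfl | rfl <;> omega

variable {G : Type*} [Group G]

theorem card_le_finset [Finite G] (A : Subgroup G) (s : Finset G) (h : ∀ x ∈ A, x ∈ s) : Nat.card A ≤ s.card := by
  simpa using card_le_of_fib A ⊥ id s h fun x _ y _ e => by rw [mem_bot, inv_mul_eq_one]; exact e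

namespace KC

variable (c : KC G)

theorem Z_conj {k x : G} (hk : k ∈ c.K) (hx : x ∈ c.Z) : k * x * k⁻¹ ∈ c.Z := by
  obtain ⟨t, ht, rfl⟩ := (c.mem_Z x).1 hx
  rw [c.act_Z k hk t ht]
  exact c.ζ_mem_Z (cof_lt _ _)

theorem Z_sq {x : G} (hx : x ∈ c.Z) : x * x = 1 := by
  obtain ⟨t, ht, rfl⟩ := (c.mem_Z x).1 hx
  exact c.ζ_sq ht

theorem Z_comm {l x : G} (hl : l ∈ c.L) (hx : x ∈ c.Z) : l * x = x * l := by
  obtain ⟨t, ht, rfl⟩ := (c.mem_Z x).1 hx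
  exact c.ζ_comm hl ht

theorem comm_cj {g u x : G} (hu : u ∈ Tech.cj g c.K) (hx : x ∈ Tech.cj g c.Z) :
    x * u * x⁻¹ * u⁻¹ ∈ Tech.cj g c.Z := by
  rw [Tech.mem_cj] at *
  convert mul_mem hx (c.Z_conj hu (inv_mem hx)) using 1
  group

theorem σ_sq {y : G} (hy : y ∈ c.K) (h : y * y = 1) : mm4 (c.σ y) (c.σ y) = 33825 := by
  rw [← c.σ_mul hy hy, h, c.σ_one]

theorem χ_sq {y : G} (hy : y ∈ c.K) (h : y * y = 1) : mm3 (c.χ y) (c.χ y) = 273 := by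
  rw [← c.χ_mul _ hy _ hy, h, c.χ_one]

/-- the elements of `L` centralised by `k` modulo `Z` -/
def fixSub (k : G) : Subgroup G where
  carrier := {l | l ∈ c.L ∧ act (c.σ k) (c.χ k) (c.π l) = c.π l}
  one_mem' := ⟨one_mem _, by rw [c.π_one, act_zero]⟩
  mul_mem' := fun {a b} ha hb => ⟨mul_mem ha.1 hb.1, by rw [c.π_mul a ha.1 b hb.1, act_xor, ha.2, hb.2]⟩
  inv_mem' := fun {a} ha => ⟨inv_mem ha.1, by rw [c.π_inv ha.1, ha.2]⟩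

theorem mem_fixSub {k l : G} : l ∈ c.fixSub k ↔ l ∈ c.L ∧ act (c.σ k) (c.χ k) (c.π l) = c.π l := Iff.rfl

theorem mem_fixSub_of_comm {k l : G} (hk : k ∈ c.K) (hl : l ∈ c.L) (e : k * l = l * k) : l ∈ c.fixSub k :=
  ⟨hl, by rw [← c.act_L k hk l hl, e, mul_inv_cancel_right]⟩

theorem inv_mul_mem_fixSub {k l l' : G} (hl : l ∈ c.L) (hl' : l' ∈ c.L)
    (e : act (c.σ k) (c.χ k) (c.π l) ^^^ c.π l = act (c.σ k) (c.χ k) (c.π l') ^^^ c.π l') :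
    l⁻¹ * l' ∈ c.fixSub k := by
  refine ⟨mul_mem (inv_mem hl) hl', ?_⟩
  rw [c.π_mul _ (inv_mem hl) _ hl', c.π_inv hl, act_xor, ← Nat.xor_eq_zero_iff]
  calc _ = (act (c.σ k) (c.χ k) (c.π l) ^^^ c.π l) ^^^ (act (c.σ k) (c.χ k) (c.π l') ^^^ c.π l') := by ac_rfl
    _ = 0 := Nat.xor_eq_zero_iff.2 e

variable [Finite G]

theorem card_fix_two {a a' : G} (ha : a ∈ c.K) (ha' : a' ∈ c.K) (hb : c.χ a ∈ c4L) (hb' : c.χ a' ∈ c4L)
    (h1 : c.χ a ≠ 273) (h2 : c.χ a' ≠ 273) (h3 : c.χ a ≠ c.χ a') {X : Subgroup G} (x1 : X ≤ c.fixSub a)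
    (x2 : X ≤ c.fixSub a') : Nat.card X ≤ 16 * Nat.card (X ⊓ c.Z : Subgroup G) := by
  have := card_le_of_fib X c.Z (fun l => c.π l % 16) (Finset.range 16)
    (fun l _ => Finset.mem_range.2 (Nat.mod_lt _ (by norm_num))) fun l hl l' hl' e =>
      (c.π_eq_iff (x1 hl).1 (x1 hl').1).1 (fix_two (c.σ_mem ha) (c.σ_mem ha') hb hb' h1 h2 h3 (c.π_lt _)
        (c.π_lt _) (x1 hl).2 (x2 hl).2 (x1 hl').2 (x2 hl').2 e)
  rwa [Finset.card_range] at this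

omit [Finite G] in
theorem conj_Z_mem_L {g : G} (h1 : ∀ l ∈ c.L, g⁻¹ * l * g ∈ c.K) (h2 : ∀ l ∈ c.L, g * l * g⁻¹ ∈ c.K)
    {x : G} (hx : x ∈ c.Z) : g * x * g⁻¹ ∈ c.L := by
  have hy := h2 x (c.Z_le_L hx)
  have hyy : g * x * g⁻¹ * (g * x * g⁻¹) = 1 := by rw [conj_mul, c.Z_sq hx, mul_one, mul_inv_cancel]
  refine (c.ker _ hy).2 ((many_values _ (c.σ_mem hy) (c.σ_sq hy hyy) _ (c.χ_mem _ hy)
    (c.χ_sq hy hyy)).resolve_right (not_lt.2 ?_))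
  refine (Finset.card_le_card (t := (Finset.range 8).image fun t => c.π (g * c.ζ t * g⁻¹)) fun u hu => ?_).trans
    (Finset.card_image_le.trans (Finset.card_range 8).le)
  obtain ⟨v, hv, rfl⟩ := List.mem_map.1 (List.mem_toFinset.1 hu)
  obtain ⟨l, hl, rfl⟩ := c.π_surj v (tvL_lt v hv)
  obtain ⟨t, ht, e⟩ := (c.mem_Z _).1 (Tech.mem_cj.1 (c.comm_cj (Tech.mem_cj.2 (h1 l hl)) (Tech.conj_mem_cj.2 hx)))
  refine Finset.mem_image.2 ⟨t, Finset.mem_range.2 ht, ?_⟩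
  rw [← c.π_comm hy hl, ← e]
  congr 1
  group

omit [Finite G] in
theorem exists_two {y : G} (hy : y ∈ c.L) (hZ : y ∉ c.Z) : ∃ l ∈ c.L, ∃ l' ∈ c.L, ∃ r < 8, ∃ s < 8,
    r ≠ 0 ∧ s ≠ 0 ∧ r ≠ s ∧ y * l * y⁻¹ * l⁻¹ = c.ζ r ∧ y * l' * y⁻¹ * l'⁻¹ = c.ζ s := by
  obtain ⟨i, hi, j, hj, e1, e2, e3⟩ := cm_two _ (c.π_lt y) fun e => hZ ((c.π_zero y hy).1 e)
  obtain ⟨l, hl, e⟩ := c.π_surj (2 ^ i) (Nat.pow_lt_pow_right (n := 12) (by norm_num) hi)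
  obtain ⟨l', hl', e'⟩ := c.π_surj (2 ^ j) (Nat.pow_lt_pow_right (n := 12) (by norm_num) hj)
  exact ⟨l, hl, l', hl', _, cm_lt _ _, _, cm_lt _ _, e1, e2, e3, by rw [c.commutator_eq hy hl, e, cm_comm],
    by rw [c.commutator_eq hy hl', e', cm_comm]⟩

theorem pair_core {g : G} (h1 : ∀ l ∈ c.L, g⁻¹ * l * g ∈ c.K) (h2 : ∀ l ∈ c.L, g * l * g⁻¹ ∈ c.K)
    (e2 : g * c.ζ 2 * g⁻¹ = c.ζ 2) (e4 : g * c.ζ 4 * g⁻¹ = c.ζ 4) : g ∈ c.K := by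
  classical
  by_contra hg
  have hAK : Tech.cj g c.L ≤ c.K := Tech.cj_le_iff.2 h2
  have hc : ∀ k ∈ Tech.cj g c.L, c.χ k ∈ c4L := fun k hk => by
    obtain ⟨l, hl, rfl⟩ : ∃ l ∈ c.L, k = g * l * g⁻¹ := ⟨_, Tech.mem_cj.1 hk, by group⟩
    refine c.χ_c4 (h2 l hl) ?_ ?_
    · rw [← e2, conj_mul, conj_mul, c.ζ_comm hl (by norm_num)]
    · rw [← e4, conj_mul, conj_mul, c.ζ_comm hl (by norm_num)]
  have k1 := c.card_two_le hAK (Tech.isPGroup_cj g c.isPGroup_L) hc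
  rw [Tech.card_cj, c.card_L] at k1
  have hy : g⁻¹ * c.ζ 1 * g⁻¹⁻¹ ∈ c.L := c.conj_Z_mem_L (by simpa using h2) (by simpa using h1)
    (c.ζ_mem_Z (by norm_num))
  obtain ⟨l, hl, l', hl', r, hr, s, hs, r0, s0, rs, f1, f2⟩ := c.exists_two hy fun hZ => hg (by
    refine inv_mem_iff.1 (c.mem_K_of_basis hZ ?_ ?_)
    · rw [← e2]; convert c.ζ_mem_Z (t := 2) (by norm_num) using 1; group
    · rw [← e4]; convert c.ζ_mem_Z (t := 4) (by norm_num) using 1; group)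
  have k2 : ∀ {l : G} {r : ℕ}, l ∈ c.L →
      g⁻¹ * c.ζ 1 * g⁻¹⁻¹ * l * (g⁻¹ * c.ζ 1 * g⁻¹⁻¹)⁻¹ * l⁻¹ = c.ζ r →
      g * c.ζ r * g⁻¹ = c.ζ 1 * (c.ζ (cof (c.χ (g * l * g⁻¹)) 1))⁻¹ := fun hl e => by
    rw [← c.act_Z _ (h2 _ hl) 1 (by norm_num), ← e]; group
  have k3 : ∀ {l : G} {r : ℕ}, l ∈ c.L → r < 8 → r ≠ 0 →
      g⁻¹ * c.ζ 1 * g⁻¹⁻¹ * l * (g⁻¹ * c.ζ 1 * g⁻¹⁻¹)⁻¹ * l⁻¹ = c.ζ r → c.χ (g * l * g⁻¹) ≠ 273 :=
    fun hl hr r0 e e' => by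
      have := k2 hl e
      rw [e', cof_one 1 (by norm_num), mul_inv_cancel, conj_eq_one_iff] at this
      exact c.ζ_ne_one hr r0 this
  have k4 := c.card_fix_two (h2 l hl) (h2 l' hl') (hc _ (Tech.conj_mem_cj.2 hl)) (hc _ (Tech.conj_mem_cj.2 hl'))
    (k3 hl hr r0 f1) (k3 hl' hs s0 f2) (fun e => rs (c.ζ_inj hr hs (by
      have := k2 hl f1
      rw [e, ← k2 hl' f2] at this
      exact mul_left_cancel (mul_right_cancel this)))) inf_le_left inf_le_right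
  have k5 := card_le_of_le (inf_le_right : c.fixSub (g * l * g⁻¹) ⊓ c.fixSub (g * l' * g⁻¹) ⊓ c.Z ≤ c.Z)
  rw [c.card_Z] at k5
  have hL : ∀ t < 8, g * c.ζ t * g⁻¹ ∈ c.L := fun t ht => c.conj_Z_mem_L h1 h2 (c.ζ_mem_Z ht)
  have k6 : ∀ t < 2 ^ 3, c.π (g * c.ζ t * g⁻¹) ∈ ({0, c.π (g * c.ζ 1 * g⁻¹)} : Finset ℕ) := by
    simp only [Finset.mem_insert, Finset.mem_singleton]
    refine bits_ind' 3 (Or.inl (by rw [c.ζ_zero, mul_one, mul_inv_cancel, c.π_one])) (fun i hi => ?_)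
      fun t ht u hu a b => ?_
    · interval_cases i
      · exact Or.inr rfl
      · exact Or.inl (e2.symm ▸ c.π_ζ (by norm_num))
      · exact Or.inl (e4.symm ▸ c.π_ζ (by norm_num))
    · rw [← c.ζ_mul t ht u hu, ← conj_mul, c.π_mul _ (hL t ht) _ (hL u hu)]
      rcases a with a | a <;> rcases b with b | b <;> simp [a, b]
  have k7 : ∀ {l x : G}, l ∈ c.L → x ∈ Tech.cj g c.L ⊓ c.L →
      act (c.σ (g * l * g⁻¹)) (c.χ (g * l * g⁻¹)) (c.π x) ^^^ c.π x ∈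
        ({0, c.π (g * c.ζ 1 * g⁻¹)} : Finset ℕ) := fun {l x} hl hx => by
    rw [← c.π_comm (h2 l hl) hx.2]
    convert k6 _ (cm_lt (c.π l) (c.π (g⁻¹ * x * g))) using 2
    rw [← c.commutator_eq hl (Tech.mem_cj.1 hx.1)]
    group
  have k8 := card_le_of_fib (Tech.cj g c.L ⊓ c.L) (c.fixSub (g * l * g⁻¹) ⊓ c.fixSub (g * l' * g⁻¹))
    (fun x => (act (c.σ (g * l * g⁻¹)) (c.χ (g * l * g⁻¹)) (c.π x) ^^^ c.π x,
      act (c.σ (g * l' * g⁻¹)) (c.χ (g * l' * g⁻¹)) (c.π x) ^^^ c.π x))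
    (({0, c.π (g * c.ζ 1 * g⁻¹)} : Finset ℕ) ×ˢ ({0, c.π (g * c.ζ 1 * g⁻¹)} : Finset ℕ))
    (fun x hx => Finset.mem_product.2 ⟨k7 hl hx, k7 hl' hx⟩) fun x hx y hy e =>
      mem_inf.2 ⟨c.inv_mul_mem_fixSub hx.2 hy.2 (Prod.mk.inj e).1, c.inv_mul_mem_fixSub hx.2 hy.2 (Prod.mk.inj e).2⟩
  have k9 := card_le_of_le (inf_le_right :
    Tech.cj g c.L ⊓ c.L ⊓ (c.fixSub (g * l * g⁻¹) ⊓ c.fixSub (g * l' * g⁻¹)) ≤ _)
  have k10 : ({0, c.π (g * c.ζ 1 * g⁻¹)} : Finset ℕ).card ≤ 2 := Finset.card_le_two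
  rw [Finset.card_product] at k8
  have := k8.trans (Nat.mul_le_mul (Nat.mul_le_mul k10 k10) k9)
  omega

end KC

variable [Finite G]

theorem KC.pair (c : KC G) {g : G} (h1 : ∀ l ∈ c.L, g⁻¹ * l * g ∈ c.K) (h2 : ∀ l ∈ c.L, g * l * g⁻¹ ∈ c.K) :
    g ∈ c.K := by
  by_contra hg
  obtain ⟨t, ht, hZ⟩ : ∃ t < 8, g * c.ζ t * g⁻¹ ∉ c.Z := by
    by_contra! h
    exact hg (c.mem_K_iff.2 h)
  obtain ⟨l, hl, l', hl', r, hr, s, hs, r0, s0, rs, f1, f2⟩ :=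
    c.exists_two (c.conj_Z_mem_L h1 h2 (c.ζ_mem_Z ht)) hZ
  have k1 : ∀ {l : G} {r : ℕ}, l ∈ c.L → r < 8 → r ≠ 0 →
      g * c.ζ t * g⁻¹ * l * (g * c.ζ t * g⁻¹)⁻¹ * l⁻¹ = c.ζ r → ∃ u < 8, u ≠ 0 ∧ g⁻¹ * c.ζ r * g = c.ζ u :=
    fun hl hr r0 e => by
      obtain ⟨u, hu, e'⟩ := (c.mem_Z _).1 (Tech.mem_cj.1
        (c.comm_cj (Tech.mem_cj.2 (h1 _ hl)) (Tech.conj_mem_cj.2 (c.ζ_mem_Z ht))))
      rw [e] at e'
      refine ⟨u, hu, ?_, e'⟩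
      rintro rfl
      rw [c.ζ_zero, mul_assoc, inv_mul_eq_one, eq_comm, mul_eq_right] at e'
      exact c.ζ_ne_one hr r0 e'
  obtain ⟨u, hu, u0, e1⟩ := k1 hl hr r0 f1
  obtain ⟨v, hv, v0, e2⟩ := k1 hl' hs s0 f2
  obtain ⟨k, hk, a1, a2⟩ := c.exists_conj_pair hr hs r0 s0 rs
  obtain ⟨k', hk', b1, b2⟩ := c.exists_conj_pair hu hv u0 v0 (by
    rintro rfl
    exact rs (c.ζ_inj hr hs (mul_left_cancel (mul_right_cancel (e1.trans e2.symm)))))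
  have := c.pair_core (g := k * g * k'⁻¹) (fun x hx => by
      convert mul_mem (mul_mem hk' (h1 _ (c.conj_L _ (inv_mem hk) x hx))) (inv_mem hk') using 1; group)
    (fun x hx => by
      convert mul_mem (mul_mem hk (h2 _ (c.conj_L _ (inv_mem hk') x hx))) (inv_mem hk) using 1; group)
    (by conv_lhs => rw [← b1, ← e1]
        rw [← a1]; group)
    (by conv_lhs => rw [← b2, ← e2]
        rw [← a2]; group)
  exact hg (by simpa [mul_assoc] using mul_mem (mul_mem (inv_mem hk) this) hk')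

theorem KC.exists_sylow (c : KC G) : ∃ S : Sylow 2 G, c.L ≤ S ∧ (S : Subgroup G) ≤ c.K ∧ ∀ x ∈ S, c.H x := by
  obtain ⟨T, hT, hLT⟩ := Tech.exists_isSylowIn_ge c.isPGroup_L c.L_le
  have h1 : Tech.IsSylowIn 2 T ⊤ := Tech.isSylowIn_of_isSylowIn_normalizer le_top
    (hT.of_le (le_inf le_top le_normalizer) fun g hg => c.pair
      (fun l hl => hT.le (Tech.conj_mem_of_mem_normalizer' hg.2 (hLT hl)))
      fun l hl => hT.le (Tech.conj_mem_of_mem_normalizer hg.2 (hLT hl)))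
  obtain ⟨z, hz, h2, h3⟩ := Tech.exists_mem_center_of_normalized hT.pgroup (c.Z_le_L.trans hLT)
    (c.hK ▸ hT.le) (fun e => by have := c.card_Z; rw [e, card_bot] at this; omega)
  obtain ⟨s, hs, rfl⟩ := (c.mem_Z z).1 hz
  obtain ⟨k, hk, e⟩ := c.exists_conj_four hs (by
    rintro rfl
    rw [c.ζ_zero, orderOf_one] at h2
    omega)
  refine ⟨(h1.cj_of_mem (mem_top k)).toSylowTop, ?_, ?_, fun x hx => ?_⟩
  · rw [Tech.IsSylowIn.coe_toSylowTop, Tech.le_cj_iff]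
    exact fun l hl => hLT (by simpa using c.conj_L _ (inv_mem hk) l hl)
  · rw [Tech.IsSylowIn.coe_toSylowTop, Tech.cj_le_iff]
    exact fun x hx => mul_mem (mul_mem hk (hT.le hx)) (inv_mem hk)
  · have hx' : x ∈ Tech.cj k T := by rw [← Tech.IsSylowIn.coe_toSylowTop (h1.cj_of_mem (mem_top k))]; exact hx
    have := h3 _ (Tech.mem_cj.1 hx')
    rw [KC.H, ← e]
    calc x * (k * c.ζ s * k⁻¹) = k * (k⁻¹ * x * k * c.ζ s) * k⁻¹ := by group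
      _ = _ := by rw [this]; group

end CfsgLib.J4K
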