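import Cfsg.Agent.Lib.J4K.Blk
import Cfsg.Agent.Lib.Core.Basic
import Cfsg.Agent.Lib.Tech.SylowIn

/-!
# Orders, the kernel on the blocks
-/

set_option autoImplicit false
set_option Elab.async false
set_option linter.unusedSectionVars false

namespace CfsgLib.J4K

open Cfsg CfsgLib.J4T CfsgLib.ExtraTwo CfsgLib.LargeExtra Subgroup

variable {G : Type*} [Group G] [Finite G]

/-- `x` is the image in `N ⊗ W` of a vector in the block of `v` -/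
def Bq (v x : ℕ) : Prop := x = v / 4 ∨ x = rh v / 4 ∨ x = rh (rh v) / 4

instance (v x : ℕ) : Decidable (Bq v x) := inferInstanceAs (Decidable (_ ∨ _ ∨ _))

theorem bq_check : ∀ b ∈ g3L, cof b 4 = 4 → ∀ a ∈ s5L, (∀ v ∈ [5, 9, 16, 33, 21, 72], Bq v (act a b (v / 4))) →
    a = 33825 ∧ (b ∈ v4L ∨ mm3 b 282 ∈ v4L ∨ mm3 b (mm3 282 282) ∈ v4L) := by decide +kernel

omit [Finite G] in
theorem EM.om_of_big (m : EM G) (hB : m.Big) {v : ℕ} (hv : v < 4096) (h : lab v ∈ [0, 1, 2, 4]) : m.Om v := by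
  simp only [List.mem_cons, List.not_mem_nil, or_false] at h
  rcases hB with hB | hB <;> refine (hB v hv).2 ?_ <;> simp only [List.mem_cons, List.not_mem_nil, or_false] <;> tauto

theorem EM.kerblk (m : EM G) (hB : m.Big) {g : G} (hg : m.H g) (h : ∀ v, m.Om v → Blk v (m.α g v)) :
    g ∈ m.N := by
  have hK := m.stab1 hg (h 1 m.om_one)
  have om : ∀ v ∈ [5, 9, 16, 33, 21, 72], v < 1024 ∧ m.Om v := fun v hv => by
    have := (by decide +kernel : ∀ v ∈ [5, 9, 16, 33, 21, 72], v < 1024 ∧ lab v ∈ [0, 1, 2, 4]) v hv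
    exact ⟨this.1, m.om_of_big hB (by omega) this.2⟩
  obtain ⟨h1, h2⟩ := bq_check _ (m.χ_mem g hK) ((m.H_iff hK).1 hg) _ (m.σ_mem hK) fun v hv => by
    rw [← (m.α_L hK hg (om v hv).1).2]
    rcases h v (om v hv).2 with e | e | e <;> rw [e]
    exacts [.inl rfl, .inr (.inl rfl), .inr (.inr rfl)]
  have key : ∀ n ∈ m.N, m.σ n = 33825 → mm3 (m.χ g) (m.χ n) ∈ v4L → g ∈ m.N := fun n hn e1 e2 => by
    have hnK := m.N_le_K hn
    obtain ⟨i, hi, e3, e4⟩ := m.α_v4 (mul_mem hK hnK) ((m.σ_mul_one hK hnK e1).1.trans h1) (by rwa [m.χ_mul _ hK _ hnK])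
    have := e3 <| (ball (by decide +kernel) : ∀ i < 16, (∀ v ∈ [5, 9, 16, 33, 21, 72], Blk v (mv (nM i) v)) → i = 0) i hi fun v hv => by
      obtain ⟨h3, h4⟩ := om v hv
      have h5 := m.blk_N hn (v := v) (by omega)
      rw [← e4 v (by omega), m.α_mul hg (m.N_le_H0 hn).1]
      exact h5.trans (by omega) (h _ (h4.blk h5))
    simpa using mul_mem (m.E_le_N this) (inv_mem hn)
  rcases h2 with h2 | h2 | h2
  · exact key 1 (one_mem _) m.σ_one (by rwa [m.χ_one, (mm3_one _ (m.χ_mem g hK)).1])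
  · exact key _ m.ρ_mem_N m.σ_ρ (by rwa [m.χ_ρ])
  · exact key _ (mul_mem m.ρ_mem_N m.ρ_mem_N) ((m.σ_mul_one m.ρ_mem m.ρ_mem m.σ_ρ).1.trans m.σ_ρ)
      (by rwa [m.χ_mul _ m.ρ_mem _ m.ρ_mem, m.χ_ρ])

theorem EM.exists_inv (m : EM G) : ∃ k, m.H k ∧ m.Inv k ∧ ¬ m.Com k ∧ m.α k 1 = 1 := by
  obtain ⟨k, hk, -, e⟩ := m.surj _ one_s5 275 (by decide +kernel)
  have hH : m.H k := (m.H_iff hk).2 (by rw [e]; rfl)
  have h1 : m.α k 1 = 1 := by rw [m.α_K hk hH (by norm_num), e]; rfl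
  have h2 : ¬ m.Com k := fun hc => by
    have := hc 1 (by norm_num)
    rw [h1, rh_one.1, m.α_K hk hH (by norm_num), e] at this
    exact absurd this (by decide)
  exact ⟨k, hH, (m.norm_rho hH).resolve_left h2, h2, h1⟩

omit [Finite G] in
theorem EM0.inv_mul_inv (m : EM0 G) {g k : G} (hg : m.H g) (hk : m.H k) (h1 : m.Inv g) (h2 : m.Inv k) : g * k ∈ m.H0 :=
  ⟨m.H_mul hg hk, fun v hv => by
    rw [m.α_mul hg hk, m.α_mul hg hk, h2 v hv, h1 _ (rh_lt _), h1 _ (m.α_lt _ _), rh_three _ (rh_lt _)]⟩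

theorem EM.trans0 (m : EM G) {v : ℕ} (hv : m.Om v) : ∃ h ∈ m.H0, m.α h 1 = v := by
  obtain ⟨g, hg, rfl⟩ := hv
  rcases m.norm_rho hg with hc | hc
  · exact ⟨g, ⟨hg, hc⟩, rfl⟩
  obtain ⟨k, hk, h1, -, h2⟩ := m.exists_inv
  exact ⟨g * k, m.inv_mul_inv hg hk hc h1, by rw [m.α_mul hg hk, h2]⟩

theorem EM.hout (m : EM G) (hB : m.Big) {c : G} (hc : m.H c) (h : ∀ g ∈ m.H0, c * g * c⁻¹ * g⁻¹ ∈ m.N) :
    c ∈ m.H0 := by
  have key : ∀ g ∈ m.H0, Blk (m.α g (m.α c 1)) (m.α c (m.α g 1)) := fun g hg => by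
    have := m.blk_N (h g hg) (m.α_lt (g * c) 1)
    rwa [← m.α_mul (m.N_le_H0 (h g hg)).1 (m.H_mul hg.1 hc), show c * g * c⁻¹ * g⁻¹ * (g * c) = c * g by group,
      m.α_mul hg.1 hc, m.α_mul hc hg.1] at this
  have gen : ∀ A ∈ gens, Blk (m.α c 1) (mv A (m.α c 1)) := fun A hA => by
    obtain ⟨g, hK, hg, e⟩ := m.exists_gen hA
    rw [← e _ (m.α_lt _ _)]
    exact (m.blk_α (m.norm_rho hc) (by norm_num) (m.blk_K hK hg.1 (Blk.refl 1))).trans (m.α_lt _ _) ((key g hg).symm (m.α_lt _ _))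
  obtain ⟨h1, h2, h3⟩ := (m.om_one.α hc).prop
  have h4 := (ball (by decide +kernel) : ∀ v < 4096, ((v ≠ 0 ∧ qe v = 0) ∧ Blk v (mv wM v) ∧ Blk v (mv (nM 1) v)) → Blk 1 v) _ h1
    ⟨⟨h2, h3⟩, gen _ (by simp [gens]), gen _ (by simp [gens])⟩
  refine m.N_le_H0 (m.kerblk hB hc fun v hv => ?_)
  obtain ⟨g, hg, rfl⟩ := m.trans0 hv
  exact (m.blk_α (.inl hg.2) (by norm_num) h4).trans (m.α_lt _ _) (key g hg)

theorem EM.card_N (m : EM G) : Nat.card m.N = 24576 := by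
  have h3 : orderOf m.ρ = 3 := orderOf_eq_prime m.ρ_three fun e => absurd (m.χ_ρ.symm.trans (e ▸ m.χ_one)) (by norm_num)
  rw [EM0.N, sup_comm, Core.card_sup_of_le_normalizer_of_disjoint
    (zpowers_le.2 (Tech.mem_normalizer_of_forall fun e he => m.norm m.H_ρ he))
    (disjoint_of_coprime_natCard (by rw [Nat.card_zpowers, h3, m.ec.card]; norm_num)).eq_bot, Nat.card_zpowers, h3, m.ec.card]

/-- the stabiliser of the vector `1` in `H0` -/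
def EM0.St0 (m : EM0 G) : Subgroup G where
  carrier := {h | h ∈ m.H0 ∧ m.α h 1 = 1}
  one_mem' := ⟨one_mem _, m.α_one (by norm_num)⟩
  mul_mem' := fun {a b} ha hb => ⟨mul_mem ha.1 hb.1, by rw [m.α_mul ha.1.1 hb.1.1, hb.2, ha.2]⟩
  inv_mem' := fun {a} ha => ⟨inv_mem ha.1, by
    have := m.α_inv_α ha.1.1 (v := 1) (by norm_num)
    rwa [ha.2] at this⟩

omit [Finite G] in
theorem EM0.mem_St0 (m : EM0 G) {k : G} : k ∈ m.St0 ↔ k ∈ m.K ∧ True ∧ m.χ k ∈ v4L := by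
  refine ⟨fun ⟨h0, h1⟩ => ?_, fun ⟨hk, _, h1⟩ => ?_⟩
  · have hk := m.stab1 h0.1 (by rw [h1]; exact Blk.refl 1)
    have h3 : m.α k 3 = 3 := by rw [← rh_one.1, h0.2 1 (by norm_num), h1]
    have h2 : m.α k 2 = 2 := by rw [← rh_one.2.1, h0.2 3 (by norm_num), h3]
    rw [m.α_K hk h0.1 (by norm_num)] at h1 h2
    exact ⟨hk, trivial, cof_v4 _ (m.χ_mem k hk) ((m.H_iff hk).1 h0.1) h1 h2⟩
  · obtain ⟨e, he, e1⟩ := m.ec.χ_surj _ h1
    have hK := m.ec.le_K he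
    have e2 := m.χ_mul_inv hk hK e1.symm
    have h2 := mul_mem (show k * e⁻¹ ∈ m.H0 from ⟨m.H_of_χ (mul_mem hk (inv_mem hK)) e2, m.com_of_χ (mul_mem hk (inv_mem hK)) e2⟩)
      (m.N_le_H0 (m.E_le_N he))
    rw [inv_mul_cancel_right] at h2
    exact ⟨h2, by rw [m.α_K hk h2.1 (by norm_num)]; exact (by decide : ∀ b ∈ v4L, cof b 1 % 4 = 1) _ h1⟩

/-- orbit and stabiliser for a subgroup between `H0 ⊓ K` and `H0` -/
theorem EM.card_between (m : EM G) {Y : Subgroup G} (h1 : m.H0 ⊓ m.K ≤ Y) (h2 : Y ≤ m.H0) (s : Finset ℕ)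
    (hs : ∀ v, v ∈ s ↔ ∃ y ∈ Y, m.α y 1 = v) : Nat.card Y = s.card * 15728640 := by
  rw [card_eq_of_fib Y m.St0 (fun y => m.α y 1) s hs fun x hx y hy => ⟨fun e => ⟨mul_mem (inv_mem (h2 hx)) (h2 hy), by
      rw [m.α_mul (m.H_inv (h2 hx).1) (h2 hy).1, ← e, m.α_inv_α (h2 hx).1 (by norm_num)]⟩, fun e => by
      rw [← mul_inv_cancel_left x y, m.α_mul (h2 hx).1 e.1.1, e.2]⟩,
    inf_eq_right.2 fun k hk => h1 ⟨hk.1, (m.mem_St0.1 hk).1⟩, m.card_of_cond (fun _ => True) (· ∈ v4L) fun k => m.mem_St0,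
    Finset.filter_true, s5L_card, show (g3L.toFinset.filter (· ∈ v4L)).card = 4 by decide +kernel]

theorem card_lab (I : Finset ℕ) (hI : ∀ i ∈ I, i < 10) : ((Finset.range 4096).filter fun v => lab v ∈ I).card =
    ∑ i ∈ I, [3, 60, 60, 90, 90, 240, 288, 288, 480, 480].getD i 0 := by
  rw [← Finset.sum_card_fiberwise_eq_card_filter]
  exact Finset.sum_congr rfl fun i hi => lab_card i (hI i hi)

theorem EM.card_H0 (m : EM G) (hB : m.Big) : Nat.card m.H0 = 10899947520 := by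
  have key : ∀ I : List ℕ, (∀ v < 4096, m.Om v ↔ lab v ∈ I) → (∀ i ∈ I.toFinset, i < 10) → Nat.card m.H0 =
      (∑ i ∈ I.toFinset, [3, 60, 60, 90, 90, 240, 288, 288, 480, 480].getD i 0) * 15728640 := fun I h hI => by
    rw [← card_lab _ hI]
    refine m.card_between inf_le_left le_rfl _ fun v => ?_
    rw [Finset.mem_filter, Finset.mem_range, List.mem_toFinset]
    exact ⟨fun e => m.trans0 ((h v e.1).2 e.2), fun ⟨y, hy, e⟩ => ⟨e ▸ m.α_lt _ _, (h v (e ▸ m.α_lt _ _)).1 ⟨y, hy.1, e⟩⟩⟩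
  rcases hB with hB | hB <;> exact (key _ hB (by decide)).trans (by decide)

theorem EM.index_H0 (m : EM G) : m.H0.relIndex (centralizer ({m.ζ 4} : Set G)) = 2 := by
  obtain ⟨k, hk, h1, h2, -⟩ := m.exists_inv
  refine index_eq_two_iff.2 ⟨⟨k, m.H_iff_mem.1 hk⟩, fun b => ?_⟩
  have hb := m.H_iff_mem.2 b.2
  by_cases h : (b : G) ∈ m.H0
  · exact .inr ⟨h, fun e => h2 (inv_mul_cancel_left (b : G) k ▸ mul_mem (inv_mem h) e : k ∈ m.H0).2⟩
  · exact .inl ⟨m.inv_mul_inv hb hk ((m.norm_rho hb).resolve_left fun e => h ⟨hb, e⟩) h1, h⟩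

end CfsgLib.J4K
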