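import Cfsg.Agent.Lib.J4K.Sima
import Cfsg.Agent.Lib.J4K.Odd

/-!
# The normal subgroups between `N` and `H0`
-/

set_option autoImplicit false
set_option Elab.async false

namespace CfsgLib.J4K

open Cfsg CfsgLib.J4T CfsgLib.ExtraTwo CfsgLib.LargeExtra Subgroup

variable {G : Type*} [Group G] [Finite G]

theorem EM.orbit_cases (m : EM G) (hB : m.Big) {Y : Subgroup G} (h1 : m.H0 ⊓ m.K ≤ Y) (h2 : Y ≤ m.H0) :
    (∀ y ∈ Y, Blk 1 (m.α y 1)) ∨ Y = m.H0 := by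
  classical
  let P : ℕ → Prop := fun v => ∃ y ∈ Y, m.α y 1 = v
  have hP : ∀ k ∈ m.H0 ⊓ m.K, ∀ v, P v → P (m.α k v) := by
    rintro k hk _ ⟨y, hy, rfl⟩
    exact ⟨k * y, mul_mem (h1 hk) hy, m.α_mul hk.1.1 (h2 hy).1 1⟩
  have hc := lab_const P fun A hA v hv e => by
    obtain ⟨g, hK, hg, e1⟩ := m.exists_gen hA
    exact e1 v hv ▸ hP g ⟨hg, hK⟩ v e
  have hO : ∀ v, P v → m.Om v := fun v ⟨y, hy, e⟩ => ⟨y, (h2 hy).1, e⟩
  have hl : ∀ v, P v → v < 4096 ∧ lab v < 10 := fun v e => ⟨(hO v e).prop.1, (lab_iff v (hO v e).prop.1).2 (hO v e).prop.2⟩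
  have hr : ∀ v, P v → P (rep (lab v)) := fun v e =>
    hc v (hl v e).1 _ (lab_rep _ (hl v e).2).1 (hl v e).2 (lab_rep _ (hl v e).2).2.symm e
  have h3 := m.card_between h1 h2 ((Finset.range 4096).filter fun v => lab v ∈ (Finset.range 10).filter fun i => P (rep i)) fun v => by
    simp only [Finset.mem_filter, Finset.mem_range]
    exact ⟨fun e => hc _ (lab_rep _ e.2.1).1 v e.1 (by rw [(lab_rep _ e.2.1).2]; exact e.2.1) (lab_rep _ e.2.1).2 e.2.2,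
      fun e => ⟨(hl v e).1, (hl v e).2, hr v e⟩⟩
  rw [card_lab _ fun i hi => Finset.mem_range.1 (Finset.mem_filter.1 hi).1, Finset.sum_filter] at h3
  have h4 := card_dvd_of_le h2
  rw [m.card_H0 hB, h3, show 10899947520 = 693 * 15728640 from rfl, Nat.mul_dvd_mul_iff_right (by norm_num)] at h4
  have p0 : P (rep 0) := ⟨1, one_mem _, m.α_one (by norm_num)⟩
  have p12 : P (rep 1) ↔ P (rep 2) := by
    obtain ⟨k, hK, hk, e⟩ := m.exists_fuse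
    refine ⟨fun e1 => e ▸ hr _ (hP k ⟨hk, hK⟩ _ e1), fun e1 => ?_⟩
    have := hP _ (inv_mem ⟨hk, hK⟩) _ (hc _ (by decide) _ (m.α_lt k 72) (by decide +kernel) (by rw [e]; decide +kernel) e1)
    rwa [m.α_inv_α hk.1 (by norm_num)] at this
  have pn : ∀ i < 10, P (rep i) → i ∈ [0, 1, 2, 4, 8] ∨ i ∈ [0, 1, 2, 4, 9] := fun i hi e =>
    hB.imp (fun h => (lab_rep i hi).2 ▸ (h _ (lab_rep i hi).1).1 (hO _ e)) fun h => (lab_rep i hi).2 ▸ (h _ (lab_rep i hi).1).1 (hO _ e)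
  have p3 : ¬ P (rep 3) := fun e => absurd (pn 3 (by norm_num) e) (by decide)
  have p5 : ¬ P (rep 5) := fun e => absurd (pn 5 (by norm_num) e) (by decide)
  have p6 : ¬ P (rep 6) := fun e => absurd (pn 6 (by norm_num) e) (by decide)
  have p7 : ¬ P (rep 7) := fun e => absurd (pn 7 (by norm_num) e) (by decide)
  simp only [Finset.sum_range_succ, Finset.sum_range_zero, ← p12, if_pos p0, if_neg p3, if_neg p5, if_neg p6, if_neg p7] at h3 h4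
  by_cases hn : ¬ P (rep 1) ∧ ¬ P (rep 4) ∧ ¬ P (rep 8) ∧ ¬ P (rep 9)
  · refine .inl fun y hy => blk_one.2 ((lab_zero _ (m.α_lt _ _)).1 ?_)
    have e1 := hr _ ⟨y, hy, rfl⟩
    have e2 := (hl _ ⟨y, hy, rfl⟩).2
    generalize lab (m.α y 1) = i at e1 e2
    interval_cases i
    exacts [rfl, (hn.1 e1).elim, (hn.1 (p12.2 e1)).elim, (p3 e1).elim, (hn.2.1 e1).elim, (p5 e1).elim, (p6 e1).elim,
      (p7 e1).elim, (hn.2.2.1 e1).elim, (hn.2.2.2 e1).elim]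
  refine .inr (eq_of_le_of_card_ge h2 ?_)
  rw [m.card_H0 hB, h3]
  split_ifs at h4 ⊢ <;>
    first | exact absurd h4 (by decide) | decide | exact (hn ⟨‹_›, ‹_›, ‹_›, ‹_›⟩).elim

theorem EM.simple (m : EM G) (hB : m.Big) {R : Subgroup G} (h1 : m.N ≤ R) (h2 : R ≤ m.H0)
    (hn : ∀ h ∈ m.H0, ∀ r ∈ R, h * r * h⁻¹ ∈ R) : R = m.N ∨ R = m.H0 := by
  rcases m.orbit_cases hB (le_sup_left (b := R)) (sup_le inf_le_left h2) with h | h
  · refine .inl (le_antisymm (fun r hr => m.kerblk hB (h2 hr).1 fun v hv => ?_) h1)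
    obtain ⟨g, hg, rfl⟩ := m.trans0 hv
    have h3 := hn _ (inv_mem hg) r hr
    have := m.blk_α (.inl hg.2) (by norm_num) (h _ (mem_sup_right h3))
    rwa [← m.α_mul hg.1 (h2 h3).1, show g * (g⁻¹ * r * g⁻¹⁻¹) = r * g by group, m.α_mul (h2 hr).1 hg.1] at this
  have hN : m.H0 ≤ normalizer (R : Set G) := fun g hg => Tech.mem_normalizer_of_forall (hn g hg)
  have h11 : 11 ∣ Nat.card R := by
    have := Core.card_sup_dvd_of_le_normalizer (inf_le_left.trans hN : m.H0 ⊓ m.K ≤ _)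
    rw [h, m.card_H0 hB] at this
    refine ((Nat.Prime.dvd_mul (by norm_num)).1 ((by norm_num : 11 ∣ 10899947520).trans this)).resolve_left fun e => ?_
    exact absurd (m.card_K ▸ e.trans (card_dvd_of_le inf_le_right)) (by norm_num)
  have hodd := odd_relIndex (A := m.H0) m.ec.pre m.ec.card m.H_ρ m.ρ_three (fun e he e1 => (m.ε_zero e he).1 <|
      rh_ne _ (m.ε_lt e) (by rw [← m.ε_ρ e he]; exact ((m.ε_eq_iff he (m.norm m.H_ρ he)).2 e1).symm))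
    (fun g hg => ⟨hg.1, m.mem_of_com hg.1 hg.2⟩) (m.E_le_N.trans h1) h2 hn h11 (by rw [m.card_H0 hB]; norm_num)
  have two : ∀ g ∈ m.K, m.χ g = 273 → g * g ∈ m.L → g ∈ R := fun g hg e1 e2 => by
    have h0 : g ∈ m.H0 := ⟨m.H_of_χ hg e1, m.com_of_χ hg e1⟩
    have := (normal_subgroupOf_iff_le_normalizer h2).2 hN
    have h3 : g ^ R.relIndex m.H0 ∈ R := pow_index_mem (H := R.subgroupOf m.H0) ⟨g, h0⟩
    obtain ⟨a, b, e⟩ := Nat.isCoprime_iff_coprime.2 ((Nat.coprime_two_right.2 hodd).pow_right 3)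
    have h8 : g ^ 2 ^ 3 = 1 := by rw [← m.pow_four e2, ← pow_two, ← pow_mul]; rfl
    rw [← zpow_one g, ← e, zpow_add, mul_comm a, mul_comm b, zpow_mul, zpow_mul, zpow_natCast, zpow_natCast, h8, one_zpow, mul_one]
    exact zpow_mem h3 a
  have lift : ∀ a ∈ s5L, mm4 a a = 33825 → ∃ g ∈ m.K, m.σ g = a ∧ g ∈ R := fun a ha e => by
    obtain ⟨g, hg, rfl, e1⟩ := m.surj a ha _ one_g3
    exact ⟨g, hg, rfl, two g hg e1 (m.mem_L (mul_mem hg hg) (by rw [m.σ_mul hg hg, e]) ((m.χ_mul_one hg hg e1).1.trans e1))⟩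
  have one : ∀ k ∈ m.H0 ⊓ m.K, m.σ k = 33825 → k ∈ R := fun k hk e => by
    have key : ∀ n ∈ m.N, m.σ n = 33825 → m.α n (m.α k 1) = 1 → k ∈ R := fun n hn e1 e2 => by
      have h3 := m.mem_St0.1 ⟨mul_mem (m.N_le_H0 hn) hk.1, by rwa [m.α_mul (m.N_le_H0 hn).1 hk.1.1]⟩
      obtain ⟨l, hl, f, hf, e3⟩ := m.exists_L_E h3.1 ((m.σ_mul_one hk.2 (m.N_le_K hn) e1).2.trans e) h3.2.2
      rw [← inv_mul_cancel_left n k, e3]
      exact mul_mem (inv_mem (h1 hn)) (mul_mem (two l (m.L_le hl) (m.χ_L hl) (mul_mem hl hl)) (h1 (m.E_le_N hf)))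
    rcases blk_one.1 (m.blk_K hk.2 hk.1.1 (Blk.refl 1)) with e1 | e1 | e1
    · exact key 1 (one_mem _) m.σ_one (by rw [e1, m.α_one (by norm_num)])
    · exact key _ m.ρ_mem_N m.σ_ρ (by rw [e1, m.α_ρ (by norm_num), rh_one.2.2])
    · exact key _ (mul_mem m.ρ_mem_N m.ρ_mem_N) ((m.σ_mul_one m.ρ_mem m.ρ_mem m.σ_ρ).1.trans m.σ_ρ)
        (by rw [e1, m.α_ρ2 (by norm_num), rh_one.2.1, rh_one.2.2])
  refine .inr (le_antisymm h2 (h.ge.trans (sup_le (fun k hk => ?_) le_rfl)))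
  obtain ⟨i, hi, e1, e2⟩ := (by decide +kernel : ∀ a ∈ s5L, ∃ i ∈ s5L, mm4 i i = 33825 ∧ mm4 (mm4 i a) (mm4 i a) = 33825) _ (m.σ_mem hk.2)
  obtain ⟨x, hx, rfl, x2⟩ := lift i hi e1
  rw [← m.σ_mul hx hk.2] at e2
  obtain ⟨y, hy, e3, y2⟩ := lift _ (m.σ_mem (mul_mem hx hk.2)) e2
  have := one _ (mul_mem (inv_mem ⟨h2 y2, hy⟩) (mul_mem ⟨h2 x2, hx⟩ hk)) (m.σ_inv_mul hy (mul_mem hx hk.2) e3)
  simpa using mul_mem (inv_mem x2) (mul_mem y2 this)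

end CfsgLib.J4K
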