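import Cfsg.Agent.Lib.J4K.Pair
import Cfsg.Agent.Lib.Tech.SylowIn

/-!
# The centraliser of a four-group in `Z` lies in `K`
-/

set_option autoImplicit false
set_option Elab.async false

namespace CfsgLib.J4K

open Cfsg CfsgLib.J4T CfsgLib.ExtraTwo CfsgLib.LargeExtra Subgroup
open CfsgLib.Tech (cj mem_cj cj_le_iff card_cj isPGroup_cj)

variable {G : Type*} [Group G] [Finite G] {c : KC G} {E : Subgroup G}

/-- the stabiliser of the vector `1` of `N` -/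
def KC.St1 (c : KC G) : Subgroup G where
  carrier := {k | k ∈ c.K ∧ ap4 (c.σ k) 1 = 1}
  one_mem' := ⟨one_mem _, by rw [c.σ_one]; rfl⟩
  mul_mem' := fun {a b} ha hb => ⟨mul_mem ha.1 hb.1, by rw [c.σ_mul ha.1 hb.1, ap4_mm4, hb.2, ha.2]⟩
  inv_mem' := fun {a} ha => ⟨inv_mem ha.1, by
    rw [← ha.2, ← ap4_mm4, ← c.σ_mul (inv_mem ha.1) ha.1, inv_mul_cancel, c.σ_one, ha.2]; rfl⟩

omit [Finite G] in
theorem EC.stab_a (ec : EC c E) {h k : G} (h4 : h * c.ζ 4 = c.ζ 4 * h) (h2 : h * c.ζ 2 = c.ζ 2 * h) (hk : k ∈ c.K)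
    (e1 : c.σ k = 33825) (e2 : c.χ k = 161) :
    h * c.ζ 1 * h⁻¹ ∈ c.L ∧ c.π (h * c.ζ 1 * h⁻¹) < 16 ∧ k⁻¹ * (h * c.ζ 1 * h⁻¹) * k ∈ E := by
  have z1 : c.ζ 1 ∈ E := (ec.mem_L _ (c.ζ_mem 1 (by norm_num))).2 (by rw [c.π_ζ (by norm_num)]; norm_num)
  have k4 : k * c.ζ 4 * k⁻¹ = c.ζ 2 := by rw [c.act_Z k hk 4 (by norm_num), e2]; rfl
  have k1 : k * c.ζ 1 * k⁻¹ = c.ζ 1 := by rw [c.act_Z k hk 1 (by norm_num), e2]; rfl
  have ha := ec.pre.norm h h4 _ z1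
  have ha' : k⁻¹ * (h * c.ζ 1 * h⁻¹) * k ∈ E := by
    have := ec.pre.norm (k⁻¹ * h * k) (by
      calc k⁻¹ * h * k * c.ζ 4 = k⁻¹ * (h * (k * c.ζ 4 * k⁻¹)) * k := by group
        _ = _ := by rw [k4, h2, ← k4]; group) _ z1
    rwa [show k⁻¹ * h * k * c.ζ 1 * (k⁻¹ * h * k)⁻¹ = k⁻¹ * (h * (k * c.ζ 1 * k⁻¹) * h⁻¹) * k by group, k1] at this
  generalize h * c.ζ 1 * h⁻¹ = a at *
  obtain ⟨a', rfl⟩ : ∃ a', a = k * a' * k⁻¹ := ⟨k⁻¹ * a * k, by group⟩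
  rw [show k⁻¹ * (k * a' * k⁻¹) * k = a' by group] at ha' ⊢
  have h1 : mm3 (c.χ (k * a' * k⁻¹)) 161 = mm3 161 (c.χ a') := by
    rw [← e2, ← c.χ_mul _ (ec.le_K ha) _ hk, ← c.χ_mul _ hk _ (ec.le_K ha'), inv_mul_cancel_right]
  have h3 := c.mem_L (ec.le_K ha') (ec.σ_E _ ha')
    ((by decide +kernel : ∀ b ∈ v4L, ∀ b' ∈ v4L, mm3 b 161 = mm3 161 b' → b' = 273) _ (ec.χ_E _ ha) _ (ec.χ_E _ ha') h1)
  have h5 := c.conj_L k hk _ h3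
  refine ⟨h5, ?_, ha'⟩
  have h6 := (ec.mem_L _ h5).1 ha
  rw [c.act_L k hk _ h3, e1, e2] at h6 ⊢
  exact (ball (by decide +kernel) : ∀ v < 256, act 33825 161 v < 256 → act 33825 161 v < 16) _ ((ec.mem_L _ h3).1 ha') h6

theorem EC.stab_one (ec : EC c E) {h : G} (h4 : h * c.ζ 4 = c.ζ 4 * h) (h2 : h * c.ζ 2 = c.ζ 2 * h)
    (h1 : c.π (h * c.ζ 1 * h⁻¹) = 1) : h ∈ c.K := by
  obtain ⟨k1, hk1, e1, e2⟩ := c.surj _ one_s5 161 (by decide +kernel)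
  obtain ⟨haL, -, ha'⟩ := ec.stab_a h4 h2 hk1 e1 e2
  have ha := (ec.mem_L _ haL).2 (by rw [h1]; norm_num)
  have fix : ∀ {k : G} {t : ℕ}, h * c.ζ t = c.ζ t * h → k * c.ζ t = c.ζ t * k → h⁻¹ * k * h * c.ζ t * (h⁻¹ * k * h)⁻¹ = c.ζ t :=
    fun {k t} e e' => by
      calc _ = h⁻¹ * (k * (h * c.ζ t)) * h⁻¹ * k⁻¹ * h := by group
        _ = h⁻¹ * (c.ζ t * h) := by rw [e, ← mul_assoc k, e']; group
        _ = _ := by rw [← e]; group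
  have crit : ∀ k ∈ c.K, c.χ k ∈ c4L → ∀ s < 8, s % 2 = 0 → k * (h * c.ζ 1 * h⁻¹) * k⁻¹ = c.ζ s * (h * c.ζ 1 * h⁻¹) →
      k ∈ cj h c.K := fun k hk hc s hs hs' e => by
    have hc' := (by decide +kernel : ∀ b ∈ c4L, cof b 2 = 2 ∧ cof b 4 = 4) _ hc
    have h6 : h * c.ζ s = c.ζ s * h := by
      obtain rfl | rfl | rfl | rfl : s = 0 ∨ s = 2 ∨ s = 4 ∨ s = 2 ^^^ 4 := by
        rw [show 2 ^^^ 4 = 6 from rfl]; omega
      · rw [c.ζ_zero, mul_one, one_mul]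
      · exact h2
      · exact h4
      · rw [← c.ζ_mul 2 (by norm_num) 4 (by norm_num), ← mul_assoc, h2, mul_assoc, h4, mul_assoc]
    refine mem_cj.2 (c.mem_K_of_basis ?_ ?_ ?_)
    · rw [show h⁻¹ * k * h * c.ζ 1 * (h⁻¹ * k * h)⁻¹ = h⁻¹ * (k * (h * c.ζ 1 * h⁻¹) * k⁻¹) * h by group, e,
        show h⁻¹ * (c.ζ s * (h * c.ζ 1 * h⁻¹)) * h = h⁻¹ * (c.ζ s * h) * c.ζ 1 by group, ← h6, inv_mul_cancel_left]
      exact mul_mem (c.ζ_mem_Z hs) (c.ζ_mem_Z (by norm_num))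
    · rw [fix h2 ((c.comm_ζ_iff hk (by norm_num)).2 hc'.1)]; exact c.ζ_mem_Z (by norm_num)
    · rw [fix h4 ((c.comm_ζ_iff hk (by norm_num)).2 hc'.2)]; exact c.ζ_mem_Z (by norm_num)
  generalize h * c.ζ 1 * h⁻¹ = a at *
  have ev : ∀ v < 4096, ∀ m < 16, cm v m % 2 = 0 := fun v hv m hm => by
    rw [cm_def, Nat.shiftRight_eq_div_pow m, Nat.shiftRight_eq_div_pow m, Nat.div_eq_of_lt (a := m) (by omega),
      Nat.div_eq_of_lt (a := m) (by omega), ← bN_mod (v >>> 4), ← bN_mod (v >>> 8),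
      (ball (by decide +kernel) : ∀ n < 16, bN n (0 % 16) = 0) _ (Nat.mod_lt _ (by norm_num)),
      (ball (by decide +kernel) : ∀ n < 16, bN n (0 % 16) = 0) _ (Nat.mod_lt _ (by norm_num)), Nat.xor_self]
    omega
  have hL : c.L ≤ cj h c.K := fun l hl => crit l (c.L_le hl) (by rw [c.χ_L hl]; decide) _ (cm_lt _ _)
    (ev _ (c.π_lt l) _ (by omega)) (c.conj_comm hl haL)
  have hχ : ∀ b ∈ c4L, ∃ f ∈ c.K, c.σ f = 33825 ∧ c.χ f = b ∧ f ∈ cj h c.K := by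
    obtain ⟨e, he, e3⟩ := ec.χ_surj 337 (by decide)
    have hK := ec.le_K he
    have cE : ∀ {x : G}, x ∈ E → e * x * e⁻¹ = c.ζ 0 * x ∨ e * x * e⁻¹ = c.ζ 4 * x := fun hx =>
      (ec.pre.es.comm e he _ hx).imp (fun e => by rw [e, c.ζ_zero]; group) fun e => by rw [e]; group
    have p1 : e ∈ cj h c.K := by
      rcases cE ha with e4 | e4 <;> exact crit e hK (by rw [e3]; decide) _ (by norm_num) rfl e4
    have hK' := mul_mem (mul_mem hk1 hK) (inv_mem hk1)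
    have s1 : c.σ (k1 * e * k1⁻¹) = 33825 := c.σ_mul_inv (mul_mem hk1 hK) hk1 (c.σ_mul_one hk1 hK (ec.σ_E e he)).1
    have s2 : c.χ (k1 * e * k1⁻¹) = 281 :=
      (by decide +kernel : ∀ b ∈ g3L, mm3 b 161 = mm3 161 337 → b = 281) _ (c.χ_mem _ hK') (by
        rw [← e3, ← e2, ← c.χ_mul _ hK' _ hk1, ← c.χ_mul _ hk1 _ hK, inv_mul_cancel_right])
    have p2 : k1 * e * k1⁻¹ ∈ cj h c.K := by
      have e5 : ∀ t < 8, e * (k1⁻¹ * a * k1) * e⁻¹ = c.ζ t * (k1⁻¹ * a * k1) →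
          k1 * e * k1⁻¹ * a * (k1 * e * k1⁻¹)⁻¹ = c.ζ (cof 161 t) * a := fun t ht e4 => by
        rw [← e2, ← c.act_Z k1 hk1 t ht, show k1 * e * k1⁻¹ * a * (k1 * e * k1⁻¹)⁻¹ =
          k1 * (e * (k1⁻¹ * a * k1) * e⁻¹) * k1⁻¹ by group, e4]; group
      rcases cE ha' with e4 | e4 <;> exact crit _ hK' (by rw [s2]; decide) _ (cof_lt _ _) rfl (e5 _ (by norm_num) e4)
    intro b hb
    simp only [c4L, List.mem_cons, List.not_mem_nil, or_false] at hb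
    rcases hb with rfl | rfl | rfl | rfl
    · exact ⟨1, one_mem _, c.σ_one, c.χ_one, one_mem _⟩
    · exact ⟨_, hK', s1, s2, p2⟩
    · exact ⟨e, hK, ec.σ_E e he, e3, p1⟩
    · exact ⟨_, mul_mem hK hK', (c.σ_mul_one hK hK' s1).1.trans (ec.σ_E e he), by rw [c.χ_mul _ hK _ hK', e3, s2]; rfl, mul_mem p1 p2⟩
  have hσ1 : ∀ k ∈ c.K, c.χ k = 273 → c.σ k ∈ [0x8421, 0x9721, 0xa521, 0xb621, 0xc431, 0xf531] → k ∈ cj h c.K := fun k hk e3 e4 => by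
    rcases (by decide +kernel : ∀ i ∈ [0x8421, 0x9721, 0xa521, 0xb621, 0xc431, 0xf531], i = 33825 ∨ mm4 i i = 33825 ∧
      ∃ m < 16, m ^^^ act i 273 m = 1 ∧ cm (act i 273 m) m = 0) _ e4 with e5 | ⟨e5, m, hm, e6, e7⟩
    · exact hL (c.mem_L hk e5 e3)
    obtain ⟨d, hd, rfl⟩ := c.π_surj m (by omega)
    have hd' := c.conj_L k hk d hd
    have e8 := c.act_L k hk d hd
    rw [e3] at e8
    obtain ⟨t, ht, e9⟩ := c.exists_ζ (mul_mem hd hd') haL (by rw [c.π_mul _ hd _ hd', e8, e6, h1])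
    have hkk := c.mem_L (mul_mem hk hk) (by rw [c.σ_mul hk hk, e5]) ((c.χ_mul_one hk hk e3).1.trans e3)
    refine crit k hk (by rw [e3]; decide) _ (cm_lt _ _) (ev _ (c.π_lt (k * k)) _ hm) ?_
    calc k * a * k⁻¹ = k * d * k⁻¹ * (k * k * d * (k * k)⁻¹) * (k * c.ζ t * k⁻¹) := by rw [e9]; group
      _ = _ := by
        rw [c.conj_comm hkk hd, c.comm_of_χ hk e3 ht, mul_inv_cancel_right, ← mul_assoc, c.ζ_comm hd' (cm_lt _ _),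
          mul_assoc (c.ζ _), (c.comm_iff hd' hd).2 (by rw [e8, e7]), e9, mul_assoc]
  have hS : c.St1 ⊓ (centralizer {c.ζ 2} ⊓ centralizer {c.ζ 4}) ≤ cj h c.K := fun k hk => by
    have hK := hk.1.1
    obtain ⟨f, hf, e3, e4, p1⟩ := hχ _ (c.χ_c4 hK (mem_centralizer_singleton_iff.1 hk.2.1) (mem_centralizer_singleton_iff.1 hk.2.2))
    obtain ⟨i, hi, j, hj, e5⟩ := (by decide +kernel : ∀ a ∈ s5L, ap4 a 1 = 1 → ∃ i ∈ [0x8421, 0x9721, 0xa521, 0xb621, 0xc431, 0xf531],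
      ∃ j ∈ [0x8421, 0x9721, 0xa521, 0xb621, 0xc431, 0xf531], (i ∈ s5L ∧ j ∈ s5L) ∧ mm4 i j = a) _ (c.σ_mem hK) hk.1.2
    obtain ⟨x, hx, rfl, x2⟩ := c.surj i e5.1.1 _ one_g3
    obtain ⟨y, hy, rfl, y2⟩ := c.surj j e5.1.2 _ one_g3
    have hxy := mul_mem hx hy
    have := hL ((c.inv_mul_mem_L (mul_mem hxy hf) hK).2 ⟨by rw [(c.σ_mul_one hxy hf e3).1, c.σ_mul hx hy, e5.2],
      by rw [(c.χ_mul_one hf hxy ((c.χ_mul_one hx hy y2).1.trans x2)).2, e4]⟩)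
    exact mul_inv_cancel_left (x * y * f) k ▸ mul_mem (mul_mem (mul_mem (hσ1 x hx x2 hi) (hσ1 y hy y2 hj)) p1) this
  have hc : Nat.card (c.St1 ⊓ (centralizer {c.ζ 2} ⊓ centralizer {c.ζ 4}) : Subgroup G) = 2 ^ 20 := by
    rw [c.card_of_cond (fun a => ap4 a 1 = 1) (fun b => cof b 2 = 2 ∧ cof b 4 = 4) fun k => by
      rw [mem_inf, mem_inf, mem_centralizer_singleton_iff, mem_centralizer_singleton_iff]
      exact ⟨fun e => ⟨e.1.1, e.1.2, (c.comm_ζ_iff e.1.1 (by norm_num)).1 e.2.1, (c.comm_ζ_iff e.1.1 (by norm_num)).1 e.2.2⟩,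
        fun e => ⟨⟨e.1, e.2.1⟩, (c.comm_ζ_iff e.1 (by norm_num)).2 e.2.2.1, (c.comm_ζ_iff e.1 (by norm_num)).2 e.2.2.2⟩⟩]
    decide +kernel
  have hS' : cj h⁻¹ (c.St1 ⊓ (centralizer {c.ζ 2} ⊓ centralizer {c.ζ 4})) ≤ c.K :=
    cj_le_iff.2 fun k hk => by simpa using mem_cj.1 (hS hk)
  have h3 := c.card_two_le hS' (isPGroup_cj _ (IsPGroup.of_card hc)) fun k hk => by
    obtain ⟨x, hx, rfl⟩ := hk
    exact c.χ_c4 (hS' ⟨x, hx, rfl⟩)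
      (mul_inv_eq_iff_eq_mul.1 (by simpa using fix h2 (mem_centralizer_singleton_iff.1 hx.2.1)))
      (mul_inv_eq_iff_eq_mul.1 (by simpa using fix h4 (mem_centralizer_singleton_iff.1 hx.2.2)))
  rw [card_cj, hc] at h3
  have h5 := eq_of_le_of_card_ge (inf_le_right (a := cj h⁻¹ (c.St1 ⊓ (centralizer {c.ζ 2} ⊓ centralizer {c.ζ 4}))) (b := c.L))
    (by rw [c.card_L]; omega)
  exact c.pair (fun l hl => mem_cj.1 (hL hl)) fun l hl => by simpa using (mem_cj.1 (h5.ge hl).1).1.1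

theorem EC.stab {c : KC G} {E : Subgroup G} (ec : EC c E) (h : G) (hh : h * c.ζ 4 = c.ζ 4 * h)
    (h2 : h * c.ζ 2 * h⁻¹ = c.ζ 2 ∨ h * c.ζ 2 * h⁻¹ = c.ζ 6) : h ∈ c.K := by
  have key : ∀ h, h * c.ζ 4 = c.ζ 4 * h → h * c.ζ 2 = c.ζ 2 * h → h ∈ c.K := fun h h4 h2 => by
    obtain ⟨k1, hk1, e1, e2⟩ := c.surj _ one_s5 161 (by decide +kernel)
    obtain ⟨haL, hlt, -⟩ := ec.stab_a h4 h2 hk1 e1 e2
    by_cases h0 : c.π (h * c.ζ 1 * h⁻¹) = 0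
    · exact c.mem_K_of_basis ((c.π_zero _ haL).1 h0) (by rw [h2, mul_inv_cancel_right]; exact c.ζ_mem_Z (by norm_num))
        (by rw [h4, mul_inv_cancel_right]; exact c.ζ_mem_Z (by norm_num))
    obtain ⟨a, ha, e3⟩ := (ball (by decide +kernel) : ∀ n < 16, n ≠ 0 → ∃ a ∈ s5L, act a 273 n = 1) _ hlt h0
    obtain ⟨k, hk, rfl, e4⟩ := c.surj a ha _ one_g3
    have := ec.stab_one (h := k * h) (c.H_mul (c.H_of_χ hk e4) h4)
      (by rw [mul_assoc, h2, ← mul_assoc, c.comm_of_χ hk e4 (by norm_num), mul_assoc])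
      (by rw [show k * h * c.ζ 1 * (k * h)⁻¹ = k * (h * c.ζ 1 * h⁻¹) * k⁻¹ by group, c.act_L k hk _ haL, e4, e3])
    simpa using mul_mem (inv_mem hk) this
  rcases h2 with h2 | h2
  · exact key h hh (mul_inv_eq_iff_eq_mul.1 h2)
  obtain ⟨e, he, e3⟩ := ec.χ_surj 401 (by decide)
  have hK := ec.le_K he
  have := key (e * h) (c.H_mul (ec.pre.es.comm_z e he) hh) (mul_inv_eq_iff_eq_mul.1 (by
    rw [show e * h * c.ζ 2 * (e * h)⁻¹ = e * (h * c.ζ 2 * h⁻¹) * e⁻¹ by group, h2, c.act_Z e hK 6 (by norm_num), e3]; rfl))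
  simpa using mul_mem (inv_mem hK) this

end CfsgLib.J4K
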