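import Cfsg.Agent.Lib.J4K.Kc0

/-!
# Coordinates on `Z`, commutators and squares
-/

set_option autoImplicit false
set_option Elab.async false

namespace CfsgLib.J4K

open Cfsg CfsgLib.J4T CfsgLib.ExtraTwo CfsgLib.LargeExtra Subgroup

theorem bN_xor_right (n m m' : ℕ) : bN n (m ^^^ m') = bN n m ^^^ bN n m' := by
  rw [bN_comm, bN_xor_left, bN_comm m, bN_comm m']

theorem sqv_xor (v w : ℕ) : sqv (v ^^^ w) = sqv v ^^^ sqv w ^^^ cm v w := by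
  have h : ∀ p q r s, bN p q ^^^ bN r s < 2 := fun p q r s => xor_lt (n := 1) (bN_lt _ _) (bN_lt _ _)
  rw [sqv_def v, sqv_def w, cm_def, ← pack3_xor (bN_lt _ _) (bN_lt _ _) (bN_lt _ _) (bN_lt _ _) (bN_lt _ _) (bN_lt _ _),
    ← pack3_xor (h _ _ _ _) (h _ _ _ _) (h _ _ _ _) (h _ _ _ _) (h _ _ _ _) (h _ _ _ _), sqv_def]
  simp only [Nat.shiftRight_xor_distrib, bN_xor_left, bN_xor_right]
  rw [bN_comm (w >>> 4) (v >>> 8), bN_comm w (v >>> 8), bN_comm w (v >>> 4)]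
  congr 1
  · congr 1
    · ac_rfl
    · congr 1; ac_rfl
  · congr 1; ac_rfl

theorem zt_act : ∀ a ∈ s5L, ∀ i < 3, ∀ n < 16, act a 273 (n * 16 ^ i) = ap4 a n * 16 ^ i := by decide +kernel

theorem zt_xor : ∀ i < 3, ∀ n < 16, ∀ m < 16, (n ^^^ m) * 16 ^ i = n * 16 ^ i ^^^ m * 16 ^ i := by decide +kernel

theorem zt_lt : ∀ i < 3, ∀ n < 16, n * 16 ^ i < 4096 := by decide +kernel

theorem zt_fix : ∀ j < 3, ∃ a ∈ s5L, ∃ m < 16, ap4 a 1 = 1 ∧ m ^^^ ap4 a m = 2 ^ j := by decide +kernel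

theorem zt_trans : ∀ n < 16, ∀ m < 16, n ≠ 0 → ∃ a ∈ s5L, ∃ m' < 16,
    ap4 a 1 = n ∧ ap4 a m' = m ∧ bN 1 m' = bN n m := by decide +kernel

theorem zt_bN : (∀ j < 3, bN 1 (2 ^ j) = 0) ∧ bN 1 8 = 1 ∧ bN 8 1 = 1 ∧ bN 1 0 = 0 := by decide +kernel

theorem zt_basis : ∀ p < 12, 2 ^ p = 2 ^ (p % 4) * 16 ^ (p / 4) ∧ 2 ^ (p % 4) < 16 ∧ p / 4 < 3 ∧ sqv (2 ^ p) = 0 := by
  decide +kernel

theorem zt_cm : ∀ p < 12, ∀ q < 12, cm (2 ^ p) (2 ^ q) =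
    bN (2 ^ (p % 4)) (2 ^ (q % 4)) * (if p / 4 = q / 4 then 0 else 2 ^ (3 - p / 4 - q / 4)) := by decide +kernel

theorem zt_cof : ∀ a ∈ s5L, ∀ b ∈ g3L, cm (act a b 16) (act a b 2048) = cof b 1 ∧
    cm (act a b 1) (act a b 2048) = cof b 2 ∧ cm (act a b 1) (act a b 128) = cof b 4 := by decide +kernel

variable {G : Type*} [Group G]

theorem zt_pow {x : G} (hx : x * x = 1) {a b : ℕ} (ha : a < 2) (hb : b < 2) : x ^ a * x ^ b = x ^ (a ^^^ b) := by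
  interval_cases a <;> interval_cases b <;> simp [hx]

namespace KC0

variable (c : KC0 G)

theorem π_one : c.π 1 = 0 := (c.π_zero _ (one_mem _)).2 (one_mem _)

theorem π_inv {l : G} (hl : l ∈ c.L) : c.π l⁻¹ = c.π l := by
  have := c.π_mul _ (inv_mem hl) _ hl
  rw [inv_mul_cancel, c.π_one] at this
  exact Nat.xor_eq_zero_iff.1 this.symm

theorem exists_Z {l l' : G} (hl : l ∈ c.L) (hl' : l' ∈ c.L) (h : c.π l = c.π l') : ∃ a ∈ c.Z, l' = l * a :=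
  ⟨l⁻¹ * l', (c.π_zero _ (mul_mem (inv_mem hl) hl')).1 (by
    rw [c.π_mul _ (inv_mem hl) _ hl', c.π_inv hl, h, Nat.xor_self]), (mul_inv_cancel_left _ _).symm⟩

theorem comm_mem {l l' : G} (hl : l ∈ c.L) (hl' : l' ∈ c.L) : l * l' * l⁻¹ * l'⁻¹ ∈ c.Z := by
  refine (c.π_zero _ (mul_mem (mul_mem (mul_mem hl hl') (inv_mem hl)) (inv_mem hl'))).1 ?_
  rw [c.π_mul _ (mul_mem (mul_mem hl hl') (inv_mem hl)) _ (inv_mem hl'), c.π_mul _ (mul_mem hl hl') _ (inv_mem hl),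
    c.π_mul _ hl _ hl', c.π_inv hl, c.π_inv hl', Nat.xor_assoc, Nat.xor_self]

theorem sq_mem {l : G} (hl : l ∈ c.L) : l * l ∈ c.Z :=
  (c.π_zero _ (mul_mem hl hl)).1 (by rw [c.π_mul _ hl _ hl, Nat.xor_self])

theorem Z_conj {a l : G} (ha : a ∈ c.Z) (hl : l ∈ c.L) : l * a * l⁻¹ = a := by
  rw [← c.Z_comm a ha l hl, mul_inv_cancel_right]

/-- a section of `π` -/
noncomputable def r (v : ℕ) : G := if h : v < 4096 then (c.π_surj v h).choose else 1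

theorem r_mem (v : ℕ) : c.r v ∈ c.L := by
  rw [r]
  split_ifs with h
  exacts [(c.π_surj v h).choose_spec.1, one_mem _]

theorem π_r {v : ℕ} (h : v < 4096) : c.π (c.r v) = v := by
  rw [r, dif_pos h]; exact (c.π_surj v h).choose_spec.2

/-- the commutator map -/
noncomputable def β (v w : ℕ) : G := c.r v * c.r w * (c.r v)⁻¹ * (c.r w)⁻¹

/-- the squaring map -/
noncomputable def Q (v : ℕ) : G := c.r v * c.r v

theorem β_mem (v w : ℕ) : c.β v w ∈ c.Z := c.comm_mem (c.r_mem v) (c.r_mem w)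

theorem Q_mem (v : ℕ) : c.Q v ∈ c.Z := c.sq_mem (c.r_mem v)

theorem β_spec {l l' : G} (hl : l ∈ c.L) (hl' : l' ∈ c.L) : l * l' * l⁻¹ * l'⁻¹ = c.β (c.π l) (c.π l') := by
  obtain ⟨a, ha, e⟩ := c.exists_Z hl (c.r_mem _) (c.π_r (c.π_lt l)).symm
  obtain ⟨b, hb, e'⟩ := c.exists_Z hl' (c.r_mem _) (c.π_r (c.π_lt l')).symm
  rw [β, e, e']
  calc l * l' * l⁻¹ * l'⁻¹ = l * (a * (l' * a⁻¹ * l'⁻¹)) * l' * (b * (l⁻¹ * b⁻¹ * l⁻¹⁻¹)) * l⁻¹ * l'⁻¹ := by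
        rw [c.Z_conj (inv_mem ha) hl', c.Z_conj (inv_mem hb) (inv_mem hl)]; group
    _ = l * a * (l' * (a⁻¹ * b * a⁻¹⁻¹)) * (l * a)⁻¹ * (l' * b)⁻¹ := by group
    _ = _ := by rw [c.Z_conj hb (c.Z_le (inv_mem ha))]

theorem Q_spec {l : G} (hl : l ∈ c.L) : l * l = c.Q (c.π l) := by
  obtain ⟨a, ha, e⟩ := c.exists_Z hl (c.r_mem _) (c.π_r (c.π_lt l)).symm
  rw [Q, e, show l * a * (l * a) = l * (a * l) * a by group, c.Z_comm a ha l hl,
    show l * (l * a) * a = l * l * (a * a) by group, c.Z_sq a ha, mul_one]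

theorem β_symm (v w : ℕ) : c.β v w = c.β w v := by
  rw [← inv_eq_of_mul_eq_one_right (c.Z_sq _ (c.β_mem v w)), β, β]; group

theorem β_xor_left {v v' w : ℕ} (hv : v < 4096) (hv' : v' < 4096) (hw : w < 4096) :
    c.β (v ^^^ v') w = c.β v w * c.β v' w := by
  have := c.β_spec (mul_mem (c.r_mem v) (c.r_mem v')) (c.r_mem w)
  rw [c.π_mul _ (c.r_mem v) _ (c.r_mem v'), c.π_r hv, c.π_r hv', c.π_r hw] at this
  rw [← this, c.Z_comm _ (c.β_mem v w) _ (c.Z_le (c.β_mem v' w)), ← c.Z_conj (c.β_mem v' w) (c.r_mem v), β, β]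
  group

theorem β_xor_right {v w w' : ℕ} (hv : v < 4096) (hw : w < 4096) (hw' : w' < 4096) :
    c.β v (w ^^^ w') = c.β v w * c.β v w' := by
  rw [c.β_symm, c.β_xor_left hw hw' hv, c.β_symm w, c.β_symm w']

theorem β_zero_left {w : ℕ} (hw : w < 4096) : c.β 0 w = 1 := by
  have := c.β_xor_left (v := 0) (v' := 0) (by norm_num) (by norm_num) hw
  rwa [Nat.xor_self, c.Z_sq _ (c.β_mem _ _)] at this

theorem Q_xor {v w : ℕ} (hv : v < 4096) (hw : w < 4096) : c.Q (v ^^^ w) = c.Q v * c.Q w * c.β v w := by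
  have := c.Q_spec (mul_mem (c.r_mem v) (c.r_mem w))
  rw [c.π_mul _ (c.r_mem v) _ (c.r_mem w), c.π_r hv, c.π_r hw] at this
  rw [← this, c.β_symm, ← c.Z_comm _ (c.β_mem w v) _ (c.Z_le (mul_mem (c.Q_mem v) (c.Q_mem w))),
    ← c.Z_conj (c.β_mem w v) (c.r_mem v), β, Q, Q]
  group

theorem Q_zero : c.Q 0 = 1 := by rw [← c.π_one, ← c.Q_spec (one_mem _), mul_one]

theorem β_conj {k : G} (hk : k ∈ c.K) {v w : ℕ} (hv : v < 4096) (hw : w < 4096) :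
    k * c.β v w * k⁻¹ = c.β (act (c.σ k) (c.χ k) v) (act (c.σ k) (c.χ k) w) := by
  have := c.β_spec (c.conj_L k hk _ (c.r_mem v)) (c.conj_L k hk _ (c.r_mem w))
  rw [c.act_L k hk _ (c.r_mem v), c.act_L k hk _ (c.r_mem w), c.π_r hv, c.π_r hw] at this
  rw [← this, β]; group

theorem β_act {a : ℕ} (ha : a ∈ s5L) {v w : ℕ} (hv : v < 4096) (hw : w < 4096) :
    c.β (act a 273 v) (act a 273 w) = c.β v w := by
  obtain ⟨k, hk, rfl, h⟩ := c.surj a ha 273 one_g3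
  rw [← h, ← c.β_conj hk hv hw, c.cent k hk h _ (c.β_mem v w), mul_inv_cancel_right]

theorem Q_act {a : ℕ} (ha : a ∈ s5L) {v : ℕ} (hv : v < 4096) : c.Q (act a 273 v) = c.Q v := by
  obtain ⟨k, hk, rfl, h⟩ := c.surj a ha 273 one_g3
  have := c.Q_spec (c.conj_L k hk _ (c.r_mem v))
  rw [c.act_L k hk _ (c.r_mem v), c.π_r hv, h] at this
  rw [← this, ← mul_inv_cancel_right (c.Q v) k, ← c.cent k hk h _ (c.Q_mem v), Q]
  group

/-- the basic commutators -/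
noncomputable def γ (i j : ℕ) : G := c.β (1 * 16 ^ i) (8 * 16 ^ j)

theorem β_one {i j : ℕ} (hi : i < 3) (hj : j < 3) : ∀ m < 16, c.β (1 * 16 ^ i) (m * 16 ^ j) = c.γ i j ^ bN 1 m := by
  have h1 := zt_lt i hi 1 (by norm_num)
  refine bits_ind' 4 (P := fun m => c.β (1 * 16 ^ i) (m * 16 ^ j) = c.γ i j ^ bN 1 m) ?_ ?_ ?_
  · rw [zero_mul, c.β_symm, c.β_zero_left h1, zt_bN.2.2.2, pow_zero]
  · intro p hp
    by_cases h3 : p = 3
    · rw [h3, show 2 ^ 3 = 8 from rfl, zt_bN.2.1, pow_one, γ]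
    · obtain ⟨a, ha, m, hm, e1, e2⟩ := zt_fix p (by omega)
      have := c.β_act ha h1 (zt_lt j hj m hm)
      rw [zt_act a ha i hi 1 (by norm_num), zt_act a ha j hj m hm, e1] at this
      rw [zt_bN.1 p (by omega), pow_zero, ← e2, zt_xor j hj m hm _ (ap4_lt _ _),
        c.β_xor_right h1 (zt_lt j hj m hm) (zt_lt j hj _ (ap4_lt _ _)), this, c.Z_sq _ (c.β_mem _ _)]
  · intro x hx y hy e1 e2
    rw [zt_xor j hj x hx y hy, c.β_xor_right h1 (zt_lt j hj x hx) (zt_lt j hj y hy), e1, e2, bN_xor_right,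
      zt_pow (x := c.γ i j) (c.Z_sq _ (c.β_mem _ _)) (bN_lt _ _) (bN_lt _ _)]

theorem β_pure {i j n m : ℕ} (hi : i < 3) (hj : j < 3) (hn : n < 16) (hm : m < 16) (h0 : n ≠ 0) :
    c.β (n * 16 ^ i) (m * 16 ^ j) = c.γ i j ^ bN n m := by
  obtain ⟨a, ha, m', hm', e1, e2, e3⟩ := zt_trans n hn m hm h0
  have := c.β_act ha (zt_lt i hi 1 (by norm_num)) (zt_lt j hj m' hm')
  rw [zt_act a ha i hi 1 (by norm_num), zt_act a ha j hj m' hm', e1, e2] at this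
  rw [this, c.β_one hi hj m' hm', e3]

theorem γ_symm {i j : ℕ} (hi : i < 3) (hj : j < 3) : c.γ i j = c.γ j i := by
  rw [γ, c.β_symm, c.β_pure hj hi (by norm_num) (by norm_num) (by norm_num), zt_bN.2.2.1, pow_one]

theorem Q_pure {i n : ℕ} (hi : i < 3) (hn : n < 16) (h0 : n ≠ 0) : c.Q (n * 16 ^ i) = 1 := by
  have key : ∀ n < 16, n ≠ 0 → c.Q (n * 16 ^ i) = c.Q (1 * 16 ^ i) := fun n hn h0 => by
    obtain ⟨a, ha, -, -, e1, -⟩ := zt_trans n hn 0 (by norm_num) h0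
    have := c.Q_act ha (zt_lt i hi 1 (by norm_num))
    rwa [zt_act a ha i hi 1 (by norm_num), e1] at this
  have := c.Q_xor (zt_lt i hi 1 (by norm_num)) (zt_lt i hi 2 (by norm_num))
  rw [← zt_xor i hi 1 (by norm_num) 2 (by norm_num), key _ (by decide) (by decide), key 2 (by norm_num) (by norm_num),
    c.β_one hi hi 2 (by norm_num), show bN 1 2 = 0 from zt_bN.1 1 (by norm_num), pow_zero, mul_one,
    c.Z_sq _ (c.Q_mem _)] at this
  rw [key n hn h0, this]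

theorem γ_self {i : ℕ} (hi : i < 3) : c.γ i i = 1 := by
  have := c.Q_xor (zt_lt i hi 1 (by norm_num)) (zt_lt i hi 8 (by norm_num))
  rw [← zt_xor i hi 1 (by norm_num) 8 (by norm_num), c.Q_pure hi (by decide) (by decide),
    c.Q_pure hi (by norm_num) (by norm_num), c.Q_pure hi (by norm_num) (by norm_num), one_mul, one_mul] at this
  exact this.symm

/-- coordinates on `Z` -/
noncomputable def ζ (t : ℕ) : G := c.γ 1 2 ^ bt t 0 * c.γ 0 2 ^ bt t 1 * c.γ 0 1 ^ bt t 2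

theorem γ_mem (i j : ℕ) : c.γ i j ∈ c.Z := c.β_mem _ _

theorem ζ_mem (t : ℕ) : c.ζ t ∈ c.Z :=
  mul_mem (mul_mem (pow_mem (c.γ_mem _ _) _) (pow_mem (c.γ_mem _ _) _)) (pow_mem (c.γ_mem _ _) _)

theorem ζ_mul (t s : ℕ) : c.ζ t * c.ζ s = c.ζ (t ^^^ s) := by
  have h : ∀ {a b : G}, a ∈ c.Z → b ∈ c.Z → Commute a b := fun ha hb => c.Z_comm _ ha _ (c.Z_le hb)
  have p : ∀ i j n, c.γ i j ^ n ∈ c.Z := fun i j n => pow_mem (c.γ_mem _ _) _
  rw [ζ, ζ, ζ, (h (p _ _ _) (mul_mem (p _ _ _) (p _ _ _))).mul_mul_mul_comm, (h (p _ _ _) (p _ _ _)).mul_mul_mul_comm,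
    bt_xor, bt_xor, bt_xor, zt_pow (c.Z_sq _ (c.γ_mem _ _)) (bt_lt _ _) (bt_lt _ _),
    zt_pow (c.Z_sq _ (c.γ_mem _ _)) (bt_lt _ _) (bt_lt _ _), zt_pow (c.Z_sq _ (c.γ_mem _ _)) (bt_lt _ _) (bt_lt _ _)]

theorem ζ_zero : c.ζ 0 = 1 := by simp [ζ, bt_eq]

theorem ζ_γ {i j : ℕ} (hi : i < 3) (hj : j < 3) : c.ζ (if i = j then 0 else 2 ^ (3 - i - j)) = c.γ i j := by
  by_cases h : i = j
  · rw [if_pos h, h, c.ζ_zero, c.γ_self hj]
  · rw [if_neg h]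
    interval_cases i <;> interval_cases j <;>
      first
        | exact absurd rfl h
        | (simp [ζ, bt_eq]; done)
        | (rw [c.γ_symm (by norm_num) (by norm_num)]; simp [ζ, bt_eq])

theorem β_eq : ∀ v < 4096, ∀ w < 4096, c.β v w = c.ζ (cm v w) := by
  have hb : ∀ p < 12, ∀ q < 12, c.β (2 ^ p) (2 ^ q) = c.ζ (cm (2 ^ p) (2 ^ q)) := fun p hp q hq => by
    obtain ⟨e1, e2, e3, -⟩ := zt_basis p hp
    obtain ⟨f1, f2, f3, -⟩ := zt_basis q hq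
    rw [zt_cm p hp q hq]
    conv_lhs => rw [e1, f1, c.β_pure e3 f3 e2 f2 (by positivity), ← c.ζ_γ e3 f3]
    have := bN_lt (2 ^ (p % 4)) (2 ^ (q % 4))
    interval_cases bN (2 ^ (p % 4)) (2 ^ (q % 4))
    · rw [pow_zero, zero_mul, c.ζ_zero]
    · rw [pow_one, one_mul]
  intro v hv w hw
  revert v
  refine bits_ind (by rw [c.β_zero_left hw, cm_zero_left, c.ζ_zero]) (fun p hp => ?_) fun x hx y hy e1 e2 => by
    rw [c.β_xor_left hx hy hw, e1, e2, cm_xor_left, c.ζ_mul]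
  have h1 : 2 ^ p < 4096 := Nat.pow_lt_pow_right (m := p) (n := 12) (by norm_num) hp
  revert w
  exact bits_ind (by rw [c.β_symm, c.β_zero_left h1, cm_zero_right, c.ζ_zero]) (hb p hp) fun x hx y hy e1 e2 => by
    rw [c.β_xor_right h1 hx hy, e1, e2, cm_xor_right, c.ζ_mul]

theorem Q_eq : ∀ v < 4096, c.Q v = c.ζ (sqv v) := by
  refine bits_ind (by rw [c.Q_zero, show sqv 0 = 0 by decide +kernel, c.ζ_zero]) (fun p hp => ?_)
    fun x hx y hy e1 e2 => by rw [c.Q_xor hx hy, e1, e2, c.β_eq x hx y hy, sqv_xor, c.ζ_mul, c.ζ_mul]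
  obtain ⟨e1, e2, e3, e4⟩ := zt_basis p hp
  rw [e4, c.ζ_zero, e1, c.Q_pure e3 e2 (by positivity)]

theorem mem_Z (x : G) : x ∈ c.Z ↔ ∃ t < 8, x = c.ζ t := by
  refine ⟨fun hx => ?_, fun ⟨t, _, e⟩ => e ▸ c.ζ_mem t⟩
  let P : Subgroup G :=
    { carrier := {x | ∃ t < 8, x = c.ζ t}
      mul_mem' := fun ⟨t, ht, e⟩ ⟨s, hs, e'⟩ => ⟨t ^^^ s, xor_lt (n := 3) ht hs, by rw [e, e', c.ζ_mul]⟩
      one_mem' := ⟨0, by norm_num, c.ζ_zero.symm⟩
      inv_mem' := fun ⟨t, ht, e⟩ => ⟨t, ht, by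
        rw [e]; exact inv_eq_of_mul_eq_one_right (c.Z_sq _ (c.ζ_mem t))⟩ }
  exact c.Z_gen P (fun l hl l' hl' => ⟨_, cm_lt _ _, by
    rw [c.β_spec hl hl', c.β_eq _ (c.π_lt l) _ (c.π_lt l')]⟩) hx

theorem ζ_eq_one [Finite G] {t : ℕ} (ht : t < 8) (h : c.ζ t = 1) : t = 0 := by
  classical
  have := card_le_of_fib c.Z ⊥ id ((Finset.range 8).image c.ζ)
    (fun x hx => by
      obtain ⟨t, ht, rfl⟩ := (c.mem_Z x).1 hx
      exact Finset.mem_image.2 ⟨t, Finset.mem_range.2 ht, rfl⟩)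
    (fun x _ y _ e => by simpa [inv_mul_eq_one] using e)
  rw [c.card_Z, inf_bot_eq, card_bot, mul_one] at this
  have hi := Finset.injOn_of_card_image_eq (s := Finset.range 8) (f := c.ζ)
    (le_antisymm Finset.card_image_le (by rwa [Finset.card_range]))
  exact hi (Finset.mem_range.2 ht) (Finset.mem_range.2 (by norm_num)) (h.trans c.ζ_zero.symm)

theorem act_Z {k : G} (hk : k ∈ c.K) : ∀ t < 8, k * c.ζ t * k⁻¹ = c.ζ (cof (c.χ k) t) := by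
  have hσ : c.σ k ∈ s5L := by rw [c.σ_eq ⟨k, hk⟩]; exact pm_mem _
  obtain ⟨e1, e2, e4⟩ := zt_cof _ hσ _ (c.χ_mem k hk)
  have key : ∀ v < 4096, ∀ w < 4096, k * c.ζ (cm v w) * k⁻¹ =
      c.ζ (cm (act (c.σ k) (c.χ k) v) (act (c.σ k) (c.χ k) w)) := fun v hv w hw => by
    rw [← c.β_eq v hv w hw, c.β_conj hk hv hw, c.β_eq _ (act_lt _ _ _) _ (act_lt _ _ _)]
  refine bits_ind' 3 (P := fun t => k * c.ζ t * k⁻¹ = c.ζ (cof (c.χ k) t)) ?_ ?_ ?_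
  · rw [cof_zero, c.ζ_zero]; group
  · intro i hi
    interval_cases i
    · rw [pow_zero, ← e1, ← key _ (by norm_num) _ (by norm_num), show cm 16 2048 = 1 by decide +kernel]
    · rw [pow_one, ← e2, ← key _ (by norm_num) _ (by norm_num), show cm 1 2048 = 2 by decide +kernel]
    · rw [show 2 ^ 2 = 4 from rfl, ← e4, ← key _ (by norm_num) _ (by norm_num), show cm 1 128 = 4 by decide +kernel]
  · intro x _ y _ a b
    rw [cof_xor, ← c.ζ_mul, ← c.ζ_mul, ← a, ← b]; group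

end KC0

variable [Finite G]

theorem KC0.exists_KC (c : KC0 G) : Nonempty (KC G) :=
  ⟨{ K := c.K, L := c.L, Z := c.Z, π := c.π, σ := c.σ, χ := c.χ, ζ := c.ζ, σh := c.σh, σ_eq := c.σ_eq, hK := c.hK
     L_le := c.L_le, conj_L := c.conj_L, card_L := c.card_L, mem_Z := c.mem_Z
     ζ_mem := fun t _ => c.Z_le (c.ζ_mem t)
     ζ_mul := fun t _ s _ => c.ζ_mul t s
     ζ_eq_one := fun _ ht h => c.ζ_eq_one ht h
     π_lt := c.π_lt, π_mul := c.π_mul, π_zero := c.π_zero, π_surj := c.π_surj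
     comm := fun l hl l' hl' => by
       rw [← c.β_eq _ (c.π_lt l) _ (c.π_lt l'), ← c.β_spec hl hl']; group
     sq := fun l hl => by rw [← c.Q_eq _ (c.π_lt l), c.Q_spec hl]
     χ_mem := c.χ_mem, χ_mul := c.χ_mul, ker := c.ker, surj := c.surj, act_L := c.act_L
     act_Z := fun _ hk => c.act_Z hk }⟩

end CfsgLib.J4K
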